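import Mathlib
import Cfsg.Agent.Lib.Helper25.BG2
import Cfsg.Agent.Lib.Helper25.Cop1
import Cfsg.Agent.Lib.Helper25.NilpMonomial

set_option autoImplicit false

namespace Cfsg.Agent.Lib.Helper25

open Cfsg
open scoped ComplexConjugate

universe u

/-- all `p`-subgroups are abelian -/
def AGroup (X : Type u) [Group X] : Prop :=
  ∀ p : ℕ, p.Prime → ∀ Q : Subgroup X, IsPGroup p Q → ∀ a ∈ Q, ∀ b ∈ Q, a * b = b * a

theorem AGroup.of_injective {X Y : Type u} [Group X] [Group Y] (f : Y →* X)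
    (hf : Function.Injective f) (h : AGroup X) : AGroup Y := by
  intro p hp Q hQ a ha b hb
  apply hf
  rw [map_mul, map_mul]
  exact h p hp (Q.map f) (hQ.map f) _ ⟨a, ha, rfl⟩ _ ⟨b, hb, rfl⟩

theorem AGroup.of_surjective {X Y : Type u} [Group X] [Group Y] [Finite X] (f : X →* Y)
    (hf : Function.Surjective f) (h : AGroup X) : AGroup Y := by
  intro p hp Q hQ
  haveI : Fact p.Prime := ⟨hp⟩
  haveI : Finite Y := Finite.of_surjective f hf
  set W := Q.comap f with hW
  obtain ⟨T, hT⟩ := Helper17.exists_isSyl p W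
  have hWQ : W.map f = Q := Subgroup.map_comap_eq_self_of_surjective hf Q
  have hker : f.ker ≤ W := by
    intro x hx
    rw [hW, Subgroup.mem_comap, MonoidHom.mem_ker.1 hx]
    exact Q.one_mem
  have h1 : (T.map f).relIndex Q ∣ T.relIndex W := by
    rw [← hWQ, Subgroup.relIndex_map_map, sup_of_le_left hker]
    exact Subgroup.relIndex_dvd_of_le_left W le_sup_left
  have h2 : (T.map f).relIndex Q ∣ Nat.card Q := Subgroup.relIndex_dvd_card _ _
  obtain ⟨k, hk⟩ := IsPGroup.iff_card.1 hQ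
  rw [hk] at h2
  obtain ⟨j, -, hj⟩ := (Nat.dvd_prime_pow hp).1 h2
  have hQT : Q ≤ T.map f := by
    rw [← Subgroup.relIndex_eq_one]
    rcases j with _ | j
    · simpa using hj
    · exfalso
      apply hT.not_dvd_relIndex
      refine dvd_trans ?_ h1
      rw [hj]
      exact dvd_pow_self _ (Nat.succ_ne_zero j)
  intro a ha b hb
  obtain ⟨a', ha', rfl⟩ := hQT ha
  obtain ⟨b', hb', rfl⟩ := hQT hb
  rw [← map_mul, ← map_mul, h p hp T hT.isPGroup a' ha' b' hb']

theorem AGroup.comm_of_nilpotent {X : Type u} [Group X] [Finite X] [hn : Group.IsNilpotent X]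
    (h : AGroup X) (a b : X) : a * b = b * a := by
  have q := (Group.isNilpotent_of_finite_tfae (G := X)).out 0 4
  obtain ⟨e⟩ := q.1 hn
  obtain ⟨x, rfl⟩ := e.surjective a
  obtain ⟨y, rfl⟩ := e.surjective b
  rw [← map_mul, ← map_mul]
  congr 1
  funext p P
  apply Subtype.ext
  exact h p (Nat.prime_of_mem_primeFactors p.2) P P.2 _ (x p P).2 _ (y p P).2

theorem agroup_of_sylow {X : Type u} [Group X]
    (h : ∀ (p : ℕ) [Fact p.Prime] (P : Sylow p X), ∀ a ∈ P, ∀ b ∈ P, a * b = b * a) : AGroup X := by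
  intro p hp Q hQ a ha b hb
  haveI : Fact p.Prime := ⟨hp⟩
  obtain ⟨P, hP⟩ := hQ.exists_le_sylow
  exact h p P a (hP ha) b (hP hb)

/-- the restriction to `T ⊓ N` stays irreducible -/
theorem restrict_irr_of_induced {H : Type u} [Group H] [Fintype H] (N T : Subgroup H)
    {ψ : H → ℂ} (hψ : IsIrrCharacter H ψ) (hN : IsIrrCharacter N (fun n : N => ψ n))
    {η : T → ℂ} (hη : IsIrrCharacter T η) (hind : indFun T η = ψ) :
    IsIrrCharacter (T ⊓ N : Subgroup H) (fun m => η ⟨m, m.2.1⟩) := by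
  classical
  have hψc := Helper7.isCharacter_of_irr hψ
  have hcf := Helper7.isClassFunction_of_isCharacter hψc
  have hηc := Helper7.isCharacter_of_irr hη
  set M₀ : Subgroup H := T ⊓ N with hM₀
  let ι : M₀ →* T := Subgroup.inclusion inf_le_left
  have hηM : IsCharacter M₀ (fun m => η ⟨m, m.2.1⟩) := isCharacter_comp ι hηc
  have hηM0 : (fun m : M₀ => η ⟨m, m.2.1⟩) ≠ 0 := by
    intro h0
    exact Helper7.irr_apply_one_ne_zero hη (congrFun h0 1)
  obtain ⟨β₀, hβ₀, hne⟩ := Helper2.IsCharacter.exists_constituent hηM hηM0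
  have hβc := Helper7.isCharacter_of_irr hβ₀
  -- η is a constituent of ψ_T
  have h1 : classInner (fun t : T => ψ t) η ≠ 0 := by
    rw [← classInner_conj_symm, ← frobenius_reciprocity T η ψ hcf, hind,
      Helper2.irr_orthonormal hψ hψ, if_pos rfl, map_one]
    exact one_ne_zero
  have hδ := Helper2.IsCharacter.sub_constituent (Helper7.isCharacter_restrict hψc T) hη h1
  have hδM : IsCharacter M₀ (fun m => ((fun t : T => ψ t) - η) (ι m)) := isCharacter_comp ι hδ
  have h2 : classInner (fun m : M₀ => ψ m) β₀ ≠ 0 := by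
    have e1 : (fun m : M₀ => ψ m) = (fun m : M₀ => η ⟨m, m.2.1⟩)
        + (fun m => ((fun t : T => ψ t) - η) (ι m)) := by
      funext m
      simp only [Pi.add_apply, Pi.sub_apply]
      have : ι m = ⟨m, m.2.1⟩ := rfl
      rw [this]
      ring
    obtain ⟨a, ha⟩ := Helper2.IsCharacter.classInner_nat hηM hβc
    obtain ⟨b, hb⟩ := Helper2.IsCharacter.classInner_nat hδM hβc
    rw [e1, classInner_add_left, ha, hb]
    rw [ha] at hne
    have : a ≠ 0 := by exact_mod_cast hne
    have : a + b ≠ 0 := by omega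
    exact_mod_cast this
  -- pass to N
  have hMN : M₀ ≤ N := inf_le_right
  have hβ' := isIrrCharacter_subgroupOf M₀ hMN hβ₀
  have h3 := classInner_subgroupOf M₀ hMN (fun m : M₀ => ψ m) β₀
  set β' : M₀.subgroupOf N → ℂ := fun x => β₀ ⟨(x : N), Subgroup.mem_subgroupOf.mp x.2⟩ with hβ'def
  have hcfN := Helper7.isClassFunction_of_isCharacter (Helper7.isCharacter_of_irr hN)
  have h4 : classInner (indFun (M₀.subgroupOf N) β') (fun n : N => ψ n) ≠ 0 := by
    rw [frobenius_reciprocity _ β' _ hcfN, ← classInner_conj_symm]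
    intro h0
    apply h2
    rw [← h3]
    exact (map_eq_zero _).1 h0
  obtain ⟨k, hk⟩ := Helper2.IsCharacter.degree_constituent
    (isCharacter_indFun _ β' (Helper7.isCharacter_of_irr hβ')) hN h4
  rw [indFun_one] at hk
  obtain ⟨k', hk'⟩ := Helper2.IsCharacter.degree_constituent hηM hβ₀ hne
  obtain ⟨dβ, hdβ0, hdβ⟩ := Helper7.irr_apply_one hβ₀
  obtain ⟨dη, hdη0, hdη⟩ := Helper7.irr_apply_one hη
  have hψ1 : ψ 1 = (T.index : ℂ) * dη := by rw [← hind, indFun_one, hdη]
  have e1 : β' 1 = dβ := hdβ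
  have e2 : (fun m : M₀ => η ⟨m, m.2.1⟩) 1 = dη := hdη
  have e3 : (fun n : N => ψ n) 1 = (T.index : ℂ) * dη := hψ1
  have hk0 : ((M₀.subgroupOf N).index : ℂ) * dβ = (T.index : ℂ) * dη + k := by
    rw [← e1, ← e3]; exact hk
  have hk0' : (dη : ℂ) = dβ + k' := by
    rw [← e2, ← hdβ]; exact hk'
  have hk1 : (M₀.subgroupOf N).index * dβ = T.index * dη + k := by exact_mod_cast hk0
  have hk2 : dη = dβ + k' := by exact_mod_cast hk0'
  have hidx : (M₀.subgroupOf N).index ≤ T.index := by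
    show M₀.relIndex N ≤ T.index
    rw [hM₀, Subgroup.inf_relIndex_right, ← Subgroup.relIndex_top_right T]
    apply Subgroup.relIndex_le_of_le_right le_top
    rw [Subgroup.relIndex_top_right]
    exact T.index_ne_zero_of_finite
  have hTpos : 0 < T.index := Nat.pos_of_ne_zero T.index_ne_zero_of_finite
  have hle : dη ≤ dβ := by
    by_contra hcon
    push Not at hcon
    have : (M₀.subgroupOf N).index * dβ ≤ T.index * dβ := Nat.mul_le_mul_right _ hidx
    have : T.index * dβ < T.index * dη := Nat.mul_lt_mul_of_pos_left hcon hTpos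
    omega
  rw [eq_of_constituent_of_degree_le hηM hβ₀ hne e2 hdβ hle]
  exact hβ₀

end Cfsg.Agent.Lib.Helper25
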