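import Mathlib
import Cfsg.Agent.Lib.Helper25.AGroup
import Cfsg.Agent.Lib.Helper10.Fitting

set_option autoImplicit false

namespace Cfsg.Agent.Lib.Helper25

open Cfsg
open scoped ComplexConjugate

universe u

theorem agroup_monomial_aux (n : ℕ) : ∀ (G : Type u) [Group G] [Fintype G], Nat.card G = n →
    ∀ (N : Subgroup G) [N.Normal], Group.IsSolvable N → AGroup N → ∀ χ : G → ℂ,
    IsIrrCharacter G χ → IsIrrCharacter N (fun n : N => χ n) →
      ∃ (H : Subgroup G) (lam : H →* ℂˣ), χ = indFun H (fun h => (lam h : ℂ)) := by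
  induction n using Nat.strong_induction_on with
  | _ n ih =>
  intro G _ _ hcard N hNn hsolv hA χ hχ hχN
  classical
  obtain ⟨m, ρ, hρ, rfl⟩ := id hχ
  by_cases hker : MonoidHom.ker ρ = ⊥
  swap
  · let σ : Representation ℂ (G ⧸ MonoidHom.ker ρ) (Fin m → ℂ) :=
      QuotientGroup.lift (MonoidHom.ker ρ) ρ (fun g hg => MonoidHom.mem_ker.mp hg)
    have hσ : σ.IsIrreducible := isIrreducible_of_comp σ (QuotientGroup.mk' (MonoidHom.ker ρ)) hρ
    have : Fintype (G ⧸ MonoidHom.ker ρ) := Fintype.ofFinite _
    have hlt : Nat.card (G ⧸ MonoidHom.ker ρ) < n := by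
      have h1 := Subgroup.card_eq_card_quotient_mul_card_subgroup (MonoidHom.ker ρ)
      have h2 := (Subgroup.one_lt_card_iff_ne_bot (MonoidHom.ker ρ)).mpr hker
      have h3 : 0 < Nat.card (G ⧸ MonoidHom.ker ρ) := Nat.card_pos
      rw [hcard] at h1
      nlinarith
    set π := QuotientGroup.mk' (MonoidHom.ker ρ) with hπ
    have hπs : Function.Surjective π := QuotientGroup.mk'_surjective _
    haveI hNbar : (N.map π).Normal := hNn.map π hπs
    have hsub : Function.Surjective (π.subgroupMap N) := π.subgroupMap_surjective N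
    have hsolv' : Group.IsSolvable (N.map π) := Group.isSolvable_of_surjective hsub
    have hA' : AGroup (N.map π) := hA.of_surjective _ hsub
    have hσc : IsIrrCharacter (G ⧸ MonoidHom.ker ρ) σ.character := ⟨m, σ, hσ, rfl⟩
    have hirr' : IsIrrCharacter (N.map π) (fun x : N.map π => σ.character x) := by
      apply Helper2.isIrrCharacter_of_norm_one
        (Helper7.isCharacter_restrict (Helper7.isCharacter_of_irr hσc) _)
      rw [← classInner_comp_surjective (π.subgroupMap N) hsub]
      exact (Helper2.irr_orthonormal hχN hχN).trans (if_pos rfl)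
    obtain ⟨Hbar, lbar, hl⟩ := ih _ hlt (G ⧸ MonoidHom.ker ρ) rfl (N.map π) hsolv' hA'
      σ.character hσc hirr'
    obtain ⟨H, hNH, rfl⟩ : ∃ H : Subgroup G, MonoidHom.ker ρ ≤ H ∧
        Hbar = H.map (QuotientGroup.mk' (MonoidHom.ker ρ)) := by
      refine ⟨Hbar.comap (QuotientGroup.mk' (MonoidHom.ker ρ)), ?_,
        (Subgroup.map_comap_eq_self_of_surjective
          (QuotientGroup.mk'_surjective (MonoidHom.ker ρ)) Hbar).symm⟩
      intro g hg
      rw [Subgroup.mem_comap]
      have : QuotientGroup.mk' (MonoidHom.ker ρ) g = 1 :=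
        (QuotientGroup.eq_one_iff g).mpr hg
      rw [this]
      exact Subgroup.one_mem _
    refine ⟨H, lbar.comp ((QuotientGroup.mk' (MonoidHom.ker ρ)).subgroupMap H), ?_⟩
    funext g
    have h1 := indFun_inflation (MonoidHom.ker ρ) H hNH
      (fun h => ((lbar.comp ((QuotientGroup.mk' (MonoidHom.ker ρ)).subgroupMap H)) h : ℂ))
      (fun q => (lbar q : ℂ)) (fun x => rfl) g
    rw [← h1, ← hl]
    rfl
  · -- faithful case
    have hFnil : Group.IsNilpotent (fittingSubgroup N) := Helper1.fitting_nilpotent
    have hFA : AGroup (fittingSubgroup N) := hA.of_injective _ (Subgroup.subtype_injective _)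
    set A := (fittingSubgroup N).map N.subtype with hAdef
    haveI : (fittingSubgroup N).Characteristic := Helper10.fittingSubgroup_characteristic N
    haveI hAn : A.Normal := ConjAct.normal_of_characteristic_of_normal
    have hAc : ∀ a ∈ A, ∀ b ∈ A, a * b = b * a := by
      rintro _ ⟨a, ha, rfl⟩ _ ⟨b, hb, rfl⟩
      have := hFA.comm_of_nilpotent ⟨a, ha⟩ ⟨b, hb⟩
      have h2 := congrArg (fun x : fittingSubgroup N => ((x : N) : G)) this
      exact h2
    rcases scalar_or_induced A hAc ρ hρ with hs | ⟨T, ψ, hT, hAT, hψ, hind⟩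
    · -- N is abelian
      have hcent : ∀ a ∈ A, ∀ g : G, g * a = a * g := by
        intro a ha g
        obtain ⟨c, hc⟩ := hs a ha
        have h3 : ρ (g * a) = ρ (a * g) := by
          rw [map_mul, map_mul, hc]
          ext
          simp
        exact (MonoidHom.ker_eq_bot_iff ρ).mp hker h3
      have htopF : fittingSubgroup N = ⊤ := by
        rw [eq_top_iff]
        refine le_trans ?_ (Helper1.centralizer_fitting_le (G := N))
        intro x _
        rw [Subgroup.mem_centralizer_iff]
        intro f hf
        apply Subtype.ext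
        exact (hcent f ⟨f, hf, rfl⟩ x).symm
      have hNcomm : IsMulCommutative N := ⟨⟨fun a b => by
        have ha : a ∈ fittingSubgroup N := htopF ▸ Subgroup.mem_top a
        have hb : b ∈ fittingSubgroup N := htopF ▸ Subgroup.mem_top b
        have := hFA.comm_of_nilpotent ⟨a, ha⟩ ⟨b, hb⟩
        exact congrArg (fun x : fittingSubgroup N => (x : N)) this⟩⟩
      have h1 : ρ.character 1 = 1 :=
        Helper7.irr_apply_one_of_comm (G := N) (χ := fun n : N => ρ.character n) hχN
      obtain ⟨f, hf⟩ := Helper7.exists_hom_of_linear (isCharacter_of_irr hχ) h1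
      refine ⟨⊤, f.comp (⊤ : Subgroup G).subtype, ?_⟩
      have h2 := indFun_top (isClassFunction_of_isCharacter (isCharacter_of_irr hχ))
      conv_lhs => rw [← h2]
      congr 1
      funext h
      exact hf h
    · have : Fintype T := Fintype.ofFinite _
      have hlt : Nat.card T < n := by
        rw [← hcard]
        apply lt_of_le_of_ne (Subgroup.card_le_card_group T)
        intro h4
        exact hT (Subgroup.eq_top_of_card_eq T h4)
      have hM := restrict_irr_of_induced N T hχ hχN hψ hind
      let f : N.subgroupOf T →* (T ⊓ N : Subgroup G) :=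
        (T.subtype.comp (N.subgroupOf T).subtype).codRestrict _ (fun x => ⟨x.1.2, x.2⟩)
      have hf : Function.Surjective f := fun y => ⟨⟨⟨y, y.2.1⟩, y.2.2⟩, rfl⟩
      let g : N.subgroupOf T →* N :=
        (T.subtype.comp (N.subgroupOf T).subtype).codRestrict _ (fun x => x.2)
      have hg : Function.Injective g := by
        intro a b hab
        apply Subtype.ext
        apply Subtype.ext
        exact congrArg (fun x : N => (x : G)) hab
      have hirrT : IsIrrCharacter (N.subgroupOf T) (fun x : N.subgroupOf T => ψ x) :=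
        isIrrCharacter_comp_surjective f hf hM
      obtain ⟨H', μ, hμ⟩ := ih _ hlt T rfl (N.subgroupOf T)
        (Group.isSolvable_of_isSolvable_injective hg) (hA.of_injective g hg) ψ hψ hirrT
      obtain ⟨H, hHT, rfl⟩ : ∃ H : Subgroup G, H ≤ T ∧ H' = H.subgroupOf T :=
        ⟨H'.map T.subtype, Subgroup.map_subtype_le H',
          (Subgroup.comap_map_eq_self_of_injective T.subtype_injective H').symm⟩
      refine ⟨H, μ.comp (Subgroup.subgroupOfEquivOfLe hHT).symm.toMonoidHom, ?_⟩
      rw [← hind, hμ, ← indFun_trans H T hHT]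
      congr 2

end Cfsg.Agent.Lib.Helper25
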