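import Mathlib

set_option autoImplicit false

namespace Cfsg.Agent.Lib.Helper25

variable {A : Type*} [CommGroup A]

/-- Invariance of a subgroup under a group of automorphisms. -/
def InvSub (X : Subgroup (MulAut A)) (B : Subgroup A) : Prop := ∀ x ∈ X, ∀ b ∈ B, x b ∈ B

theorem invSub_iff (X : Subgroup (MulAut A)) (B : Subgroup A) :
    (∀ x ∈ X, B.map x.toMonoidHom = B) ↔ InvSub X B := by
  constructor
  · intro h x hx b hb
    rw [← h x hx]
    exact ⟨b, hb, rfl⟩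
  · intro h x hx
    apply le_antisymm
    · rintro _ ⟨b, hb, rfl⟩
      exact h x hx b hb
    · intro b hb
      refine ⟨x⁻¹ b, h x⁻¹ (X.inv_mem hx) b hb, ?_⟩
      simp

theorem mem_of_pow_mem_of_coprime {C : Subgroup A} {t : A} {m n : ℕ} (hmn : m.Coprime n)
    (h1 : t ^ m ∈ C) (h2 : t ^ n ∈ C) : t ∈ C := by
  have h := Nat.gcd_eq_gcd_ab m n
  rw [hmn.gcd_eq_one] at h
  have e : t = (t ^ m) ^ (Nat.gcdA m n) * (t ^ n) ^ (Nat.gcdB m n) := by
    rw [← zpow_natCast t m, ← zpow_natCast t n, ← zpow_mul, ← zpow_mul, ← zpow_add, ← h]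
    simp
  rw [e]
  exact C.mul_mem (C.zpow_mem h1 _) (C.zpow_mem h2 _)

/-- Abstract complements in elementary abelian sections. -/
theorem exists_section_compl [Finite A] {p : ℕ} [Fact p.Prime] (T D C : Subgroup A)
    (hCD : C ≤ D) (hDT : D ≤ T) (hp : ∀ t ∈ T, t ^ p ∈ C) :
    ∃ E : Subgroup A, C ≤ E ∧ E ≤ T ∧ D ⊓ E ≤ C ∧ T ≤ D ⊔ E := by
  obtain ⟨E, hE⟩ := exists_maximal_of_wellFoundedGT
    (fun E : Subgroup A => C ≤ E ∧ E ≤ T ∧ D ⊓ E ≤ C) ⟨C, le_rfl, hCD.trans hDT, inf_le_right⟩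
  obtain ⟨⟨h1, h2, h3⟩, hmax⟩ := hE
  refine ⟨E, h1, h2, h3, ?_⟩
  intro t ht
  by_contra hcon
  have hE' : ¬ (D ⊓ (E ⊔ Subgroup.zpowers t) ≤ C) := by
    intro h4
    have h5 := hmax (y := E ⊔ Subgroup.zpowers t)
      ⟨h1.trans le_sup_left, sup_le h2 (by rwa [Subgroup.zpowers_le]), h4⟩ le_sup_left
    apply hcon
    exact (le_sup_right : E ≤ D ⊔ E) (h5 ((le_sup_right : Subgroup.zpowers t ≤ _)
      (Subgroup.mem_zpowers t)))
  rw [SetLike.not_le_iff_exists] at hE'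
  obtain ⟨d, ⟨hdD, hdE⟩, hdC⟩ := hE'
  obtain ⟨ε, hε, s, hs, rfl⟩ := Subgroup.mem_sup.1 hdE
  obtain ⟨k, rfl⟩ := Subgroup.mem_zpowers_iff.1 hs
  by_cases hk : (p : ℤ) ∣ k
  · obtain ⟨j, rfl⟩ := hk
    apply hdC
    apply h3
    refine ⟨hdD, E.mul_mem hε ?_⟩
    rw [zpow_mul, zpow_natCast]
    exact E.zpow_mem (h1 (hp t ht)) _
  · have hcop : IsCoprime k (p : ℤ) := by
      rw [isCoprime_comm]
      exact (Nat.prime_iff_prime_int.1 (Fact.out : p.Prime)).coprime_iff_not_dvd.2 hk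
    obtain ⟨u, v, huv⟩ := hcop
    apply hcon
    have e : t = (t ^ k) ^ u * (t ^ p) ^ v := by
      rw [← zpow_natCast t p, ← zpow_mul, ← zpow_mul, ← zpow_add]
      have : k * u + (p : ℤ) * v = 1 := by linarith
      rw [this, zpow_one]
    have h6 : t ^ k ∈ D ⊔ E := by
      have : t ^ k = (ε * t ^ k) * ε⁻¹ := by
        rw [mul_comm ε, mul_assoc, mul_inv_cancel, mul_one]
      rw [this]
      exact Subgroup.mul_mem_sup hdD (E.inv_mem hε)
    rw [e]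
    exact (D ⊔ E).mul_mem ((D ⊔ E).zpow_mem h6 _)
      ((D ⊔ E).zpow_mem ((le_sup_right : E ≤ D ⊔ E) (h1 (hp t ht))) _)

end Cfsg.Agent.Lib.Helper25
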