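import Mathlib
import Cfsg.Agent.Lib.Helper25.AbInv1

set_option autoImplicit false

namespace Cfsg.Agent.Lib.Helper25

variable {A : Type*} [CommGroup A]

/-- Maschke's theorem for elementary abelian invariant sections. -/
theorem exists_inv_section_compl [Finite A] {p : ℕ} [Fact p.Prime] (X : Subgroup (MulAut A))
    (hX : (Nat.card X).Coprime p) (T D C : Subgroup A)
    (hT : InvSub X T) (hD : InvSub X D) (hC : InvSub X C)
    (hCD : C ≤ D) (hDT : D ≤ T) (hp : ∀ t ∈ T, t ^ p ∈ C) :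
    ∃ E : Subgroup A, InvSub X E ∧ C ≤ E ∧ E ≤ T ∧ D ⊓ E ≤ C ∧ T ≤ D ⊔ E := by
  classical
  haveI : Fintype X := Fintype.ofFinite X
  obtain ⟨E, hCE, hET, hDE, hTDE⟩ := exists_section_compl (p := p) T D C hCD hDT hp
  have hex : ∀ t : A, ∃ d : A, t ∈ T → (d ∈ D ∧ d⁻¹ * t ∈ E) := by
    intro t
    by_cases ht : t ∈ T
    · obtain ⟨d, hd, ε, hε, rfl⟩ := Subgroup.mem_sup.1 (hTDE ht)
      exact ⟨d, fun _ => ⟨hd, by simpa using hε⟩⟩
    · exact ⟨1, fun h => absurd h ht⟩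
  choose δ hδ using hex
  let q : A →* A ⧸ C := QuotientGroup.mk' C
  have hq : ∀ a, q a = 1 ↔ a ∈ C := fun a => QuotientGroup.eq_one_iff a
  have hqx : ∀ x ∈ X, ∀ a b : A, q a = q b → q (x a) = q (x b) := by
    intro x hx a b hab
    have h1 : q (a * b⁻¹) = 1 := by rw [map_mul, map_inv, hab, mul_inv_cancel]
    have h2 := hC x hx _ ((hq _).1 h1)
    have h3 : q (x (a * b⁻¹)) = 1 := (hq _).2 h2
    rw [map_mul, map_inv, map_mul, map_inv, mul_inv_eq_one] at h3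
    exact h3
  have P1 : ∀ t ∈ T, ∀ s ∈ T, q (δ (t * s)) = q (δ t * δ s) := by
    intro t ht s hs
    have a1 := hδ t ht
    have a2 := hδ s hs
    have a3 := hδ (t * s) (T.mul_mem ht hs)
    have h1 : δ (t * s) * (δ t * δ s)⁻¹ ∈ C := by
      apply hDE
      refine ⟨D.mul_mem a3.1 (D.inv_mem (D.mul_mem a1.1 a2.1)), ?_⟩
      have : δ (t * s) * (δ t * δ s)⁻¹
          = ((δ (t * s))⁻¹ * (t * s))⁻¹ * (((δ t)⁻¹ * t) * ((δ s)⁻¹ * s)) := by
        simp only [mul_inv_rev, inv_inv]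
        have hh : ∀ a b c t s : A, a * (c⁻¹ * b⁻¹) = s⁻¹ * t⁻¹ * a * (b⁻¹ * t * (c⁻¹ * s)) := by
          intro a b c t s
          calc a * (c⁻¹ * b⁻¹) = a * (c⁻¹ * b⁻¹) * ((s⁻¹ * s) * (t⁻¹ * t)) := by simp
            _ = s⁻¹ * t⁻¹ * a * (b⁻¹ * t * (c⁻¹ * s)) := by
                simp only [mul_comm, mul_left_comm, mul_assoc]
        exact hh _ _ _ _ _
      rw [this]
      exact E.mul_mem (E.inv_mem a3.2) (E.mul_mem a1.2 a2.2)
    have h2 := (hq _).2 h1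
    rw [map_mul, map_inv, mul_inv_eq_one] at h2
    exact h2
  have P2 : ∀ t ∈ D, q (δ t) = q t := by
    intro t ht
    have a1 := hδ t (hDT ht)
    have h1 : (δ t)⁻¹ * t ∈ C := hDE ⟨D.mul_mem (D.inv_mem a1.1) ht, a1.2⟩
    have h2 := (hq _).2 h1
    rw [map_mul, map_inv, inv_mul_eq_one] at h2
    exact h2
  let σ : A → A := fun t => ∏ x : X, (x : MulAut A) (δ ((x : MulAut A)⁻¹ t))
  have hTinv : ∀ x : X, ∀ t ∈ T, (x : MulAut A)⁻¹ t ∈ T := fun x t ht =>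
    hT _ (X.inv_mem x.2) t ht
  have hDinv : ∀ x : X, ∀ t ∈ D, (x : MulAut A)⁻¹ t ∈ D := fun x t ht =>
    hD _ (X.inv_mem x.2) t ht
  have hσD : ∀ t ∈ T, σ t ∈ D := by
    intro t ht
    exact Subgroup.prod_mem _ (fun x _ => hD _ x.2 _ (hδ _ (hTinv x t ht)).1)
  have S1 : ∀ t ∈ T, ∀ s ∈ T, q (σ (t * s)) = q (σ t) * q (σ s) := by
    intro t ht s hs
    simp only [σ, map_prod]
    rw [← Finset.prod_mul_distrib]
    refine Finset.prod_congr rfl (fun x _ => ?_)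
    rw [← map_mul q, ← map_mul (x : MulAut A), map_mul ((x : MulAut A)⁻¹)]
    exact hqx _ x.2 _ _ (P1 _ (hTinv x t ht) _ (hTinv x s hs))
  have S2 : ∀ y : X, ∀ t, σ ((y : MulAut A) t) = (y : MulAut A) (σ t) := by
    intro y t
    simp only [σ, map_prod]
    refine Fintype.prod_equiv (Equiv.mulLeft y⁻¹) _ _ (fun x => ?_)
    simp only [Equiv.coe_mulLeft, Subgroup.coe_mul, Subgroup.coe_inv, mul_inv_rev, inv_inv,
      MulAut.mul_apply, MulAut.apply_inv_self]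
  have S3 : ∀ t ∈ D, q (σ t) = q t ^ Nat.card X := by
    intro t ht
    simp only [σ, map_prod]
    rw [Nat.card_eq_fintype_card, ← Finset.card_univ, ← Finset.prod_const]
    refine Finset.prod_congr rfl (fun x _ => ?_)
    have := hqx _ x.2 _ _ (P2 _ (hDinv x t ht))
    rw [this, MulAut.apply_inv_self]
  let E' : Subgroup A :=
    { carrier := {t | t ∈ T ∧ σ t ∈ C}
      one_mem' := by
        refine ⟨T.one_mem, ?_⟩
        rw [← hq, S3 1 D.one_mem, map_one, one_pow]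
      mul_mem' := by
        rintro t s ⟨ht, ht'⟩ ⟨hs, hs'⟩
        refine ⟨T.mul_mem ht hs, ?_⟩
        rw [← hq, S1 t ht s hs, (hq _).2 ht', (hq _).2 hs', one_mul]
      inv_mem' := by
        rintro t ⟨ht, ht'⟩
        refine ⟨T.inv_mem ht, ?_⟩
        have h1 := S1 t ht t⁻¹ (T.inv_mem ht)
        rw [mul_inv_cancel, S3 1 D.one_mem, map_one, one_pow, (hq _).2 ht', one_mul] at h1
        rw [← hq, ← h1] }
  have hmem : ∀ t, t ∈ E' ↔ t ∈ T ∧ σ t ∈ C := fun _ => Iff.rfl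
  refine ⟨E', ?_, ?_, ?_, ?_, ?_⟩
  · intro y hy t ht
    rw [hmem] at ht ⊢
    refine ⟨hT y hy t ht.1, ?_⟩
    have := S2 ⟨y, hy⟩ t
    simp only at this
    rw [this]
    exact hC y hy _ ht.2
  · intro c hc
    rw [hmem]
    refine ⟨hDT (hCD hc), ?_⟩
    rw [← hq, S3 c (hCD hc), (hq _).2 hc, one_pow]
  · intro t ht
    exact ht.1
  · rintro t ⟨htD, htE⟩
    have htE' := ((hmem t).1 htE).2
    rw [← hq, S3 t htD, ← map_pow, hq] at htE'
    exact mem_of_pow_mem_of_coprime hX htE' (hp t (hDT htD))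
  · intro t ht
    have hs := hσD t ht
    have h := Nat.gcd_eq_gcd_ab (Nat.card X) p
    rw [hX.gcd_eq_one] at h
    set m := Nat.gcdA (Nat.card X) p with hm
    set v := Nat.gcdB (Nat.card X) p with hv
    have hu : (σ t) ^ m ∈ D := D.zpow_mem hs _
    have e : t = (σ t) ^ m * (((σ t) ^ m)⁻¹ * t) := by simp
    rw [e]
    refine Subgroup.mul_mem_sup hu ?_
    rw [hmem]
    have huT : ((σ t) ^ m)⁻¹ ∈ T := T.inv_mem (hDT hu)
    refine ⟨T.mul_mem huT ht, ?_⟩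
    rw [← hq, S1 _ huT t ht, S3 _ (D.inv_mem hu), ← map_pow, ← map_mul, hq]
    have e2 : (((σ t) ^ m)⁻¹) ^ Nat.card X * σ t = ((σ t) ^ p) ^ v := by
      rw [← zpow_natCast (σ t) p, ← zpow_mul, ← zpow_neg, ← zpow_natCast _ (Nat.card X),
        ← zpow_mul]
      nth_rewrite 2 [← zpow_one (σ t)]
      rw [← zpow_add]
      congr 1
      push_cast at h
      linarith
    rw [e2]
    exact C.zpow_mem (hp _ (hDT hs)) _

end Cfsg.Agent.Lib.Helper25
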