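import Mathlib
import Cfsg.Agent.Lib.Helper25.AbInv2

set_option autoImplicit false

namespace Cfsg.Agent.Lib.Helper25

variable {A : Type*} [CommGroup A]

theorem invSub_map_pow (X : Subgroup (MulAut A)) {B : Subgroup A} (hB : InvSub X B) (n : ℕ) :
    InvSub X (B.map (powMonoidHom n)) := by
  rintro x hx _ ⟨b, hb, rfl⟩
  exact ⟨x b, hB x hx b hb, by simp⟩

theorem invSub_comap_pow (X : Subgroup (MulAut A)) {B : Subgroup A} (hB : InvSub X B) (n : ℕ) :
    InvSub X (B.comap (powMonoidHom n)) := by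
  intro x hx b hb
  rw [Subgroup.mem_comap] at hb ⊢
  have := hB x hx _ hb
  simpa using this

theorem invSub_inf (X : Subgroup (MulAut A)) {B C : Subgroup A} (hB : InvSub X B)
    (hC : InvSub X C) : InvSub X (B ⊓ C) :=
  fun x hx b hb => ⟨hB x hx b hb.1, hC x hx b hb.2⟩

theorem invSub_sup (X : Subgroup (MulAut A)) {B C : Subgroup A} (hB : InvSub X B)
    (hC : InvSub X C) : InvSub X (B ⊔ C) := by
  intro x hx a ha
  obtain ⟨b, hb, c, hc, rfl⟩ := Subgroup.mem_sup.1 ha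
  rw [map_mul]
  exact Subgroup.mul_mem_sup (hB x hx b hb) (hC x hx c hc)

theorem invSub_bot (X : Subgroup (MulAut A)) : InvSub X (⊥ : Subgroup A) := by
  intro x hx b hb
  rw [Subgroup.mem_bot] at hb ⊢
  rw [hb, map_one]

theorem mem_comap_bot_pow (a : A) (n : ℕ) :
    a ∈ (⊥ : Subgroup A).comap (powMonoidHom n) ↔ a ^ n = 1 := by
  rw [Subgroup.mem_comap, Subgroup.mem_bot]; rfl

theorem exists_inv_decomp [Finite A] {p : ℕ} [Fact p.Prime] (X : Subgroup (MulAut A))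
    (hX : (Nat.card X).Coprime p) (e : ℕ) (he : ∀ a : A, a ^ p ^ (e + 1) = 1)
    (U : Subgroup A) (hU : InvSub X U) (hUp : ∀ u ∈ U, ∃ a : A, a ^ p ^ e = u) :
    ∃ B C : Subgroup A, InvSub X B ∧ InvSub X C ∧ B ⊓ C = ⊥ ∧ B ⊔ C = ⊤ ∧
      (∀ b ∈ B, b ^ p = 1 → b ∈ U) ∧ U ≤ B := by
  -- Step 1
  obtain ⟨B, hBmin⟩ := exists_minimal_of_wellFoundedLT
    (fun B : Subgroup A => InvSub X B ∧ B.map (powMonoidHom (p ^ e)) = U)
    ⟨U.comap (powMonoidHom (p ^ e)), invSub_comap_pow X hU _, by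
      apply le_antisymm
      · rintro _ ⟨b, hb, rfl⟩
        exact hb
      · intro u hu
        obtain ⟨a, rfl⟩ := hUp u hu
        exact ⟨a, hu, rfl⟩⟩
  obtain ⟨⟨hB, hBU⟩, hmin⟩ := hBmin
  -- Step 2
  have step2 : ∀ b ∈ B, b ^ p ^ e = 1 → ∃ c ∈ B, c ^ p = b := by
    have hD : InvSub X (B ⊓ (⊥ : Subgroup A).comap (powMonoidHom (p ^ e))) :=
      invSub_inf X hB (invSub_comap_pow X (invSub_bot X) _)
    obtain ⟨E, hE, hCE, hEB, hDE, hBDE⟩ := exists_inv_section_compl (p := p) X hX B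
      (B ⊓ (⊥ : Subgroup A).comap (powMonoidHom (p ^ e))) (B.map (powMonoidHom p)) hB hD
      (invSub_map_pow X hB p)
      (by
        rintro _ ⟨c, hc, rfl⟩
        refine ⟨B.pow_mem hc _, (mem_comap_bot_pow _ _).2 ?_⟩
        show (c ^ p) ^ p ^ e = 1
        rw [← pow_mul, ← pow_succ', he])
      inf_le_left (fun t ht => ⟨t, ht, rfl⟩)
    have hEU : E.map (powMonoidHom (p ^ e)) = U := by
      apply le_antisymm
      · rw [← hBU]
        exact Subgroup.map_mono hEB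
      · rw [← hBU]
        rintro _ ⟨b, hb, rfl⟩
        obtain ⟨d, hd, ε, hε, rfl⟩ := Subgroup.mem_sup.1 (hBDE hb)
        refine ⟨ε, hε, ?_⟩
        have h1 : d ^ p ^ e = 1 := (mem_comap_bot_pow _ _).1 hd.2
        show ε ^ p ^ e = (d * ε) ^ p ^ e
        rw [mul_pow, h1, one_mul]
    have hBE : B ≤ E := hmin ⟨hE, hEU⟩ hEB
    intro b hb hb1
    have : b ∈ B.map (powMonoidHom p) := by
      apply hDE
      exact ⟨⟨hb, (mem_comap_bot_pow _ _).2 hb1⟩, hBE hb⟩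
    obtain ⟨c, hc, hcb⟩ := this
    exact ⟨c, hc, hcb⟩
  -- Step 3
  have step3 : ∀ j i : ℕ, i + j = e + 1 → ∀ b ∈ B, b ^ p ^ i = 1 → ∃ c ∈ B, c ^ p ^ j = b := by
    intro j
    induction j with
    | zero => intro i _ b hb _; exact ⟨b, hb, by simp⟩
    | succ j ih =>
      intro i hij b hb hb1
      obtain ⟨c, hc, hcb⟩ := ih (i + 1) (by omega) b hb (by rw [pow_succ, pow_mul, hb1, one_pow])
      have h1 : c ^ p ^ e = 1 := by
        have : e = j + i := by omega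
        rw [this, pow_add, pow_mul, hcb, hb1]
      obtain ⟨d, hd, hdc⟩ := step2 c hc h1
      exact ⟨d, hd, by rw [pow_succ', pow_mul, hdc, hcb]⟩
  have hsoc : ∀ b ∈ B, b ^ p = 1 → ∃ c ∈ B, c ^ p ^ e = b := by
    intro b hb hb1
    exact step3 e 1 (by omega) b hb (by rwa [pow_one])
  have hUB : U ≤ B := by
    rw [← hBU]
    rintro _ ⟨b, hb, rfl⟩
    exact B.pow_mem hb _
  -- Step 4
  obtain ⟨C, hCmax⟩ := exists_maximal_of_wellFoundedGT
    (fun C : Subgroup A => InvSub X C ∧ B ⊓ C = ⊥) ⟨⊥, invSub_bot X, inf_bot_eq _⟩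
  obtain ⟨⟨hC, hBC⟩, hmax⟩ := hCmax
  have hT : C.comap (powMonoidHom p) ≤ B ⊔ C := by
    obtain ⟨E, hE, hCE, hET, hDE, hTDE⟩ := exists_inv_section_compl (p := p) X hX
      (C.comap (powMonoidHom p)) ((B ⊔ C) ⊓ C.comap (powMonoidHom p)) C
      (invSub_comap_pow X hC p) (invSub_inf X (invSub_sup X hB hC) (invSub_comap_pow X hC p)) hC
      (fun c hc => ⟨(le_sup_right : C ≤ B ⊔ C) hc, C.pow_mem hc _⟩) inf_le_right
      (fun t ht => ht)
    have hBE : B ⊓ E = ⊥ := by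
      rw [eq_bot_iff]
      rintro d ⟨hdB, hdE⟩
      rw [← hBC]
      exact ⟨hdB, hDE ⟨⟨(le_sup_left : B ≤ B ⊔ C) hdB, hET hdE⟩, hdE⟩⟩
    have hEC : E ≤ C := hmax ⟨hE, hBE⟩ hCE
    intro t ht
    obtain ⟨d, hd, ε, hε, rfl⟩ := Subgroup.mem_sup.1 (hTDE ht)
    exact (B ⊔ C).mul_mem hd.1 ((le_sup_right : C ≤ B ⊔ C) (hEC hε))
  have hind : ∀ i : ℕ, ∀ a : A, a ^ p ^ i ∈ C → a ∈ B ⊔ C := by
    intro i
    induction i with
    | zero => intro a ha; exact (le_sup_right : C ≤ B ⊔ C) (by simpa using ha)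
    | succ i ih =>
      intro a ha
      by_cases hie : i ≤ e
      · have h1 : a ^ p ^ i ∈ B ⊔ C := by
          apply hT
          rw [Subgroup.mem_comap]
          show (a ^ p ^ i) ^ p ∈ C
          rwa [← pow_mul, ← pow_succ]
        obtain ⟨b, hb, c, hc, hbc⟩ := Subgroup.mem_sup.1 h1
        have hbp : b ^ p = 1 := by
          have h2 : b ^ p ∈ B ⊓ C := by
            refine ⟨B.pow_mem hb _, ?_⟩
            have : b ^ p = (a ^ p ^ (i + 1)) * (c ^ p)⁻¹ := by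
              rw [pow_succ, pow_mul, ← hbc, mul_pow, mul_inv_cancel_right]
            rw [this]
            exact C.mul_mem ha (C.inv_mem (C.pow_mem hc _))
          rwa [hBC, Subgroup.mem_bot] at h2
        obtain ⟨b₁, hb₁, hb₁b⟩ := hsoc b hb hbp
        obtain ⟨k, rfl⟩ := Nat.exists_eq_add_of_le hie
        have h3 : (a * (b₁ ^ p ^ k)⁻¹) ^ p ^ i ∈ C := by
          have : (a * (b₁ ^ p ^ k)⁻¹) ^ p ^ i = c := by
            rw [mul_pow, inv_pow, ← pow_mul, ← pow_add, add_comm k i, hb₁b, ← hbc]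
            simp
          rw [this]; exact hc
        have h4 := ih _ h3
        have : a = (a * (b₁ ^ p ^ k)⁻¹) * b₁ ^ p ^ k := by simp
        rw [this]
        exact (B ⊔ C).mul_mem h4 ((le_sup_left : B ≤ B ⊔ C) (B.pow_mem hb₁ _))
      · apply ih
        obtain ⟨k, hk⟩ := Nat.exists_eq_add_of_le (show e + 1 ≤ i by omega)
        rw [hk, pow_add, pow_mul, he, one_pow]
        exact C.one_mem
  refine ⟨B, C, hB, hC, hBC, ?_, ?_, hUB⟩
  · rw [eq_top_iff]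
    intro a _
    exact hind (e + 1) a (by rw [he]; exact C.one_mem)
  · intro b hb hb1
    obtain ⟨c, hc, rfl⟩ := hsoc b hb hb1
    rw [← hBU]
    exact ⟨c, hc, rfl⟩

end Cfsg.Agent.Lib.Helper25
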