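import Mathlib
import Cfsg.Agent.Lib.Helper25.AbInv3

set_option autoImplicit false

namespace Cfsg.Agent.Lib.Helper25

variable {A : Type*} [CommGroup A]

theorem pow_eq_one_of_le {a : A} {p i j : ℕ} (hij : i ≤ j) (h : a ^ p ^ i = 1) :
    a ^ p ^ j = 1 := by
  obtain ⟨k, rfl⟩ := Nat.exists_eq_add_of_le hij
  rw [pow_add, pow_mul, h, one_pow]

/-- (iii) implies (ii). -/
theorem omega_of_irred {p : ℕ} (X : Subgroup (MulAut A))
    (h3 : ∀ B : Subgroup A, InvSub X B → (∀ b ∈ B, b ^ p = 1) →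
      B = ⊥ ∨ ∀ a : A, a ∈ B ↔ a ^ p = 1) (i : ℕ) :
    ∀ B : Subgroup A, InvSub X B → (∀ b ∈ B, b ^ p ^ i = 1) →
      ∃ j : ℕ, ∀ a : A, a ∈ B ↔ a ^ p ^ j = 1 := by
  induction i with
  | zero =>
    intro B _ hB1
    refine ⟨0, fun a => ⟨fun ha => hB1 a ha, fun ha => ?_⟩⟩
    have : a = 1 := by simpa using ha
    rw [this]; exact B.one_mem
  | succ i ih =>
    intro B hB hB1
    by_cases h : ∀ b ∈ B, b ^ p ^ i = 1
    · exact ih B hB h
    · push Not at h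
      obtain ⟨b₀, hb₀, hb₀1⟩ := h
      have hV : ∀ a : A, a ∈ B.map (powMonoidHom (p ^ i)) ↔ a ^ p = 1 := by
        rcases h3 _ (invSub_map_pow X hB (p ^ i)) (by
          rintro _ ⟨b, hb, rfl⟩
          show (b ^ p ^ i) ^ p = 1
          rw [← pow_mul, ← pow_succ]
          exact hB1 b hb) with h4 | h4
        · exfalso
          apply hb₀1
          have : b₀ ^ p ^ i ∈ B.map (powMonoidHom (p ^ i)) := ⟨b₀, hb₀, rfl⟩
          rwa [h4, Subgroup.mem_bot] at this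
        · exact h4
      obtain ⟨j, hj⟩ := ih (B ⊓ (⊥ : Subgroup A).comap (powMonoidHom (p ^ i)))
        (invSub_inf X hB (invSub_comap_pow X (invSub_bot X) _))
        (fun b hb => (mem_comap_bot_pow _ _).1 hb.2)
      have hij : i ≤ j := by
        by_contra hcon
        apply hb₀1
        have h5 : b₀ ^ p ∈ B ⊓ (⊥ : Subgroup A).comap (powMonoidHom (p ^ i)) := by
          refine ⟨B.pow_mem hb₀ _, (mem_comap_bot_pow _ _).2 ?_⟩
          rw [← pow_mul, ← pow_succ']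
          exact hB1 b₀ hb₀
        have h6 := (hj _).1 h5
        rw [← pow_mul, ← pow_succ'] at h6
        exact pow_eq_one_of_le (by omega) h6
      have hΩ : ∀ a : A, a ^ p ^ i = 1 → a ∈ B := fun a ha =>
        ((hj a).2 (pow_eq_one_of_le hij ha)).1
      refine ⟨i + 1, fun a => ⟨fun ha => hB1 a ha, fun ha => ?_⟩⟩
      have h7 : a ^ p ^ i ∈ B.map (powMonoidHom (p ^ i)) := by
        rw [hV, ← pow_mul, ← pow_succ]; exact ha
      obtain ⟨b, hb, hba⟩ := h7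
      have hba' : b ^ p ^ i = a ^ p ^ i := hba
      have h8 : a * b⁻¹ ∈ B := hΩ _ (by rw [mul_pow, inv_pow, hba', mul_inv_cancel])
      have : a = a * b⁻¹ * b := by simp
      rw [this]
      exact B.mul_mem h8 hb

/-- (i) implies (iii). -/
theorem irred_of_indec [Finite A] {p : ℕ} [Fact p.Prime] (hA : IsPGroup p A)
    (X : Subgroup (MulAut A)) (hX : (Nat.card X).Coprime p)
    (h1 : ¬ ∃ B C : Subgroup A, B ≠ ⊥ ∧ C ≠ ⊥ ∧ InvSub X B ∧ InvSub X C ∧ B ⊓ C = ⊥ ∧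
      B ⊔ C = ⊤) (B₀ : Subgroup A) (hB₀ : InvSub X B₀) (hB₀p : ∀ b ∈ B₀, b ^ p = 1) :
    B₀ = ⊥ ∨ ∀ a : A, a ∈ B₀ ↔ a ^ p = 1 := by
  classical
  by_cases hbot : B₀ = ⊥
  · exact Or.inl hbot
  right
  have hex : ∃ n : ℕ, ∀ a : A, a ^ p ^ n = 1 := by
    obtain ⟨n, hn⟩ := IsPGroup.iff_card.1 hA
    exact ⟨n, fun a => by rw [← hn]; exact pow_card_eq_one'⟩
  have hkey : ∀ e : ℕ, (∀ a : A, a ^ p ^ (e + 1) = 1) → ∀ U : Subgroup A, InvSub X U → U ≠ ⊥ →
      (∀ u ∈ U, ∃ a : A, a ^ p ^ e = u) → ∀ a : A, a ^ p = 1 → a ∈ U := by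
    intro e he U hU hU0 hUp a ha
    obtain ⟨B, C, hB, hC, hBC, hBC', hsoc, hUB⟩ := exists_inv_decomp X hX e he U hU hUp
    have hB0 : B ≠ ⊥ := by
      intro h
      apply hU0
      rw [eq_bot_iff, ← h]; exact hUB
    have hC0 : C = ⊥ := by
      by_contra hC0
      exact h1 ⟨B, C, hB0, hC0, hB, hC, hBC, hBC'⟩
    rw [hC0, sup_bot_eq] at hBC'
    exact hsoc a (by rw [hBC']; trivial) ha
  have hn0 : Nat.find hex ≠ 0 := by
    intro h0
    have := Nat.find_spec hex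
    rw [h0] at this
    apply hbot
    rw [eq_bot_iff]
    intro b _
    rw [Subgroup.mem_bot]
    simpa using this b
  obtain ⟨e, he⟩ := Nat.exists_eq_succ_of_ne_zero hn0
  have he1 : ∀ a : A, a ^ p ^ (e + 1) = 1 := by
    have := Nat.find_spec hex
    rwa [he] at this
  have he2 : ¬ ∀ a : A, a ^ p ^ e = 1 := Nat.find_min hex (by omega)
  push Not at he2
  obtain ⟨a₀, ha₀⟩ := he2
  have hU1 : ∀ a : A, a ^ p = 1 → a ∈ (⊤ : Subgroup A).map (powMonoidHom (p ^ e)) := by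
    apply hkey e he1 _ (invSub_map_pow X (B := ⊤) (fun _ _ _ _ => Subgroup.mem_top _) _)
    · intro h
      apply ha₀
      have : a₀ ^ p ^ e ∈ (⊤ : Subgroup A).map (powMonoidHom (p ^ e)) := ⟨a₀, trivial, rfl⟩
      rwa [h, Subgroup.mem_bot] at this
    · rintro _ ⟨a, _, rfl⟩
      exact ⟨a, rfl⟩
  intro a
  refine ⟨hB₀p a, ?_⟩
  apply hkey e he1 B₀ hB₀ hbot
  intro u hu
  obtain ⟨a, _, ha⟩ := hU1 u (hB₀p u hu)
  exact ⟨a, ha⟩

end Cfsg.Agent.Lib.Helper25
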