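import Mathlib
import Cfsg.Agent.Lib.Helper25.AbQuot
import Cfsg.Agent.Lib.Helper26.ProjExt3

set_option autoImplicit false

namespace Cfsg.Agent.Lib.Helper25

open Cfsg
open scoped ComplexConjugate

universe u

variable {G : Type u} [Group G]

theorem mult_eq_of_abelian_inertia [Fintype G] (H T : Subgroup G) [hN : H.Normal] [Fintype H]
    {θ : H → ℂ} (hθ : IsIrrCharacter H θ)
    (hT : ∀ g : G, g ∈ T ↔ ∀ h : H, θ ⟨g * h * g⁻¹, hN.conj_mem h h.2 g⟩ = θ h)
    (hab : ∀ x ∈ T, ∀ y ∈ T, x * y * x⁻¹ * y⁻¹ ∈ H) {χ χ' : G → ℂ} (hχ : IsIrrCharacter G χ)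
    (hχ' : IsIrrCharacter G χ') (h : classInner (fun n : H => χ n) θ ≠ 0)
    (h' : classInner (fun n : H => χ' n) θ ≠ 0) :
    classInner (fun n : H => χ n) θ = classInner (fun n : H => χ' n) θ := by
  classical
  have hcfθ := Helper7.isClassFunction_of_isCharacter (Helper7.isCharacter_of_irr hθ)
  have hHT : H ≤ T := fun g hg => (hT g).2 fun h => hcfθ h ⟨g, hg⟩
  let _ : Fintype T := Fintype.ofFinite _
  let _ : Fintype (H.subgroupOf T) := Fintype.ofFinite _
  obtain ⟨ψ, hψ, -, hψi⟩ := clifford_corr_exists H T hθ hT hHT hχ h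
  obtain ⟨ψ', hψ', -, hψ'i⟩ := clifford_corr_exists H T hθ hT hHT hχ' h'
  rw [← hψi, ← hψ'i]
  rw [← hψi] at h
  rw [← hψ'i] at h'
  have hθ' := isIrrCharacter_subgroupOf H hHT hθ
  have hinv : ∀ t : T, conjFun (H.subgroupOf T)
      (fun x : H.subgroupOf T => θ ⟨(x : T), Subgroup.mem_subgroupOf.mp x.2⟩) t
      = (fun x : H.subgroupOf T => θ ⟨(x : T), Subgroup.mem_subgroupOf.mp x.2⟩) := by
    intro t
    funext x
    rw [conjFun_apply]
    exact (hT t).1 t.2 ⟨(x : T), Subgroup.mem_subgroupOf.mp x.2⟩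
  have i1 := classInner_subgroupOf H hHT (fun n : H => ψ ⟨n, hHT n.2⟩) θ
  have i2 := classInner_subgroupOf H hHT (fun n : H => ψ' ⟨n, hHT n.2⟩) θ
  obtain ⟨f, hf⟩ := exists_linear_mul_of_abelian_quotient (H.subgroupOf T)
    (fun x y => Subgroup.mem_subgroupOf.2 (hab x x.2 y y.2)) hθ' hinv hψ hψ'
    (by rw [← i1] at h; exact h) (by rw [← i2] at h'; exact h')
  have e1 := restrict_eq_mul_of_le_inertia H T hθ (fun g hg => (hT g).1 hg) hHT hψ h 1
  have e2 := restrict_eq_mul_of_le_inertia H T hθ (fun g hg => (hT g).1 hg) hHT hψ' h' 1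
  have h1 : ψ 1 = ψ' 1 := by rw [hf]; simp
  have h2 : (⟨((1 : H) : G), hHT (1 : H).2⟩ : T) = 1 := rfl
  rw [h2] at e1 e2
  rw [e1, e2] at h1
  exact mul_right_cancel₀ (Helper7.irr_apply_one_ne_zero hθ) h1

theorem induced_abelian_inertia [Fintype G] (H T : Subgroup G) [hN : H.Normal] [Fintype H]
    {θ : H → ℂ} (hθ : IsIrrCharacter H θ)
    (hT : ∀ g : G, g ∈ T ↔ ∀ h : H, θ ⟨g * h * g⁻¹, hN.conj_mem h h.2 g⟩ = θ h)
    (hab : ∀ x ∈ T, ∀ y ∈ T, x * y * x⁻¹ * y⁻¹ ∈ H) :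
    ∃ (e : ℕ) (C : Finset (G → ℂ)), 0 < e ∧ (∀ χ ∈ C, IsIrrCharacter G χ) ∧
      e ^ 2 * C.card * Nat.card H = Nat.card T ∧ indFun H θ = (e : ℂ) • ∑ χ ∈ C, χ ∧
      (∀ χ ∈ C, χ 1 = (T.index : ℂ) * e * θ 1) ∧
      ∀ χ : G → ℂ, IsIrrCharacter G χ → classInner (fun n : H => χ n) θ ≠ 0 →
        classInner (fun n : H => χ n) θ = e := by
  classical
  have : Fintype (IrrCharacter G) := Fintype.ofFinite _
  have hθc := Helper7.isCharacter_of_irr hθ
  obtain ⟨χ₀, hχ₀, h₀⟩ := Helper26.exists_irr_over H hθ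
  obtain ⟨e, he⟩ := Helper7.classInner_char_nat
    (Helper7.isCharacter_restrict (Helper7.isCharacter_of_irr hχ₀) H) hθc
  have he0 : 0 < e := by
    rcases Nat.eq_zero_or_pos e with rfl | h
    · exact absurd (by rw [he]; simp) h₀
    · exact h
  have hall : ∀ χ : G → ℂ, IsIrrCharacter G χ → classInner (fun n : H => χ n) θ ≠ 0 →
      classInner (fun n : H => χ n) θ = e := fun χ hχ h =>
    (mult_eq_of_abelian_inertia H T hθ hT hab hχ hχ₀ h h₀).trans he
  set S : Finset (IrrCharacter G) := Finset.univ.filter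
    (fun χ : IrrCharacter G => classInner (fun n : H => (χ : G → ℂ) n) θ ≠ 0) with hS
  have hsumC : ∑ χ ∈ S.image (Subtype.val : IrrCharacter G → G → ℂ), χ
      = ∑ χ ∈ S, (χ : G → ℂ) := Finset.sum_image (fun a _ b _ h => Subtype.ext h)
  have hind : indFun H θ = (e : ℂ) • ∑ χ ∈ S, (χ : G → ℂ) := by
    obtain ⟨m, hm, hsum⟩ := Helper7.character_eq_sum_nat (isCharacter_indFun H θ hθc)
    rw [hsum, Finset.smul_sum, hS, Finset.sum_filter]
    apply Finset.sum_congr rfl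
    intro χ _
    have h1 : (m χ : ℂ) = conj (classInner (fun n : H => (χ : G → ℂ) n) θ) := by
      rw [← hm, frobenius_reciprocity H θ _ (Helper7.isClassFunction_of_isCharacter
        (Helper7.isCharacter_of_irr χ.2)), Helper7.classInner_conj_symm]
    split_ifs with h
    · rw [hall χ χ.2 h, map_natCast] at h1
      rw [← Nat.cast_smul_eq_nsmul ℂ, h1]
    · rw [not_not] at h
      rw [h, map_zero] at h1
      have : m χ = 0 := by exact_mod_cast h1
      rw [this, zero_smul]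
  have hdeg : ∀ χ ∈ S, (χ : G → ℂ) 1 = (T.index : ℂ) * e * θ 1 := by
    intro χ hχ
    have h := (Finset.mem_filter.1 hχ).2
    rw [clifford_degree H χ.2 hθ h T hT, hall χ χ.2 h]
    ring
  refine ⟨e, S.image Subtype.val, he0, ?_, ?_, ?_, ?_, hall⟩
  · intro χ hχ
    obtain ⟨χ', -, rfl⟩ := Finset.mem_image.1 hχ
    exact χ'.2
  · rw [Finset.card_image_of_injective _ Subtype.val_injective]
    have h1 := congrFun hind 1
    rw [indFun_one, Pi.smul_apply, Finset.sum_apply, Finset.sum_congr rfl hdeg, Finset.sum_const,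
      smul_eq_mul, nsmul_eq_mul] at h1
    have h2 : (H.index : ℂ) = ((e ^ 2 * S.card * T.index : ℕ) : ℂ) := by
      apply mul_right_cancel₀ (Helper7.irr_apply_one_ne_zero hθ)
      rw [h1]
      push_cast
      ring
    have h3 : H.index = e ^ 2 * S.card * T.index := by exact_mod_cast h2
    have h4 := H.card_mul_index
    have h5 := T.card_mul_index
    rw [h3] at h4
    have hTi : 0 < T.index := Nat.pos_of_ne_zero Subgroup.index_ne_zero_of_finite
    apply Nat.eq_of_mul_eq_mul_right hTi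
    rw [h5, ← h4]
    ring
  · rw [hsumC]
    exact hind
  · intro χ hχ
    obtain ⟨χ', hχ', rfl⟩ := Finset.mem_image.1 hχ
    exact hdeg χ' hχ'

end Cfsg.Agent.Lib.Helper25
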