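import Mathlib
import Cfsg.Agent.Lib.Helper25.BG2

set_option autoImplicit false

namespace Cfsg.Agent.Lib.Helper25

open Cfsg
open scoped ComplexConjugate

universe u

variable {G : Type u} [Group G]

/-- An irreducible character does not vanish on all of `M ∖ ker χ`. -/
theorem exists_nonvanishing_off_ker [Fintype G] (χ : IrrCharacter G) (K M : Subgroup G) [M.Normal]
    (hK : ∀ g, g ∈ K ↔ (χ : G → ℂ) g = (χ : G → ℂ) 1) (hKM : K < M) :
    ∃ y ∈ M, y ∉ K ∧ (χ : G → ℂ) y ≠ 0 := by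
  classical
  by_contra hcon
  push Not at hcon
  have h1 := avg_normal M χ.2 1
  rw [if_neg] at h1
  swap
  · intro h
    exact (not_le_of_gt hKM) (fun m hm => (hK m).2 (h m hm))
  have hMc : ((Nat.card M : ℂ))⁻¹ ≠ 0 := by
    apply inv_ne_zero
    exact_mod_cast Nat.card_pos.ne'
  have h2 := (mul_eq_zero.1 h1).resolve_left hMc
  obtain ⟨d, hd0, hd⟩ := Helper7.irr_apply_one χ.2
  have h3 : ∀ m : M, (χ : G → ℂ) ((m : G) * 1) = if (m : G) ∈ K then (d : ℂ) else 0 := by
    intro m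
    rw [mul_one]
    by_cases hm : (m : G) ∈ K
    · rw [if_pos hm, (hK m).1 hm, hd]
    · rw [if_neg hm, hcon m m.2 hm]
  simp only [h3] at h2
  rw [← Finset.sum_filter, Finset.sum_const, nsmul_eq_mul] at h2
  have h4 : (Finset.univ.filter (fun m : M => (m : G) ∈ K)).card ≠ 0 := by
    apply Finset.card_ne_zero_of_mem (a := 1)
    simp [K.one_mem]
  rcases mul_eq_zero.1 h2 with h | h
  · exact h4 (by exact_mod_cast h)
  · exact hd0.ne' (by exact_mod_cast h)

theorem bg_case2 [Fintype G] (χ : IrrCharacter G) (K : Subgroup G) [K.Normal]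
    (hK : ∀ g, g ∈ K ↔ (χ : G → ℂ) g = (χ : G → ℂ) 1) (hKF : K = fittingSubgroup G)
    (hsol : Group.IsSolvable (G ⧸ K)) (hne : K ≠ ⊤) :
    ∃ ψ : IrrCharacter G, charDegree (χ : G → ℂ) < charDegree (ψ : G → ℂ) ∧
      ∃ L : Subgroup G, (∀ g, g ∈ L ↔ (ψ : G → ℂ) g = (ψ : G → ℂ) 1) ∧ L < K := by
  classical
  -- a prime q with nontrivial q-core in the quotient
  have hF : fittingSubgroup (G ⧸ K) ≠ ⊥ := by
    intro h0
    have h1 := Helper1.centralizer_fitting_le (G := G ⧸ K)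
    rw [h0] at h1
    apply hne
    rw [eq_top_iff]
    intro g _
    have h2 : (QuotientGroup.mk' K g) ∈ Subgroup.centralizer (((⊥ : Subgroup (G ⧸ K)) : Set (G ⧸ K))) := by
      rw [Subgroup.mem_centralizer_iff]
      intro x hx
      have : x = 1 := hx
      rw [this]; simp
    have h3 := h1 h2
    rw [Subgroup.mem_bot] at h3
    exact (QuotientGroup.eq_one_iff g).1 h3
  obtain ⟨q, hq⟩ : ∃ q : Nat.Primes, pCore (q : ℕ) (G ⧸ K) ≠ ⊥ := by
    by_contra hcon
    push Not at hcon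
    apply hF
    rw [Helper1.fitting_eq_iSup_pCore]
    simp [hcon]
  haveI : Fact (q : ℕ).Prime := ⟨q.2⟩
  set R := (pCore (q : ℕ) (G ⧸ K)).comap (QuotientGroup.mk' K) with hR
  haveI hpn : (pCore (q : ℕ) (G ⧸ K)).Normal := Helper1.pCore_normal _
  have hRn : R.Normal := inferInstance
  have hKR : K < R := by
    refine lt_of_le_of_ne ?_ ?_
    · intro k hk
      rw [hR, Subgroup.mem_comap]
      have : QuotientGroup.mk' K k = 1 := (QuotientGroup.eq_one_iff k).2 hk
      rw [this]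
      exact Subgroup.one_mem _
    · intro h
      apply hq
      rw [eq_bot_iff]
      intro x hx
      obtain ⟨g, rfl⟩ := QuotientGroup.mk'_surjective K x
      have : g ∈ R := hx
      rw [← h] at this
      rw [Subgroup.mem_bot]
      exact (QuotientGroup.eq_one_iff g).2 this
  obtain ⟨M, ⟨hMn, hKM, hMR⟩, hmin⟩ := WellFounded.has_min (wellFounded_lt (α := Subgroup G))
    {M : Subgroup G | M.Normal ∧ K < M ∧ M ≤ R} ⟨R, hRn, hKR, le_rfl⟩
  obtain ⟨T, hT⟩ := Helper17.exists_isSyl (q : ℕ) M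
  -- M = K T
  have hMKT : M ≤ K ⊔ T := by
    rw [← Subgroup.relIndex_eq_one]
    have h1 : (K ⊔ T).relIndex M ∣ T.relIndex M := Subgroup.relIndex_dvd_of_le_left M le_sup_right
    have h2 : (K ⊔ T).relIndex M ∣ K.relIndex M := Subgroup.relIndex_dvd_of_le_left M le_sup_left
    have h3 : IsPGroup (q : ℕ) (M.map (QuotientGroup.mk' K)) := by
      apply (Helper1.pCore_isPGroup (G := G ⧸ K) (q : ℕ)).to_le
      rintro _ ⟨m, hm, rfl⟩
      exact hMR hm
    obtain ⟨n, hn⟩ := IsPGroup.iff_card.1 h3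
    have h4 : K.relIndex M = (q : ℕ) ^ n := by
      rw [← hn, ← Subgroup.relIndex_ker, QuotientGroup.ker_mk']
    rw [h4] at h2
    obtain ⟨j, -, hj⟩ := (Nat.dvd_prime_pow q.2).1 h2
    rcases j with _ | j
    · simpa using hj
    · exfalso
      apply hT.not_dvd_relIndex
      refine dvd_trans ?_ h1
      rw [hj]
      exact dvd_pow_self _ (Nat.succ_ne_zero j)
  have hNtop : Subgroup.normalizer (T : Set G) ≠ ⊤ := by
    intro htop
    have hTn : T.Normal := Subgroup.normalizer_eq_top_iff.1 htop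
    have hTK : T ≤ K := by
      rw [hKF]
      exact Helper1.le_fitting hTn hT.isPGroup.isNilpotent
    exact (not_le_of_gt hKM) (hMKT.trans (sup_le le_rfl hTK))
  obtain ⟨H, hH, hNH⟩ := (eq_top_or_exists_le_coatom _).resolve_left hNtop
  have hTH : T ≤ H := Subgroup.le_normalizer.trans hNH
  have hKH : K ⊔ H = ⊤ := by
    rw [eq_top_iff]
    intro g _
    obtain ⟨n, hn, hn'⟩ := Helper17.frattini_arg (M := ⊤) hT
      (by rw [Subgroup.normalizer_eq_top]) (Subgroup.mem_top g)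
    have : g = n * (n⁻¹ * g) := by group
    rw [this]
    exact Subgroup.mul_mem _ ((sup_le_sup_left hTH K) (hMKT hn))
      ((le_sup_right : H ≤ K ⊔ H) (hNH hn'))
  apply bg_of_coatom χ K hK H hH hKH
  intro hcore
  apply hH.1
  have hχ1 : (χ : G → ℂ) 1 ≠ 0 := by
    obtain ⟨d, hd0, hd⟩ := Helper7.irr_apply_one χ.2
    rw [hd]
    exact_mod_cast hd0.ne'
  have hχc := Helper7.isCharacter_of_irr χ.2
  set W := H.normalCore ⊓ M with hW
  have hWn : W.Normal := inferInstance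
  -- W K = M
  obtain ⟨y, hyM, hyK, hy0⟩ := exists_nonvanishing_off_ker χ K M hK hKM
  have hy' : y ∈ K ⊔ H := hKH ▸ Subgroup.mem_top y
  rw [Subgroup.mem_sup_of_normal_left] at hy'
  obtain ⟨k, hk, h, hh, rfl⟩ := hy'
  have hhM : h ∈ M := by
    have := M.mul_mem (M.inv_mem (hKM.le hk)) hyM
    simpa using this
  have hhK : h ∉ K := fun hc => hyK (K.mul_mem hk hc)
  have hh0 : (χ : G → ℂ) h ≠ 0 := by
    rwa [char_mul_of_mem_ker hχc ((hK k).1 hk)] at hy0
  have hhW : h ∈ W := ⟨hcore h hh hh0, hhM⟩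
  have hWK : W ⊔ K = M := by
    by_contra hcon
    have hle : W ⊔ K ≤ M := sup_le inf_le_right hKM.le
    apply hmin (W ⊔ K) ⟨inferInstance, ?_, hle.trans hMR⟩ (lt_of_le_of_ne hle hcon)
    refine lt_of_le_of_ne le_sup_right ?_
    intro he
    apply hhK
    rw [he]
    exact (le_sup_left : W ≤ W ⊔ K) hhW
  refine le_of_frattini' (W := W) hT hWn ?_ inf_le_right
    (inf_le_left.trans H.normalCore_le) hNH
  intro t ht
  have htM : t ∈ W ⊔ K := hWK ▸ hT.le ht
  rw [Subgroup.mem_sup_of_normal_left] at htM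
  obtain ⟨c, hc, k', hk', rfl⟩ := htM
  have hcH : c ∈ H := H.normalCore_le hc.1
  have hk'H : k' ∈ H := by
    have := H.mul_mem (H.inv_mem hcH) (hTH ht)
    simpa using this
  have hk'W : k' ∈ W := ⟨hcore k' hk'H (by rw [(hK k').1 hk']; exact hχ1), hKM.le hk'⟩
  exact W.mul_mem hc hk'W

end Cfsg.Agent.Lib.Helper25
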