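import Mathlib
import Cfsg.Agent.Lib.Helper25.BG3

set_option autoImplicit false

namespace Cfsg.Agent.Lib.Helper25

open Cfsg
open scoped ComplexConjugate

universe u

/-- the factor `B / A` is nilpotent -/
def NilFactor {G : Type u} [Group G] (A B : Subgroup G) : Prop :=
  ∀ _h : (A.subgroupOf B).Normal, Group.IsNilpotent (B ⧸ A.subgroupOf B)

theorem nilFactor_of_nilpotent {G : Type u} [Group G] (A B : Subgroup G) (hB : Group.IsNilpotent B) :
    NilFactor A B := by
  intro h
  infer_instance

theorem nilFactor_comap {G X : Type u} [Group G] [Group X] (f : G →* X) (A' B' : Subgroup X)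
    [A'.Normal] (h : NilFactor A' B') : NilFactor (A'.comap f) (B'.comap f) := by
  intro hn
  have hn' : (A'.subgroupOf B').Normal := inferInstance
  have hQ := h hn'
  let φ : (B'.comap f) →* (B' ⧸ A'.subgroupOf B') :=
    (QuotientGroup.mk' _).comp (f.subgroupComap B')
  have hφ : ∀ b : B'.comap f, φ b = 1 ↔ b ∈ (A'.comap f).subgroupOf (B'.comap f) := by
    intro b
    show (QuotientGroup.mk' _) (f.subgroupComap B' b) = 1 ↔ _
    rw [QuotientGroup.mk'_apply, QuotientGroup.eq_one_iff]
    rfl
  let Φ : ((B'.comap f) ⧸ (A'.comap f).subgroupOf (B'.comap f)) →* (B' ⧸ A'.subgroupOf B') :=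
    QuotientGroup.lift _ φ (fun b hb => (hφ b).2 hb)
  apply Subgroup.isNilpotent_of_ker_le_center Φ
  have : Φ.ker = ⊥ := by
    rw [MonoidHom.ker_eq_bot_iff, injective_iff_map_eq_one]
    intro x hx
    obtain ⟨b, rfl⟩ := QuotientGroup.mk'_surjective _ x
    have : φ b = 1 := hx
    exact (QuotientGroup.eq_one_iff b).2 ((hφ b).1 this)
  rw [this]
  exact bot_le

/-- the set of irreducible character degrees -/
def cdSet (G : Type u) [Group G] : Set ℕ := {d | ∃ χ : IrrCharacter G, charDegree (χ : G → ℂ) = d}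

theorem cdSet_finite (G : Type u) [Group G] [Finite G] : (cdSet G).Finite := by
  have := Helper2.finite_irrCharacter (G := G)
  have : cdSet G = Set.range (fun χ : IrrCharacter G => charDegree (χ : G → ℂ)) := by
    ext d; simp [cdSet]
  rw [this]
  exact Set.finite_range _

theorem cdSet_nonempty (G : Type u) [Group G] : (cdSet G).Nonempty :=
  ⟨_, ⟨⟨fun _ => 1, Helper7.isIrrCharacter_one⟩, rfl⟩⟩

theorem fitting_ne_bot (G : Type u) [Group G] [Finite G] [Group.IsSolvable G] [Nontrivial G] :
    fittingSubgroup G ≠ ⊥ := by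
  intro h0
  have h1 := Helper1.centralizer_fitting_le (G := G)
  rw [h0] at h1
  obtain ⟨g, hg⟩ := exists_ne (1 : G)
  apply hg
  have h2 : g ∈ Subgroup.centralizer (((⊥ : Subgroup G) : Set G)) := by
    rw [Subgroup.mem_centralizer_iff]
    intro x hx
    have : x = 1 := hx
    rw [this]; simp
  exact h1 h2

theorem cdSet_quotient_fitting_ssubset (G : Type u) [Group G] [Finite G] [Group.IsSolvable G]
    (F : Subgroup G) [F.Normal] (hF : F = fittingSubgroup G) (hne : F ≠ ⊤) :
    cdSet (G ⧸ F) ⊂ cdSet G := by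
  classical
  cases nonempty_fintype G
  have hinfl : ∀ ψ : IrrCharacter (G ⧸ F), ∃ χ : IrrCharacter G,
      (∀ g, (χ : G → ℂ) g = (ψ : G ⧸ F → ℂ) (QuotientGroup.mk' F g)) ∧
      charDegree (χ : G → ℂ) = charDegree (ψ : G ⧸ F → ℂ) := by
    intro ψ
    refine ⟨⟨_, Helper2.IsIrrCharacter.comp_surjective (QuotientGroup.mk' F)
      (QuotientGroup.mk'_surjective F) ψ.2⟩, fun g => rfl, ?_⟩
    apply charDegree_eq
    simp only [Function.comp_apply, map_one]
    exact apply_one_eq_charDegree ψ.2
  have := Helper2.finite_irrCharacter (G := G ⧸ F)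
  haveI : Nonempty (IrrCharacter (G ⧸ F)) := ⟨⟨fun _ => 1, Helper7.isIrrCharacter_one⟩⟩
  obtain ⟨ψ₀, hmax⟩ := Finite.exists_max (fun ψ : IrrCharacter (G ⧸ F) => charDegree (ψ : G ⧸ F → ℂ))
  obtain ⟨χ, hχ, hχd⟩ := hinfl ψ₀
  obtain ⟨K, hKn, hK⟩ := exists_kernel (Helper7.isCharacter_of_irr χ.2)
  have hFK : F ≤ K := by
    intro x hx
    rw [hK, hχ, hχ]
    have : QuotientGroup.mk' F x = 1 := (QuotientGroup.eq_one_iff x).2 hx
    rw [this, map_one]
  obtain ⟨ψ, hψ, -⟩ : ∃ ψ : IrrCharacter G, charDegree (χ : G → ℂ) < charDegree (ψ : G → ℂ) ∧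
      ∃ L : Subgroup G, (∀ g, g ∈ L ↔ (ψ : G → ℂ) g = (ψ : G → ℂ) 1) ∧ L < K := by
    by_cases hKF : K ≤ fittingSubgroup G
    · have hKeq : K = fittingSubgroup G := le_antisymm hKF (hF ▸ hFK)
      exact bg_case2 χ K hK hKeq inferInstance (by rw [hKeq, ← hF]; exact hne)
    · exact bg_case1 χ K hK hKF
  refine ⟨?_, ?_⟩
  · rintro d ⟨ψ', rfl⟩
    obtain ⟨χ', -, hd⟩ := hinfl ψ'
    exact ⟨χ', hd⟩
  · intro hsub
    obtain ⟨ψ', hψ'⟩ := hsub ⟨ψ, rfl⟩
    have := hmax ψ'
    omega

theorem exists_nil_chain (n : ℕ) : ∀ (G : Type u) [Group G] [Finite G] [Group.IsSolvable G],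
    Nat.card G = n → ∀ m, (cdSet G).ncard ≤ m →
    ∃ N : ℕ → Subgroup G, N 0 = ⊥ ∧ N m = ⊤ ∧ Monotone N ∧ (∀ i, (N i).Normal) ∧
      ∀ i, NilFactor (N i) (N (i + 1)) := by
  induction n using Nat.strong_induction_on with
  | _ n ih =>
    intro G _ _ _ hn m hm
    have hpos : 0 < (cdSet G).ncard := (Set.ncard_pos (cdSet_finite G)).2 (cdSet_nonempty G)
    obtain ⟨m', rfl⟩ : ∃ m', m = m' + 1 := ⟨m - 1, by omega⟩
    by_cases hnil : Group.IsNilpotent G
    · refine ⟨fun i => if i = 0 then ⊥ else ⊤, by simp, by simp, ?_, ?_, ?_⟩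
      · apply monotone_nat_of_le_succ
        intro i
        by_cases hi : i = 0 <;> simp [hi]
      · intro i
        by_cases hi : i = 0 <;> simp only [hi, if_true, if_false] <;> infer_instance
      · intro i
        exact nilFactor_of_nilpotent _ _ inferInstance
    · set F := fittingSubgroup G with hF
      haveI hFn : F.Normal := Helper1.fitting_normal
      have hFnil : Group.IsNilpotent F := Helper1.fitting_nilpotent
      have hFtop : F ≠ ⊤ := by
        intro h
        apply hnil
        rw [h] at hFnil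
        exact Group.nilpotent_of_mulEquiv (Subgroup.topEquiv (G := G))
      haveI : Nontrivial G := by
        by_contra hcon
        rw [not_nontrivial_iff_subsingleton] at hcon
        exact hFtop (Subsingleton.elim _ _)
      have hFbot : F ≠ ⊥ := fitting_ne_bot G
      have hcard : Nat.card (G ⧸ F) < n := by
        rw [← hn, ← F.card_mul_index, ← Subgroup.index_eq_card]
        have h1 : 1 < Nat.card F := (Subgroup.one_lt_card_iff_ne_bot F).2 hFbot
        have h2 : 0 < F.index := Nat.pos_of_ne_zero F.index_ne_zero_of_finite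
        nlinarith
      have hlt := Set.ncard_lt_ncard (cdSet_quotient_fitting_ssubset G F hF hFtop) (cdSet_finite G)
      obtain ⟨N', h0, hm', hmono, hnorm, hfac⟩ := ih _ hcard (G ⧸ F) rfl m' (by omega)
      refine ⟨fun i => Nat.casesOn i ⊥ (fun j => (N' j).comap (QuotientGroup.mk' F)), rfl, ?_, ?_, ?_, ?_⟩
      · show (N' m').comap _ = ⊤
        rw [hm', Subgroup.comap_top]
      · apply monotone_nat_of_le_succ
        intro i
        cases i with
        | zero => exact bot_le
        | succ j => exact Subgroup.comap_mono (hmono (Nat.le_succ j))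
      · intro i
        cases i with
        | zero => exact (inferInstance : (⊥ : Subgroup G).Normal)
        | succ j =>
          haveI := hnorm j
          exact (inferInstance : ((N' j).comap (QuotientGroup.mk' F)).Normal)
      · intro i
        cases i with
        | zero =>
          apply nilFactor_of_nilpotent
          show Group.IsNilpotent ((N' 0).comap (QuotientGroup.mk' F))
          rw [h0, MonoidHom.comap_bot, QuotientGroup.ker_mk']
          exact hFnil
        | succ j =>
          haveI := hnorm j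
          exact nilFactor_comap (QuotientGroup.mk' F) (N' j) (N' (j + 1)) (hfac j)

end Cfsg.Agent.Lib.Helper25
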