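import Cfsg.Agent.Lib.Helper25.Dade1
import Cfsg.Agent.Lib.Helper2.Brauer6

set_option autoImplicit false

namespace Cfsg.Agent.Lib.Helper25

open Cfsg
open scoped ComplexConjugate

universe u

variable {G : Type u} [Group G]

theorem card_mul_relIndex_of_le {H K : Subgroup G} (h : H ≤ K) :
    Nat.card H * H.relIndex K = Nat.card K := by
  rw [← Subgroup.relIndex_bot_left, ← Subgroup.relIndex_bot_left]
  exact Subgroup.relIndex_mul_relIndex ⊥ H K bot_le h

theorem index_sup_mul_card (E N : Subgroup G) [hN : N.Normal] :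
    (E ⊔ N).index * Nat.card N * Nat.card E = Nat.card G * Nat.card (E ⊓ N : Subgroup G) := by
  have h1 := card_mul_relIndex_of_le (le_sup_right : N ≤ E ⊔ N)
  have h2 := card_mul_relIndex_of_le (inf_le_left : E ⊓ N ≤ E)
  rw [Subgroup.relIndex_sup_right] at h1
  rw [Subgroup.inf_relIndex_left] at h2
  have h3 := Subgroup.card_mul_index (E ⊔ N)
  rw [← h3, ← h1, ← h2]
  ring

theorem dade_inner_formula [Fintype G] (N : Subgroup G) [hN : N.Normal] [Fintype N] (ϑ : N → ℂ)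
    (hinv : ∀ (g : G) (n : N), ϑ ⟨g * n * g⁻¹, hN.conj_mem n n.2 g⟩ = ϑ n) (E : Subgroup G)
    [Fintype (E ⊓ N : Subgroup G)] (φ : E → ℂ) :
    classInner (fun n : N => indFun E φ n * ϑ n) ϑ
      = ((E ⊔ N).index : ℂ) * classInner
        (fun d : (E ⊓ N : Subgroup G) => φ ⟨d, d.2.1⟩ * ϑ ⟨d, d.2.2⟩) (fun d => ϑ ⟨d, d.2.2⟩) := by
  classical
  unfold classInner
  set w : N → ℂ := fun n => ϑ n * conj (ϑ n) with hw
  have h1 : ∑ n : N, indFun E φ n * ϑ n * conj (ϑ n)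
      = (Nat.card E : ℂ)⁻¹ * ∑ x : G, ∑ n : N, extendByZero E φ (x⁻¹ * n * x) * w n := by
    rw [Finset.sum_comm, Finset.mul_sum]
    apply Finset.sum_congr rfl
    intro n _
    rw [indFun_apply, hw, Finset.mul_sum, Finset.mul_sum, Finset.sum_mul, Finset.sum_mul]
    apply Finset.sum_congr rfl
    intro x _
    ring
  have h2 : ∀ x : G, ∑ n : N, extendByZero E φ (x⁻¹ * n * x) * w n
      = ∑ n : N, extendByZero E φ (n : G) * w n := by
    intro x
    rw [← Equiv.sum_comp (MulAut.conjNormal x : MulAut N).toEquiv]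
    apply Finset.sum_congr rfl
    intro n _
    have e1 : (((MulAut.conjNormal x : MulAut N).toEquiv n : N) : G) = x * n * x⁻¹ := rfl
    have e2 : w ((MulAut.conjNormal x : MulAut N).toEquiv n) = w n := by
      have : (MulAut.conjNormal x : MulAut N).toEquiv n = ⟨x * n * x⁻¹, hN.conj_mem n n.2 x⟩ := rfl
      rw [this, hw]
      simp only [hinv]
    rw [e1, e2]
    congr 2
    group
  simp_rw [h2] at h1
  rw [Finset.sum_const, Finset.card_univ, sum_extendByZero_restrict E N φ w] at h1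
  rw [h1]
  have h3 : ∑ d : (E ⊓ N : Subgroup G), φ ⟨d, d.2.1⟩ * w ⟨d, d.2.2⟩
      = ∑ d : (E ⊓ N : Subgroup G), φ ⟨d, d.2.1⟩ * ϑ ⟨d, d.2.2⟩ * conj (ϑ ⟨d, d.2.2⟩) := by
    apply Finset.sum_congr rfl
    intro d _
    rw [hw]
    ring
  rw [h3]
  have h4 := index_sup_mul_card E N
  have h4' : ((E ⊔ N).index : ℂ) * Nat.card N * Nat.card E
      = Nat.card G * Nat.card (E ⊓ N : Subgroup G) := by exact_mod_cast h4
  have hNc : (Nat.card N : ℂ) ≠ 0 := by exact_mod_cast Nat.card_pos.ne'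
  have hEc : (Nat.card E : ℂ) ≠ 0 := by exact_mod_cast Nat.card_pos.ne'
  have hDc : (Nat.card (E ⊓ N : Subgroup G) : ℂ) ≠ 0 := by exact_mod_cast Nat.card_pos.ne'
  rw [← Nat.card_eq_fintype_card, nsmul_eq_mul]
  field_simp
  linear_combination (-(∑ d : (E ⊓ N : Subgroup G),
    φ ⟨d, d.2.1⟩ * ϑ ⟨d, d.2.2⟩ * conj (ϑ ⟨d, d.2.2⟩))) * h4'

end Cfsg.Agent.Lib.Helper25
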