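import Mathlib
import Cfsg.Agent.Lib.Helper25.Dade2

set_option autoImplicit false

namespace Cfsg.Agent.Lib.Helper25

open Cfsg
open scoped ComplexConjugate

universe u

variable {G : Type u} [Group G]

/-- Mackey plus Frobenius reciprocity for `G = HM`, `M` normal:
`[(ϑ^G)_M, η] = [ϑ_{H ∩ M}, η_{H ∩ M}]`. -/
theorem mackey_inner [Fintype G] (H M : Subgroup G) [hM : M.Normal] [Fintype M]
    [Fintype (H ⊓ M : Subgroup G)]
    (hsup : H ⊔ M = ⊤) {ϑ : H → ℂ} (hϑ : IsClassFunction H ϑ) {η : M → ℂ}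
    (hη : IsClassFunction M η) :
    classInner (fun m : M => indFun H ϑ m) η =
      classInner (fun t : (H ⊓ M : Subgroup G) => ϑ ⟨t, t.2.1⟩) (fun t => η ⟨t, t.2.2⟩) := by
  classical
  set E : G → ℂ := extendByZero M (fun m => conj (η m)) with hE
  set T : G → ℂ := extendByZero H ϑ with hT
  have hEinv : ∀ m ∈ M, ∀ y : G, E (m * y * m⁻¹) = E y := by
    intro m hm y
    by_cases hy : y ∈ M
    · rw [hE, extendByZero_mem M _ hy, extendByZero_mem M _ (hM.conj_mem y hy m)]
      congr 1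
      exact hη ⟨y, hy⟩ ⟨m, hm⟩
    · have hy' : m * y * m⁻¹ ∉ M := by
        intro h
        apply hy
        have := hM.conj_mem _ h m⁻¹
        simpa [mul_assoc] using this
      rw [hE, extendByZero_not_mem M _ hy, extendByZero_not_mem M _ hy']
  have hTinv : ∀ h ∈ H, ∀ y : G, T (h⁻¹ * y * h) = T y := by
    intro h hh y
    by_cases hy : y ∈ H
    · have hy' : h⁻¹ * y * h ∈ H := H.mul_mem (H.mul_mem (H.inv_mem hh) hy) hh
      rw [hT, extendByZero_mem H _ hy, extendByZero_mem H _ hy']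
      have := hϑ ⟨y, hy⟩ ⟨h⁻¹, H.inv_mem hh⟩
      rw [← this]
      congr 1
      apply Subtype.ext
      simp
    · have hy' : h⁻¹ * y * h ∉ H := by
        intro h'
        apply hy
        have := H.mul_mem (H.mul_mem hh h') (H.inv_mem hh)
        simpa [mul_assoc] using this
      rw [hT, extendByZero_not_mem H _ hy, extendByZero_not_mem H _ hy']
  have hS : ∀ x : G, ∑ g : G, E g * T (x⁻¹ * g * x) = ∑ g : G, E g * T g := by
    intro x
    have hx : x ∈ M ⊔ H := by rw [sup_comm, hsup]; trivial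
    rw [← SetLike.mem_coe, Subgroup.normal_mul] at hx
    obtain ⟨m, hm, h, hh, rfl⟩ := Set.mem_mul.1 hx
    have h1 : ∑ g : G, E g * T ((m * h)⁻¹ * g * (m * h))
        = ∑ g : G, E (m * g * m⁻¹) * T ((m * h)⁻¹ * (m * g * m⁻¹) * (m * h)) :=
      (Equiv.sum_comp (MulAut.conj m).toEquiv (fun g => E g * T ((m * h)⁻¹ * g * (m * h)))).symm
    rw [h1]
    apply Finset.sum_congr rfl
    intro g _
    rw [hEinv m hm]
    have : (m * h)⁻¹ * (m * g * m⁻¹) * (m * h) = h⁻¹ * g * h := by group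
    rw [this, hTinv h hh]
  have hL : ∑ m : M, indFun H ϑ m * conj (η m) =
      (Nat.card H : ℂ)⁻¹ * (Nat.card G : ℂ) * ∑ g : G, E g * T g := by
    have h1 := sum_extendByZero_mul M (fun m => conj (η m)) (indFun H ϑ)
    rw [Finset.sum_congr rfl (fun (m : M) _ => mul_comm (indFun H ϑ (m : G)) (conj (η m))), ← h1]
    simp only [indFun_apply]
    have h2 : ∀ y : G, extendByZero M (fun m => conj (η m)) y *
        ((Nat.card H : ℂ)⁻¹ * ∑ x : G, extendByZero H ϑ (x⁻¹ * y * x)) =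
        (Nat.card H : ℂ)⁻¹ * ∑ x : G, E y * T (x⁻¹ * y * x) := by
      intro y
      rw [Finset.mul_sum, Finset.mul_sum, Finset.mul_sum]
      apply Finset.sum_congr rfl
      intro x _
      rw [hE, hT]
      ring
    rw [Finset.sum_congr rfl (fun y _ => h2 y), ← Finset.mul_sum, Finset.sum_comm,
      Finset.sum_congr rfl (fun x _ => hS x), Finset.sum_const, Finset.card_univ, nsmul_eq_mul,
      ← Nat.card_eq_fintype_card]
    ring
  have hR : ∑ g : G, E g * T g =
      ∑ t : (H ⊓ M : Subgroup G), ϑ ⟨t, t.2.1⟩ * conj (η ⟨t, t.2.2⟩) := by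
    rw [← sum_extendByZero (H ⊓ M)]
    apply Finset.sum_congr rfl
    intro g _
    rw [← extendByZero_mul_extendByZero H M ϑ (fun m => conj (η m)) g, mul_comm]
  have hcard := index_sup_mul_card H M
  rw [hsup, Subgroup.index_top, one_mul] at hcard
  have hcard' : (Nat.card M : ℂ) * (Nat.card H : ℂ) =
      (Nat.card G : ℂ) * (Nat.card (H ⊓ M : Subgroup G) : ℂ) := by exact_mod_cast hcard
  have hM0 : (Nat.card M : ℂ) ≠ 0 := by exact_mod_cast Nat.card_pos.ne'
  have hH0 : (Nat.card H : ℂ) ≠ 0 := by exact_mod_cast Nat.card_pos.ne'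
  have hQ0 : (Nat.card (H ⊓ M : Subgroup G) : ℂ) ≠ 0 := by exact_mod_cast Nat.card_pos.ne'
  unfold classInner
  rw [hL, hR]
  field_simp
  rw [hcard']
  ring

end Cfsg.Agent.Lib.Helper25
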