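import Mathlib
import Cfsg.Agent.Lib.Helper25.GoDown2
import Cfsg.Agent.S0857

set_option autoImplicit false

namespace Cfsg.Agent.Lib.Helper25

open Cfsg
open scoped ComplexConjugate

universe u

/-- a chief factor above `N` with `G/N` solvable is abelian -/
theorem chief_abelian {G : Type u} [Group G] (N K L : Subgroup G) [N.Normal] [K.Normal] [L.Normal]
    (hsolv : Group.IsSolvable (G ⧸ N)) (hNL : N ≤ L) (hLK : L < K)
    (hchief : ∀ M : Subgroup G, M.Normal → L ≤ M → M ≤ K → M = L ∨ M = K) : ⁅K, K⁆ ≤ L := by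
  have hsolvL : Group.IsSolvable (G ⧸ L) :=
    Group.isSolvable_of_surjective (f := QuotientGroup.map N L (MonoidHom.id G) hNL) (by
      intro x
      obtain ⟨g, rfl⟩ := QuotientGroup.mk'_surjective L x
      exact ⟨QuotientGroup.mk' N g, rfl⟩)
  have hn : (⁅K, K⁆ ⊔ L).Normal := inferInstance
  rcases hchief (⁅K, K⁆ ⊔ L) hn le_sup_right
    (sup_le (Subgroup.commutator_le_left K K) hLK.le) with h | h
  · rw [← h]; exact le_sup_left
  · exfalso
    have hne : K.map (QuotientGroup.mk' L) ≠ ⊥ := by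
      intro h0
      rw [Subgroup.map_eq_bot_iff, QuotientGroup.ker_mk'] at h0
      exact (not_le_of_gt hLK) h0
    have h1 := Group.IsSolvable.commutator_lt_of_ne_bot hne
    rw [← Subgroup.map_commutator] at h1
    have h2 : (⁅K, K⁆ ⊔ L).map (QuotientGroup.mk' L) = (⁅K, K⁆).map (QuotientGroup.mk' L) := by
      rw [Subgroup.map_sup]
      have : L.map (QuotientGroup.mk' L) = ⊥ := by
        rw [Subgroup.map_eq_bot_iff, QuotientGroup.ker_mk']
      rw [this, sup_bot_eq]
    rw [← h2, h] at h1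
    exact lt_irrefl _ h1

theorem rel_m_aux (n : ℕ) : ∀ (G : Type u) [Group G] [Fintype G], Nat.card G = n →
    ∀ (N : Subgroup G) [N.Normal], Group.IsSolvable (G ⧸ N) →
    (∀ (H K L : Subgroup G), N ≤ L → L < K → K ≤ H → (∀ h ∈ H, ∀ k ∈ K, h * k * h⁻¹ ∈ K) →
      (∀ h ∈ H, ∀ l ∈ L, h * l * h⁻¹ ∈ L) →
      (∀ M : Subgroup G, L ≤ M → M ≤ K → (∀ h ∈ H, ∀ m ∈ M, h * m * h⁻¹ ∈ M) → M = L ∨ M = K) →
      ¬ IsSquare (L.relIndex K)) →
    ∀ χ : G → ℂ, IsIrrCharacter G χ →
    ∃ (H : Subgroup G) (hNH : N ≤ H) (ψ : H → ℂ), IsIrrCharacter H ψ ∧ indFun H ψ = χ ∧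
      IsIrrCharacter N (fun n : N => ψ ⟨(n : G), hNH n.2⟩) := by
  induction n using Nat.strong_induction_on with
  | _ n ih =>
  intro G _ _ hcard N _ hsolv hchief χ hχ
  classical
  have hχc := Helper7.isCharacter_of_irr hχ
  have hcf := Helper7.isClassFunction_of_isCharacter hχc
  have htop : IsIrrCharacter (⊤ : Subgroup G) (fun h => χ h) :=
    isIrrCharacter_comp_surjective (⊤ : Subgroup G).subtype
      (fun g => ⟨⟨g, Subgroup.mem_top g⟩, rfl⟩) hχ
  by_cases hN : IsIrrCharacter N (fun n : N => χ n)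
  · exact ⟨⊤, le_top, fun h => χ h, htop, indFun_top hcf, hN⟩
  obtain ⟨K, ⟨hKn, hNK, hKirr⟩, hKmin⟩ := WellFounded.has_min (wellFounded_lt (α := Subgroup G))
    {K : Subgroup G | K.Normal ∧ N ≤ K ∧ IsIrrCharacter K (fun k : K => χ k)}
    ⟨⊤, inferInstance, le_top, htop⟩
  have hNK' : N < K := by
    refine lt_of_le_of_ne hNK ?_
    rintro rfl
    exact hN hKirr
  obtain ⟨L, ⟨hLn, hNL, hLK⟩, hLmax⟩ := WellFounded.has_min (wellFounded_gt (α := Subgroup G))
    {L : Subgroup G | L.Normal ∧ N ≤ L ∧ L < K} ⟨N, inferInstance, le_rfl, hNK'⟩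
  have hch : ∀ M : Subgroup G, M.Normal → L ≤ M → M ≤ K → M = L ∨ M = K := by
    intro M hMn hLM hMK
    by_contra hcon
    push Not at hcon
    exact hLmax M ⟨hMn, hNL.trans hLM, lt_of_le_of_ne hMK hcon.2⟩
      (lt_of_le_of_ne hLM (Ne.symm hcon.1))
  have hab := chief_abelian N K L hsolv hNL hLK hch
  have hnsq : ¬ IsSquare (L.relIndex K) := by
    apply hchief ⊤ K L hNL hLK le_top (fun h _ k hk => hKn.conj_mem k hk h)
      (fun h _ l hl => hLn.conj_mem l hl h)
    intro M hLM hMK hM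
    exact hch M ⟨fun m hm g => hM g (Subgroup.mem_top g) m hm⟩ hLM hMK
  rcases Cfsg.Agent.S0857.result K L hLK hch hab (fun k : K => χ k) hKirr
    (fun g k => hcf k g) with h | ⟨φ, e, -, -, he⟩ | ⟨F, hF, hFcard, hFsum⟩
  · exact absurd hLK (hKmin L ⟨hLn, hNL, h⟩)
  · exact absurd ⟨e, by rw [← he, pow_two]⟩ hnsq
  have hFsum' : (fun x : L => χ x) = ∑ φ ∈ F, φ := hFsum
  have hF2 : 1 < F.card := by
    rw [hFcard]
    have h1 : L.relIndex K ≠ 1 := fun h => (not_le_of_gt hLK) (Subgroup.relIndex_eq_one.1 h)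
    have h0 : L.relIndex K ≠ 0 := (L.subgroupOf K).index_ne_zero_of_finite
    omega
  obtain ⟨φ, hφF, φ', hφ'F, hne⟩ := Finset.one_lt_card.1 hF2
  have hinner : ∀ f ∈ F, classInner (fun x : L => χ x) f = 1 := by
    intro f hf
    rw [hFsum', classInner_sum_left, Finset.sum_eq_single f]
    · rw [Helper2.irr_orthonormal (hF f hf) (hF f hf), if_pos rfl]
    · intro b hb hbf
      rw [Helper2.irr_orthonormal (hF b hb) (hF f hf), if_neg hbf]
    · intro h; exact absurd hf h
  have hφ := hF φ hφF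
  have hcon : classInner (fun x : L => χ x) φ ≠ 0 := by rw [hinner φ hφF]; exact one_ne_zero
  set T := inertia L φ with hT
  have hLT : L ≤ T := le_inertia L (Helper7.isClassFunction_of_isCharacter
    (Helper7.isCharacter_of_irr hφ))
  have hTtop : T ≠ ⊤ := by
    intro htop'
    have hinv : ∀ g : G, conjFun L φ g = φ := by
      intro g
      have : g ∈ inertia L φ := by rw [← hT, htop']; exact Subgroup.mem_top g
      exact this
    have hres := restrict_eq_smul_of_invariant L hχ hφ hcon hinv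
    have h1 := hinner φ' hφ'F
    rw [hres, classInner_smul_left, Helper2.irr_orthonormal hφ (hF φ' hφ'F), if_neg hne,
      mul_zero] at h1
    exact zero_ne_one h1
  obtain ⟨η, hη, hηind, -⟩ := clifford_corr_exists L T hφ (mem_inertia L φ) hLT hχ hcon
  have hlt : Nat.card T < n := by
    rw [← hcard]
    apply lt_of_le_of_ne (Subgroup.card_le_card_group T)
    intro h4
    exact hTtop (Subgroup.eq_top_of_card_eq T h4)
  have hNT : N ≤ T := hNL.trans hLT
  have hsolvT : Group.IsSolvable (T ⧸ N.subgroupOf T) := by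
    apply Group.isSolvable_of_isSolvable_injective
      (f := QuotientGroup.map (N.subgroupOf T) N T.subtype (fun x hx => hx))
    rw [injective_iff_map_eq_one]
    intro x hx
    obtain ⟨t, rfl⟩ := QuotientGroup.mk'_surjective _ x
    have : QuotientGroup.mk' N (t : G) = 1 := hx
    exact (QuotientGroup.eq_one_iff t).2 ((QuotientGroup.eq_one_iff (t : G)).1 this)
  have hinj := T.subtype_injective
  obtain ⟨H', hNH', ψ', hψ', hind', hres'⟩ := ih _ hlt T rfl (N.subgroupOf T) hsolvT (by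
    intro H' K' L' h1 h2 h3 h4 h5 h6
    rw [← Subgroup.relIndex_map_map_of_injective L' K' hinj]
    apply hchief (H'.map T.subtype) (K'.map T.subtype) (L'.map T.subtype)
    · intro x hx
      exact ⟨⟨x, hNT hx⟩, h1 hx, rfl⟩
    · exact lt_of_le_of_ne (Subgroup.map_mono h2.le)
        (fun h => h2.ne (Subgroup.map_injective hinj h))
    · exact Subgroup.map_mono h3
    · rintro _ ⟨h, hh, rfl⟩ _ ⟨k, hk, rfl⟩
      exact ⟨h * k * h⁻¹, h4 h hh k hk, by simp⟩
    · rintro _ ⟨h, hh, rfl⟩ _ ⟨k, hk, rfl⟩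
      exact ⟨h * k * h⁻¹, h5 h hh k hk, by simp⟩
    · intro M hLM hMK hM
      have hMT : M ≤ T := hMK.trans (Subgroup.map_subtype_le K')
      have hMeq : M = (M.subgroupOf T).map T.subtype := by
        rw [Subgroup.subgroupOf_map_subtype, inf_of_le_left hMT]
      rcases h6 (M.subgroupOf T)
        (fun l hl => hLM ⟨l, hl, rfl⟩)
        (fun m hm => by
          obtain ⟨k, hk, hkm⟩ := hMK hm
          rw [← hinj hkm]; exact hk)
        (fun h hh m hm => hM h ⟨h, hh, rfl⟩ m hm) with h | h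
      · left; rw [hMeq, h]
      · right; rw [hMeq, h]) η hη
  obtain ⟨H, hHT, rfl⟩ : ∃ H : Subgroup G, H ≤ T ∧ H' = H.subgroupOf T :=
    ⟨H'.map T.subtype, Subgroup.map_subtype_le H',
      (Subgroup.comap_map_eq_self_of_injective T.subtype_injective H').symm⟩
  have hNH : N ≤ H := by
    intro x hx
    exact hNH' (show (⟨x, hNT hx⟩ : T) ∈ N.subgroupOf T from hx)
  let eH := Subgroup.subgroupOfEquivOfLe hHT
  refine ⟨H, hNH, fun h => ψ' (eH.symm h), ?_, ?_, ?_⟩
  · exact isIrrCharacter_comp_surjective eH.symm.toMonoidHom eH.symm.surjective hψ'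
  · rw [← hηind, ← hind', ← indFun_trans H T hHT]
    congr 2
  · have := isIrrCharacter_comp_surjective (Subgroup.subgroupOfEquivOfLe hNT).symm.toMonoidHom
      (Subgroup.subgroupOfEquivOfLe hNT).symm.surjective hres'
    exact this

end Cfsg.Agent.Lib.Helper25
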