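import Mathlib
import Cfsg.Agent.Lib.Helper25.RelM
import Cfsg.Agent.Lib.Helper4.MinNormal
import Cfsg.Agent.Lib.Helper1.Coprime

set_option autoImplicit false

namespace Cfsg.Agent.Lib.Helper25

open Cfsg

universe u

variable {G : Type u} [Group G]

theorem exists_chief_above [Finite G] (N : Subgroup G) (hN : N ≠ ⊤) :
    ∃ K : Subgroup G, K.Normal ∧ N < K ∧
      ∀ X : Subgroup G, X.Normal → N ≤ X → X ≤ K → X = N ∨ X = K := by
  obtain ⟨K, ⟨hK1, hK2⟩, hmin⟩ := (wellFounded_lt (α := Subgroup G)).has_min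
    {K : Subgroup G | K.Normal ∧ N < K} ⟨⊤, inferInstance, lt_top_iff_ne_top.2 hN⟩
  refine ⟨K, hK1, hK2, ?_⟩
  intro X hX hNX hXK
  by_cases h : X = N
  · exact Or.inl h
  · right
    have h1 : N < X := lt_of_le_of_ne hNX (Ne.symm h)
    have h2 := hmin X ⟨hX, h1⟩
    exact (eq_or_lt_of_le hXK).resolve_right h2

theorem relIndex_eq_card_map (N K : Subgroup G) [N.Normal] :
    N.relIndex K = Nat.card (K.map (QuotientGroup.mk' N)) := by
  have h := Subgroup.relIndex_comap (H := (⊥ : Subgroup (G ⧸ N))) (QuotientGroup.mk' N) K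
  rw [Subgroup.relIndex_bot_left] at h
  rw [← h]
  congr 1
  exact (QuotientGroup.ker_mk' N).symm

theorem isSolvable_quotient_of_le (L N : Subgroup G) [L.Normal] [N.Normal] (hLN : L ≤ N)
    (hsolv : Group.IsSolvable (G ⧸ L)) : Group.IsSolvable (G ⧸ N) :=
  Group.isSolvable_of_surjective (f := QuotientGroup.map L N (MonoidHom.id G) hLN) (by
    intro x
    obtain ⟨g, rfl⟩ := QuotientGroup.mk'_surjective N x
    exact ⟨QuotientGroup.mk' L g, rfl⟩)

theorem chief_isPGroup [Finite G] (N K : Subgroup G) [hN : N.Normal] [hK : K.Normal]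
    (hsolv : Group.IsSolvable (G ⧸ N)) (hNK : N < K)
    (hc : ∀ X : Subgroup G, X.Normal → N ≤ X → X ≤ K → X = N ∨ X = K) :
    ∃ p : ℕ, p.Prime ∧ IsPGroup p (K.map (QuotientGroup.mk' N)) := by
  apply Helper4.minNormal_isPGroup
  refine ⟨Subgroup.Normal.map hK _ (QuotientGroup.mk'_surjective N), ?_, ?_⟩
  · intro h0
    rw [Subgroup.map_eq_bot_iff, QuotientGroup.ker_mk'] at h0
    exact (not_le_of_gt hNK) h0
  · intro X hX hXK
    have h1 : (X.comap (QuotientGroup.mk' N)).Normal := hX.comap _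
    have h2 : N ≤ X.comap (QuotientGroup.mk' N) := by
      intro n hn
      rw [Subgroup.mem_comap]
      have : QuotientGroup.mk' N n = 1 := by
        rw [← MonoidHom.mem_ker, QuotientGroup.ker_mk']; exact hn
      rw [this]
      exact X.one_mem
    have h3 : X.comap (QuotientGroup.mk' N) ≤ K := by
      intro x hx
      rw [Subgroup.mem_comap] at hx
      obtain ⟨k, hk, hkx⟩ := Subgroup.mem_map.1 (hXK hx)
      have h4 : k⁻¹ * x ∈ N := by
        rw [← QuotientGroup.ker_mk' N, MonoidHom.mem_ker, map_mul, map_inv, hkx, inv_mul_cancel]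
      have : x = k * (k⁻¹ * x) := by group
      rw [this]
      exact K.mul_mem hk (hNK.le h4)
    have h5 : X = (X.comap (QuotientGroup.mk' N)).map (QuotientGroup.mk' N) :=
      (Subgroup.map_comap_eq_self_of_surjective (QuotientGroup.mk'_surjective N) X).symm
    rcases hc _ h1 h2 h3 with h | h
    · left
      rw [h5, h, Subgroup.map_eq_bot_iff, QuotientGroup.ker_mk']
    · right
      rw [h5, h]

theorem chief_coprime [Finite G] (N K M : Subgroup G) [hN : N.Normal] [hK : K.Normal]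
    [hM : M.Normal] (hsolv : Group.IsSolvable (G ⧸ N)) (hNK : N < K) (hKM : K < M)
    (hc1 : ∀ X : Subgroup G, X.Normal → N ≤ X → X ≤ K → X = N ∨ X = K)
    (hc2 : ∀ X : Subgroup G, X.Normal → K ≤ X → X ≤ M → X = K ∨ X = M)
    (hfaith : ¬ ⁅K, M⁆ ≤ N) : (N.relIndex K).Coprime (K.relIndex M) := by
  obtain ⟨p, hp, hPK⟩ := chief_isPGroup N K hsolv hNK hc1
  obtain ⟨q, hq, hQM⟩ := chief_isPGroup K M (isSolvable_quotient_of_le N K hNK.le hsolv) hKM hc2
  have : Fact p.Prime := ⟨hp⟩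
  have : Fact q.Prime := ⟨hq⟩
  obtain ⟨i, hi⟩ := IsPGroup.iff_card.1 hPK
  obtain ⟨j, hj⟩ := IsPGroup.iff_card.1 hQM
  rw [relIndex_eq_card_map, relIndex_eq_card_map, hi, hj]
  by_cases hpq : p = q
  · exfalso
    subst hpq
    have hMp : IsPGroup p (M.map (QuotientGroup.mk' N)) := by
      apply IsPGroup.of_card (n := i + j)
      rw [← relIndex_eq_card_map, ← Subgroup.relIndex_mul_relIndex N K M hNK.le hKM.le,
        relIndex_eq_card_map, relIndex_eq_card_map, hi, hj, pow_add]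
    have hne : K.map (QuotientGroup.mk' N) ≠ ⊥ := by
      intro h0
      rw [Subgroup.map_eq_bot_iff, QuotientGroup.ker_mk'] at h0
      exact (not_le_of_gt hNK) h0
    have hKn : (K.map (QuotientGroup.mk' N)).Normal :=
      Subgroup.Normal.map hK _ (QuotientGroup.mk'_surjective N)
    have h3 := Helper1.commutator_lt_of_isPGroup hPK hMp
      Subgroup.le_normalizer_of_normal hne
    have hn : (⁅K, M⁆ ⊔ N).Normal := inferInstance
    rcases hc1 (⁅K, M⁆ ⊔ N) hn le_sup_right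
      (sup_le (Subgroup.commutator_le_left K M) hNK.le) with h | h
    · apply hfaith
      rw [← h]
      exact le_sup_left
    · have h4 : (⁅K, M⁆ ⊔ N).map (QuotientGroup.mk' N) =
          ⁅K.map (QuotientGroup.mk' N), M.map (QuotientGroup.mk' N)⁆ := by
        rw [Subgroup.map_sup, Subgroup.map_commutator]
        have : N.map (QuotientGroup.mk' N) = ⊥ := by
          rw [Subgroup.map_eq_bot_iff, QuotientGroup.ker_mk']
        rw [this, sup_bot_eq]
      rw [← h4, h] at h3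
      exact lt_irrefl _ h3
  · exact Nat.Coprime.pow i j ((Nat.coprime_primes hp hq).2 hpq)

/-- If `K` centralises `H ∩ M` modulo `N`, then `H ∩ M` is normal in `G = HK`. -/
theorem inf_le_core (H N K M : Subgroup G) [hK : K.Normal] [hM : M.Normal]
    (hcore : ∀ X : Subgroup G, X.Normal → X ≤ H → X ≤ N) (hNH : N ≤ H) (hNM : N ≤ M)
    (hsup : H ⊔ K = ⊤) (hc : ∀ k ∈ K, ∀ t ∈ H ⊓ M, k * t * k⁻¹ * t⁻¹ ∈ N) : H ⊓ M ≤ N := by
  apply hcore _ _ inf_le_left
  constructor
  intro t ht g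
  have hg : g ∈ H ⊔ K := by rw [hsup]; trivial
  rw [← SetLike.mem_coe, Subgroup.mul_normal] at hg
  obtain ⟨h, hh, k, hk, rfl⟩ := Set.mem_mul.1 hg
  have h1 : k * t * k⁻¹ ∈ H ⊓ M := by
    have h2 := hc k hk t ht
    have : k * t * k⁻¹ = (k * t * k⁻¹ * t⁻¹) * t := by group
    rw [this]
    exact (H ⊓ M).mul_mem ⟨hNH h2, hNM h2⟩ ht
  have h3 : h * k * t * (h * k)⁻¹ = h * (k * t * k⁻¹) * h⁻¹ := by group
  rw [h3]
  exact ⟨H.mul_mem (H.mul_mem hh h1.1) (H.inv_mem hh), hM.conj_mem _ h1.2 h⟩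

theorem le_of_inf_le (H N K M : Subgroup G) [hK : K.Normal] (hNK : N ≤ K) (hKM : K ≤ M)
    (hsup : H ⊔ K = ⊤) (h : H ⊓ M ≤ N) : M ≤ K := by
  intro x hx
  have hg : x ∈ H ⊔ K := by rw [hsup]; trivial
  rw [← SetLike.mem_coe, Subgroup.mul_normal] at hg
  obtain ⟨h', hh, k, hk, rfl⟩ := Set.mem_mul.1 hg
  have h1 : h' ∈ M := by
    have := M.mul_mem hx (M.inv_mem (hKM hk))
    simpa using this
  exact K.mul_mem (hNK (h ⟨hh, h1⟩)) hk

end Cfsg.Agent.Lib.Helper25
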