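import Mathlib
import Cfsg.Agent.Lib.Helper25.Berger1
import Cfsg.Agent.Lib.Helper25.Berger2
import Cfsg.Agent.Lib.Helper25.CosetNorm
import Cfsg.Agent.Lib.Helper25.Gallagher2
import Cfsg.Agent.Lib.Helper25.Ramified
import Cfsg.Agent.Lib.Helper26.ProjExt2

set_option autoImplicit false

namespace Cfsg.Agent.Lib.Helper25

open Cfsg
open scoped ComplexConjugate

universe u

variable {G : Type u} [Group G]

theorem berger_restrict [Fintype G] (L H M : Subgroup G) [hM : M.Normal] [Fintype M]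
    [Fintype (H ⊓ M : Subgroup G)] (hLH : L ≤ H) (hLM : L ≤ M)
    (hsup : H ⊔ M = ⊤) {ϑ : H → ℂ} (hϑ : IsIrrCharacter H ϑ)
    (hϑL : IsIrrCharacter L (fun x : L => ϑ ⟨(x : G), hLH x.2⟩))
    {η : M → ℂ} (hη : IsIrrCharacter M η) (f : ℕ)
    (hres : (fun m : M => indFun H ϑ m) = (f : ℂ) • η) :
    IsIrrCharacter (H ⊓ M : Subgroup G) (fun t => ϑ ⟨t, t.2.1⟩) ∧
    classInner (fun t : (H ⊓ M : Subgroup G) => ϑ ⟨t, t.2.1⟩) (fun t => η ⟨t, t.2.2⟩) = f := by
  constructor
  · apply isIrrCharacter_of_restrict (L.subgroupOf (H ⊓ M))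
    · exact isCharacter_comp (Subgroup.inclusion (inf_le_left : H ⊓ M ≤ H))
        (Helper7.isCharacter_of_irr hϑ)
    · exact isIrrCharacter_subgroupOf L (le_inf hLH hLM) hϑL
  · rw [← mackey_inner H M hsup
      (Helper7.isClassFunction_of_isCharacter (Helper7.isCharacter_of_irr hϑ))
      (Helper7.isClassFunction_of_isCharacter (Helper7.isCharacter_of_irr hη)), hres,
      classInner_smul_left, Helper7.classInner_irr_self hη, mul_one]

/-- `coset_norm` for a pair of subgroups `A ≤ B`. -/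
theorem coset_norm_sub [Finite G] (A B : Subgroup G) (hAB : A ≤ B) [Fintype A] {ξ : B → ℂ}
    (hξ : IsCharacter B ξ) (hres : IsIrrCharacter A (fun a : A => ξ ⟨a, hAB a.2⟩)) {t : G}
    (ht : t ∈ B) :
    ∑ a : A, Complex.normSq (ξ ⟨a * t, B.mul_mem (hAB a.2) ht⟩) = Nat.card A := by
  classical
  have : Fintype (A.subgroupOf B) := Fintype.ofFinite _
  have h1 := coset_norm (A.subgroupOf B) hξ (isIrrCharacter_subgroupOf A hAB hres) ⟨t, ht⟩
  have e := Subgroup.subgroupOfEquivOfLe hAB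
  have h2 : ∑ n : A.subgroupOf B, ξ (n * ⟨t, ht⟩) * conj (ξ (n * ⟨t, ht⟩)) =
      ∑ a : A, ((Complex.normSq (ξ ⟨a * t, B.mul_mem (hAB a.2) ht⟩) : ℝ) : ℂ) := by
    rw [← Equiv.sum_comp (Subgroup.subgroupOfEquivOfLe hAB).toEquiv]
    apply Finset.sum_congr rfl
    intro n _
    rw [Complex.mul_conj]
    rfl
  rw [h2, Nat.card_congr (Subgroup.subgroupOfEquivOfLe hAB).toEquiv] at h1
  exact_mod_cast h1

theorem berger_vanish [Finite G] (N K Q M : Subgroup G) (hNK : N ≤ K) (hKM : K ≤ M) (hNQ : N ≤ Q)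
    (hQM : Q ≤ M) {η : M → ℂ} (hη : IsCharacter M η)
    (hηK : IsIrrCharacter K (fun k : K => η ⟨k, hKM k.2⟩))
    {μ : Q → ℂ} (hμ : IsCharacter Q μ) (hμN : IsIrrCharacter N (fun n : N => μ ⟨n, hNQ n.2⟩))
    (e : ℕ) (hηQ : ∀ t : Q, η ⟨t, hQM t.2⟩ = e * μ t) (hcard : e ^ 2 * Nat.card N = Nat.card K)
    {t : G} (ht : t ∈ Q) :
    (∀ c ∈ K, c ∉ N → extendByZero M η (c * t) = 0) ∧
      ∃ n ∈ N, extendByZero M η (n * t) ≠ 0 := by
  classical
  cases nonempty_fintype G
  have : Fintype K := Fintype.ofFinite _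
  have : Fintype N := Fintype.ofFinite _
  set F : G → ℝ := fun g => Complex.normSq (extendByZero M η (g * t)) with hF
  have S1 : ∑ k : K, F k = Nat.card K := by
    rw [← coset_norm_sub K M hKM hη hηK (hQM ht)]
    apply Finset.sum_congr rfl
    intro k _
    rw [hF]
    simp only
    rw [extendByZero_mem M η (M.mul_mem (hKM k.2) (hQM ht))]
  have S2 : ∑ n : N, F n = Nat.card K := by
    have h1 := coset_norm_sub N Q hNQ hμ hμN ht
    have h2 : ∀ n : N, F n = (e : ℝ) ^ 2 * Complex.normSq (μ ⟨n * t, Q.mul_mem (hNQ n.2) ht⟩) := by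
      intro n
      rw [hF]
      simp only
      rw [extendByZero_mem M η (M.mul_mem (hKM (hNK n.2)) (hQM ht))]
      have := hηQ ⟨n * t, Q.mul_mem (hNQ n.2) ht⟩
      rw [this, Complex.normSq_mul, Complex.normSq_natCast]
      ring
    rw [Finset.sum_congr rfl (fun n _ => h2 n), ← Finset.mul_sum, h1, ← hcard]
    push_cast
    ring
  set sK : Finset G := Finset.univ.filter (· ∈ K) with hsK
  set sN : Finset G := Finset.univ.filter (· ∈ N) with hsN
  have T1 : ∑ g ∈ sK, F g = Nat.card K := by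
    rw [← S1]
    exact Finset.sum_subtype sK (fun x => by simp [hsK]) F
  have T2 : ∑ g ∈ sN, F g = Nat.card K := by
    rw [← S2]
    exact Finset.sum_subtype sN (fun x => by simp [hsN]) F
  have hsub : sN ⊆ sK := by
    intro x hx
    simp only [hsN, hsK, Finset.mem_filter, Finset.mem_univ, true_and] at hx ⊢
    exact hNK hx
  have T3 := Finset.sum_sdiff (f := F) hsub
  rw [T1, T2] at T3
  have T4 : ∑ g ∈ sK \ sN, F g = 0 := by linarith
  have T5 := (Finset.sum_eq_zero_iff_of_nonneg (fun g _ => Complex.normSq_nonneg _)).1 T4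
  constructor
  · intro c hcK hcN
    have := T5 c (by simp [hsK, hsN, hcK, hcN])
    exact Complex.normSq_eq_zero.1 this
  · by_contra hcon
    push Not at hcon
    have : ∑ g ∈ sN, F g = 0 := by
      apply Finset.sum_eq_zero
      intro g hg
      simp only [hsN, Finset.mem_filter, Finset.mem_univ, true_and] at hg
      rw [hF]
      simp only
      rw [hcon g hg]
      simp
    rw [T2] at this
    have hpos : 0 < Nat.card K := Nat.card_pos
    have : (Nat.card K : ℝ) ≠ 0 := by exact_mod_cast hpos.ne'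
    contradiction

end Cfsg.Agent.Lib.Helper25
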