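import Mathlib
import Cfsg.Agent.Lib.Helper25.Berger3

set_option autoImplicit false

namespace Cfsg.Agent.Lib.Helper25

open Cfsg
open scoped ComplexConjugate

universe u

theorem index_eq_relIndex_of_sup {G : Type u} [Group G] [Finite G] (H K : Subgroup G) [K.Normal]
    (hsup : H ⊔ K = ⊤) : (H ⊓ K).relIndex K = H.index := by
  have h1 := index_sup_mul_card H K
  rw [hsup, Subgroup.index_top, one_mul] at h1
  have h2 := card_mul_relIndex_of_le (inf_le_right : H ⊓ K ≤ K)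
  have h3 := H.card_mul_index
  rw [← h2, ← h3] at h1
  have hH : 0 < Nat.card H := Nat.card_pos
  have hN : 0 < Nat.card (H ⊓ K : Subgroup G) := Nat.card_pos
  have : Nat.card H * Nat.card (H ⊓ K : Subgroup G) * (H ⊓ K).relIndex K =
      Nat.card H * Nat.card (H ⊓ K : Subgroup G) * H.index := by
    calc _ = Nat.card (H ⊓ K : Subgroup G) * (H ⊓ K).relIndex K * Nat.card H := by ring
      _ = Nat.card H * H.index * Nat.card (H ⊓ K : Subgroup G) := h1
      _ = _ := by ring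
  exact Nat.eq_of_mul_eq_mul_left (Nat.mul_pos hH hN) this

theorem berger_main {G : Type u} [Group G] [Fintype G] (L H : Subgroup G) [hL : L.Normal]
    (hLH : L ≤ H) (hmax : IsCoatom H) (hsolv : Group.IsSolvable (G ⧸ L)) (ϑ : H → ℂ)
    (hϑ : IsIrrCharacter H ϑ)
    (hϑL : IsIrrCharacter L (fun x : L => ϑ ⟨(x : G), hLH x.2⟩))
    (hind : IsIrrCharacter G (indFun H ϑ))
    (hq : ∀ M : Subgroup G, M.Normal → L ≤ M → ∃ (φ : M → ℂ) (e : ℕ), IsIrrCharacter M φ ∧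
      (fun m : M => indFun H ϑ m) = (e : ℂ) • φ) : False := by
  classical
  obtain ⟨N, hNn, hNH, hcore⟩ : ∃ N : Subgroup G, N.Normal ∧ N ≤ H ∧
      ∀ X : Subgroup G, X.Normal → X ≤ H → X ≤ N :=
    ⟨H.normalCore, inferInstance, Subgroup.normalCore_le H,
      fun X hX h => (Subgroup.normal_le_normalCore (H := H) (N := X)).2 h⟩
  have hLN : L ≤ N := hcore L hL hLH
  have hNtop : N ≠ ⊤ := fun h => hmax.1 (top_le_iff.1 (h ▸ hNH))
  obtain ⟨K, hKn, hNK, hc1⟩ := exists_chief_above N hNtop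
  have hKH : ¬ K ≤ H := fun h => (not_le_of_gt hNK) (hcore K hKn h)
  have hsupK : H ⊔ K = ⊤ :=
    hmax.2 _ (lt_of_le_of_ne le_sup_left (fun h => hKH (h ▸ le_sup_right)))
  have hab : ⁅K, K⁆ ≤ N := chief_abelian L K N hsolv hLN hNK hc1
  have hHK : H ⊓ K = N := le_antisymm
    (inf_le_core H N K K hcore hNH hNK.le hsupK
      (fun k hk t ht => hab (Subgroup.commutator_mem_commutator hk ht.2)))
    (le_inf hNH hNK.le)
  subst hHK
  -- degrees
  obtain ⟨d, hd0, hd⟩ := Helper7.irr_apply_one hϑ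
  have hdne : (d : ℂ) ≠ 0 := by exact_mod_cast hd0.ne'
  have hχ1 : indFun H ϑ 1 = (H.index : ℂ) * d := by rw [indFun_one, hd]
  have hidx0 : (H.index : ℂ) ≠ 0 := by
    exact_mod_cast (Nat.pos_of_ne_zero (Subgroup.index_ne_zero_of_finite (H := H))).ne'
  obtain ⟨ψ, e₁, hψ, hψres⟩ := hq K hKn (hLN.trans hNK.le)
  obtain ⟨φ₀, e₀, hφ₀, hφ₀res⟩ := hq (H ⊓ K) hNn hLN
  obtain ⟨hφ, hφψ⟩ := berger_restrict L H K hLH (hLN.trans hNK.le) hsupK hϑ hϑL hψ e₁ hψres
  have hψ1 : (H.index : ℂ) * d = e₁ * ψ 1 := by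
    rw [← hχ1]
    exact congrFun hψres 1
  have he₁0 : (e₁ : ℂ) ≠ 0 := by
    intro h
    rw [h, zero_mul] at hψ1
    exact (mul_ne_zero hidx0 hdne) hψ1
  have hfun : (e₀ : ℂ) • φ₀ = (e₁ : ℂ) • (fun t : (H ⊓ K : Subgroup G) => ψ ⟨t, t.2.2⟩) := by
    rw [← hφ₀res]
    funext t
    exact congrFun hψres ⟨t, t.2.2⟩
  have hinner := congrArg (classInner (fun t : (H ⊓ K : Subgroup G) => ϑ ⟨t, t.2.1⟩)) hfun
  rw [classInner_smul_right, classInner_smul_right, hφψ, Complex.conj_natCast,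
    Complex.conj_natCast] at hinner
  have hφeq : (fun t : (H ⊓ K : Subgroup G) => ϑ ⟨t, t.2.1⟩) = φ₀ := by
    by_contra hne
    rw [Helper7.classInner_irr_ne hφ hφ₀ hne, mul_zero] at hinner
    exact (mul_ne_zero he₁0 he₁0) hinner.symm
  rw [← hφeq, Helper7.classInner_irr_self hφ, mul_one] at hinner
  have he₀ : e₀ = e₁ * e₁ := by exact_mod_cast hinner
  have he₀idx : e₀ = H.index := by
    have h1 := congrFun hφ₀res 1
    rw [← hφeq] at h1
    have h2 : indFun H ϑ 1 = (e₀ : ℂ) * d := by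
      rw [← hd]
      exact h1
    rw [hχ1] at h2
    exact_mod_cast (mul_right_cancel₀ hdne h2).symm
  have hψdeg : ψ 1 = e₁ * d := by
    rw [← he₀idx, he₀] at hψ1
    push_cast at hψ1
    rw [mul_assoc] at hψ1
    exact (mul_left_cancel₀ he₁0 hψ1).symm
  have hrel : (H ⊓ K).relIndex K = e₁ * e₁ := by
    rw [index_eq_relIndex_of_sup H K hsupK, ← he₀idx, he₀]
  have hrel1 : e₁ * e₁ ≠ 1 := by
    rw [← hrel]
    intro h
    exact (not_le_of_gt hNK) (Subgroup.relIndex_eq_one.1 h)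
  have hKtop : K ≠ ⊤ := by
    rintro rfl
    have hψ' : IsIrrCharacter G (fun g => ψ ⟨g, Subgroup.mem_top g⟩) :=
      isIrrCharacter_comp_surjective ((Subgroup.topEquiv (G := G)).symm.toMonoidHom)
        ((Subgroup.topEquiv (G := G)).symm.surjective) hψ
    have h1 : indFun H ϑ = (e₁ : ℂ) • (fun g => ψ ⟨g, Subgroup.mem_top g⟩) :=
      funext fun g => congrFun hψres ⟨g, Subgroup.mem_top g⟩
    have h2 := Helper7.classInner_irr_self hind
    rw [h1, classInner_smul_left, classInner_smul_right, Helper7.classInner_irr_self hψ',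
      Complex.conj_natCast, mul_one] at h2
    exact hrel1 (by exact_mod_cast h2)
  obtain ⟨M, hMn, hKM, hc2⟩ := exists_chief_above K hKtop
  have hsupM : H ⊔ M = ⊤ := top_le_iff.1 (hsupK ▸ sup_le_sup_left hKM.le H)
  have hnotle : ¬ H ⊓ M ≤ H ⊓ K := fun h =>
    not_le_of_gt hKM (le_of_inf_le H (H ⊓ K) K M inf_le_right hKM.le hsupK h)
  have hfaith : ¬ ⁅K, M⁆ ≤ H ⊓ K := fun hc =>
    hnotle (inf_le_core H (H ⊓ K) K M hcore hNH (inf_le_right.trans hKM.le) hsupK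
      (fun k hk t ht => hc (Subgroup.commutator_mem_commutator hk ht.2)))
  have hcop := chief_coprime (H ⊓ K) K M (isSolvable_quotient_of_le L _ hLN hsolv) hNK hKM hc1 hc2
    hfaith
  have hLM : L ≤ M := (hLN.trans hNK.le).trans hKM.le
  obtain ⟨η, f, hη, hηres⟩ := hq M hMn hLM
  obtain ⟨hμ, hμη⟩ := berger_restrict L H M hLH hLM hsupM hϑ hϑL hη f hηres
  have hηψ : ∀ k : K, (f : ℂ) * η ⟨k, hKM.le k.2⟩ = e₁ * ψ k := by
    intro k
    have h1 := congrFun hηres ⟨k, hKM.le k.2⟩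
    have h2 := congrFun hψres k
    simp only [Pi.smul_apply, smul_eq_mul] at h1 h2
    rw [← h1, ← h2]
  have hf0 : (f : ℂ) ≠ 0 := by
    intro h
    have := hηψ 1
    rw [h, zero_mul, hψdeg] at this
    exact (mul_ne_zero he₁0 (mul_ne_zero he₁0 hdne)) this.symm
  have hηK : (fun k : K => η ⟨k, hKM.le k.2⟩) = ((e₁ : ℂ) / f) • ψ := by
    funext k
    rw [Pi.smul_apply, smul_eq_mul, div_mul_eq_mul_div, ← hηψ k]
    field_simp
  have hψ' := isIrrCharacter_subgroupOf K hKM.le hψ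
  have hcon : classInner (fun n : K.subgroupOf M => η n)
      (fun x : K.subgroupOf M => ψ ⟨(x : M), Subgroup.mem_subgroupOf.mp x.2⟩) ≠ 0 := by
    have h1 := classInner_subgroupOf K hKM.le (fun k : K => η ⟨k, hKM.le k.2⟩) ψ
    rw [hηK, classInner_smul_left, Helper7.classInner_irr_self hψ, mul_one] at h1
    intro h0
    have h2 : (e₁ : ℂ) / f = 0 := by
      rw [← h1]
      exact h0
    exact (div_ne_zero he₁0 hf0) h2
  obtain ⟨a, ha1, ha2⟩ := Helper26.degree_ratio (K.subgroupOf M) hη hψ' hcon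
  have ha1' : η 1 = a * ψ 1 := ha1
  have hfa : f * a = e₁ := by
    have h1 := hηψ 1
    have h2 : η ⟨((1 : K) : G), hKM.le (1 : K).2⟩ = η 1 := rfl
    rw [h2, ha1', ← mul_assoc] at h1
    have hψ10 : ψ 1 ≠ 0 := by rw [hψdeg]; exact mul_ne_zero he₁0 hdne
    exact_mod_cast mul_right_cancel₀ hψ10 h1
  have ha : a = 1 := by
    refine Nat.eq_one_of_dvd_coprimes hcop ?_ ha2
    rw [hrel, ← hfa]
    exact Dvd.dvd.mul_left (Dvd.intro_left f rfl) _
  have hfe : f = e₁ := by rw [← hfa, ha, mul_one]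
  subst hfe
  have hηK' : (fun k : K => η ⟨k, hKM.le k.2⟩) = ψ := by
    rw [hηK, div_self hf0, one_smul]
  -- restriction to `Q`
  have hηQc : IsCharacter (H ⊓ M : Subgroup G) (fun t => η ⟨t, t.2.2⟩) :=
    isCharacter_comp (Subgroup.inclusion (inf_le_right : H ⊓ M ≤ M)) (Helper7.isCharacter_of_irr hη)
  have hinn : classInner (fun t : (H ⊓ M : Subgroup G) => η ⟨t, t.2.2⟩)
      (fun t : (H ⊓ M : Subgroup G) => ϑ ⟨t, t.2.1⟩) = f := by
    rw [← classInner_conj_symm, hμη, Complex.conj_natCast]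
  have hηQ := eq_smul_of_degree hηQc hμ (by
    rw [hinn]
    show η 1 = f * ϑ 1
    rw [ha1', ha, hψdeg, hd]
    simp)
  rw [hinn] at hηQ
  have hcard : f ^ 2 * Nat.card (H ⊓ K : Subgroup G) = Nat.card K := by
    rw [← card_mul_relIndex_of_le (inf_le_right : H ⊓ K ≤ K), hrel]
    ring
  have hNQ : H ⊓ K ≤ H ⊓ M := inf_le_inf_left H hKM.le
  have hV := fun (t : G) (ht : t ∈ H ⊓ M) =>
    berger_vanish (H ⊓ K) K (H ⊓ M) M inf_le_right hKM.le hNQ inf_le_right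
      (Helper7.isCharacter_of_irr hη) (by rw [hηK']; exact hψ) (Helper7.isCharacter_of_irr hμ) hφ f
      (fun t => congrFun hηQ t) hcard ht
  apply hnotle
  apply inf_le_core H (H ⊓ K) K M hcore hNH (inf_le_right.trans hKM.le) hsupK
  intro k hk t ht
  obtain ⟨n, hn, hne⟩ := (hV t ht).2
  have hx : n * t ∈ H ⊓ M := (H ⊓ M).mul_mem (hNQ hn) ht
  have hcK : k * (n * t) * k⁻¹ * (n * t)⁻¹ ∈ K := by
    have h1 := hKn.conj_mem k⁻¹ (K.inv_mem hk) (n * t)
    have h2 := K.mul_mem hk h1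
    have h3 : k * (n * t) * k⁻¹ * (n * t)⁻¹ = k * ((n * t) * k⁻¹ * (n * t)⁻¹) := by group
    rw [h3]
    exact h2
  have hcN : k * (n * t) * k⁻¹ * (n * t)⁻¹ ∈ H ⊓ K := by
    by_contra hcon'
    have h1 := (hV (n * t) hx).1 _ hcK hcon'
    have h2 : k * (n * t) * k⁻¹ * (n * t)⁻¹ * (n * t) = k * (n * t) * k⁻¹ := by group
    rw [h2, extendByZero_mem M η (hMn.conj_mem _ hx.2 k)] at h1
    rw [extendByZero_mem M η hx.2] at hne
    apply hne
    rw [← h1]
    exact ((Helper7.isClassFunction_of_isCharacter (Helper7.isCharacter_of_irr hη))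
      ⟨n * t, hx.2⟩ ⟨k, hKM.le hk⟩).symm
  have h4 : k * t * k⁻¹ * t⁻¹ =
      (k * n⁻¹ * k⁻¹) * (k * (n * t) * k⁻¹ * (n * t)⁻¹) * n := by group
  rw [h4]
  exact (H ⊓ K).mul_mem ((H ⊓ K).mul_mem (hNn.conj_mem _ ((H ⊓ K).inv_mem hn) k) hcN) hn

end Cfsg.Agent.Lib.Helper25
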