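import Cfsg.Agent.Lib.Helper25.TwoDeg2
import Cfsg.Agent.Lib.Helper25.ItoMichler

set_option autoImplicit false

namespace Cfsg.Agent.Lib.Helper25

open Cfsg
open scoped ComplexConjugate

universe u

variable {G : Type u} [Group G]

/-- Stabilizers of non-invariant linear characters in a group with character degrees `1, p`. -/
theorem linStab_prime [Finite G] (H : Subgroup G) [hN : H.Normal] (p : ℕ) (hp : p.Prime)
    (hcd : ∀ χ : G → ℂ, IsIrrCharacter G χ → χ 1 = 1 ∨ χ 1 = p)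
    (l : H →* ℂˣ) (hl : linStab H l ≠ ⊤) :
    (linStab H l).index = p ∧
      ∀ a ∈ linStab H l, ∀ b ∈ linStab H l, ∀ h : a * b * a⁻¹ * b⁻¹ ∈ H, l ⟨_, h⟩ = 1 := by
  classical
  cases nonempty_fintype G
  set T := linStab H l with hT
  have hHT : H ≤ T := le_linStab H l
  have hθ : IsIrrCharacter H (fun h => (l h : ℂ)) := Helper7.isIrrCharacter_of_hom l
  have hTmem : ∀ g : G, g ∈ T ↔ ∀ h : H,
      (fun h => (l h : ℂ)) ⟨g * h * g⁻¹, hN.conj_mem h h.2 g⟩ = (fun h => (l h : ℂ)) h :=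
    fun g => mem_inertia H _ g
  obtain ⟨χ, hχ, hcon⟩ := exists_irr_over H hθ
  obtain ⟨ψ, hψ, hind, hinner⟩ := clifford_corr_exists H T hθ hTmem hHT hχ hcon
  obtain ⟨d, hd0, hd⟩ := Helper7.irr_apply_one hψ
  have h1 : χ 1 = ((T.index * d : ℕ) : ℂ) := by
    rw [← hind, indFun_one, hd]
    push_cast
    ring
  have hidx1 : T.index ≠ 1 := fun h => hl (Subgroup.index_eq_one.mp h)
  have h2 : T.index * d = p := by
    rcases hcd χ hχ with h | h
    · exfalso
      rw [h1] at h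
      have h' : T.index * d = 1 := by exact_mod_cast h
      exact hidx1 (Nat.eq_one_of_mul_eq_one_right h')
    · rw [h1] at h
      exact_mod_cast h
  have h3 : T.index = p := ((Nat.dvd_prime hp).1 ⟨d, h2.symm⟩).resolve_left hidx1
  have hd1 : d = 1 := by
    rw [h3] at h2
    exact Nat.eq_of_mul_eq_mul_left hp.pos (by rw [h2, mul_one])
  refine ⟨h3, ?_⟩
  obtain ⟨f, hf⟩ := Helper7.exists_hom_of_linear (isCharacter_of_irr hψ) (by rw [hd, hd1]; simp)
  have hfl : ∀ n : H, f ⟨n, hHT n.2⟩ = l n := by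
    have hirr : IsIrrCharacter H (fun n => ((f.comp (Subgroup.inclusion hHT)) n : ℂ)) :=
      Helper7.isIrrCharacter_of_hom _
    have heq : (fun n : H => ((f.comp (Subgroup.inclusion hHT)) n : ℂ)) = fun h => (l h : ℂ) := by
      by_contra hne
      have h0 := Helper7.classInner_irr_ne hirr hθ hne
      apply hcon
      rw [← hinner, ← h0]
      congr 1
      funext n
      rw [hf]
      rfl
    intro n
    exact Units.ext (congrFun heq n)
  intro a ha b hb h
  rw [← hfl]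
  have : (⟨a * b * a⁻¹ * b⁻¹, hHT h⟩ : T) = ⟨a, ha⟩ * ⟨b, hb⟩ * ⟨a, ha⟩⁻¹ * ⟨b, hb⟩⁻¹ := rfl
  show f ⟨a * b * a⁻¹ * b⁻¹, hHT h⟩ = 1
  rw [this, map_mul, map_mul, map_mul, map_inv, map_inv, mul_comm (f ⟨a, ha⟩), mul_assoc,
    mul_assoc, mul_inv_cancel_left, mul_inv_cancel]

end Cfsg.Agent.Lib.Helper25
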