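import Cfsg.Agent.Lib.Helper25.CdP1
import Cfsg.Agent.Lib.Helper25.LinExt

set_option autoImplicit false

namespace Cfsg.Agent.Lib.Helper25

open Cfsg

universe u

variable {G : Type u} [Group G]

theorem eq_top_of_index_prime [Finite G] {p : ℕ} (hp : p.Prime) {T S : Subgroup G}
    (hT : T.index = p) (hTS : T ≤ S) {x : G} (hxS : x ∈ S) (hxT : x ∉ T) : S = ⊤ := by
  have h1 := Subgroup.relIndex_mul_index hTS
  rw [hT] at h1
  have h2 : T.relIndex S ≠ 1 := fun h => hxT (Subgroup.relIndex_eq_one.1 h hxS)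
  have h3 : T.relIndex S = p := ((Nat.dvd_prime hp).1 ⟨_, h1.symm⟩).resolve_left h2
  rw [h3] at h1
  have h4 : S.index = 1 := Nat.eq_of_mul_eq_mul_left hp.pos (by rw [h1, mul_one])
  exact Subgroup.index_eq_one.1 h4

variable {L : Type*} [CommGroup L] (σ : G →* MulAut L)

/-- The stabilizer of a point. -/
def stb (l : L) : Subgroup G where
  carrier := {g | σ g l = l}
  one_mem' := by simp
  mul_mem' := by
    intro a b ha hb
    show σ (a * b) l = l
    rw [map_mul, MulAut.mul_apply, show σ b l = l from hb, show σ a l = l from ha]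
  inv_mem' := by
    intro a ha
    show σ a⁻¹ l = l
    have h1 : σ a⁻¹ (σ a l) = l := by
      rw [← MulAut.mul_apply, ← map_mul, inv_mul_cancel, map_one, MulAut.one_apply]
    rw [show σ a l = l from ha] at h1
    exact h1

theorem mem_stb (l : L) (g : G) : g ∈ stb σ l ↔ σ g l = l := Iff.rfl

/-- The elements moving `l` by a power of the invariant character `ν`. -/
def orbSub (l ν : L) (hν : ∀ g, σ g ν = ν) :
    Subgroup G where
  carrier := {g | ∃ i : ℤ, σ g l = l * ν ^ i}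
  one_mem' := ⟨0, by simp⟩
  mul_mem' := by
    rintro a b ⟨i, hi⟩ ⟨j, hj⟩
    refine ⟨i + j, ?_⟩
    rw [map_mul, MulAut.mul_apply, hj, map_mul, map_zpow, hν, hi, zpow_add, mul_assoc]
  inv_mem' := by
    rintro a ⟨i, hi⟩
    refine ⟨-i, ?_⟩
    have h1 : σ a⁻¹ (σ a l) = l := by
      rw [← MulAut.mul_apply, ← map_mul, inv_mul_cancel, map_one, MulAut.one_apply]
    rw [hi, map_mul, map_zpow, hν] at h1
    rw [zpow_neg, eq_mul_inv_iff_mul_eq]
    exact h1

theorem pair_lemma [Finite G] (p : ℕ) (hp : p.Prime)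
    (hcomm : ∀ a b : G, Commute (σ a) (σ b))
    (hidx : ∀ l : L, stb σ l ≠ ⊤ → (stb σ l).index = p)
    (l m : L) (hl : stb σ l ≠ ⊤) (hm : stb σ m ≠ ⊤)
    (hne : stb σ l ≠ stb σ m) :
    ∃ z : G, ∃ ν : L, ν ≠ 1 ∧ ν ^ p = 1 ∧ (∀ g, σ g ν = ν) ∧
      σ z m = m * ν⁻¹ ∧
      (∀ g, ∃ i : ℤ, σ g l = l * ν ^ i) ∧ (∀ g, ∃ i : ℤ, σ g m = m * ν ^ i) := by
  have hI1 := hidx l hl
  have hI2 := hidx m hm
  have h12 : ¬ stb σ l ≤ stb σ m := by
    intro h
    apply hne
    apply le_antisymm h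
    intro x hx
    by_contra hx'
    exact hm (eq_top_of_index_prime hp hI1 h hx hx')
  have h21 : ¬ stb σ m ≤ stb σ l := by
    intro h
    apply hne
    refine le_antisymm ?_ h
    intro x hx
    by_contra hx'
    exact hl (eq_top_of_index_prime hp hI2 h hx hx')
  obtain ⟨z₁, hz₁, hz₁'⟩ := SetLike.not_le_iff_exists.1 h12
  obtain ⟨z₂, hz₂, hz₂'⟩ := SetLike.not_le_iff_exists.1 h21
  have h3 : stb σ (l * m) ≠ ⊤ := by
    intro h
    have h4 : z₁ ∈ stb σ (l * m) := h ▸ Subgroup.mem_top z₁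
    rw [mem_stb, map_mul, (mem_stb σ l z₁).1 hz₁] at h4
    exact hz₁' ((mem_stb σ m z₁).2 (mul_left_cancel h4))
  have hI3 := hidx _ h3
  have h31 : ¬ stb σ (l * m) ≤ stb σ l := by
    intro h
    apply h12
    intro t ht
    have ht3 : t ∈ stb σ (l * m) := by
      by_contra hx'
      exact hl (eq_top_of_index_prime hp hI3 h ht hx')
    rw [mem_stb, map_mul, (mem_stb σ l t).1 ht] at ht3
    exact (mem_stb σ m t).2 (mul_left_cancel ht3)
  obtain ⟨z, hz, hz'⟩ := SetLike.not_le_iff_exists.1 h31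
  set ν : L := σ z l * l⁻¹ with hν
  have hzl : σ z l = l * ν := by rw [hν, mul_comm, inv_mul_cancel_right]
  have hν1 : ν ≠ 1 := by
    intro h
    rw [h, mul_one] at hzl
    exact hz' ((mem_stb σ l z).2 hzl)
  have hzm : σ z m = m * ν⁻¹ := by
    rw [mem_stb, map_mul, hzl] at hz
    rw [eq_mul_inv_iff_mul_eq]
    apply mul_left_cancel (a := l)
    rw [← hz]
    rw [mul_assoc, mul_comm ν]
  have hν' : ν = (σ z m * m⁻¹)⁻¹ := by
    rw [hzm, mul_comm m, mul_inv_cancel_right, inv_inv]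
  have hinv : ∀ g, σ g ν = ν := by
    have hle : stb σ l ≤ stb σ ν := by
      intro t ht
      rw [mem_stb] at ht ⊢
      rw [hν, map_mul, map_inv, ht, ← MulAut.mul_apply, (hcomm t z).eq, MulAut.mul_apply, ht]
    have hz₂ν : z₂ ∈ stb σ ν := by
      rw [mem_stb] at hz₂ ⊢
      rw [hν', map_inv, map_mul, map_inv, hz₂, ← MulAut.mul_apply, (hcomm z₂ z).eq,
        MulAut.mul_apply, hz₂]
    have htop := eq_top_of_index_prime hp hI1 hle hz₂ν hz₂'
    intro g
    exact (mem_stb σ ν g).1 (htop ▸ Subgroup.mem_top g)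
  have hSl : orbSub σ l ν hinv = ⊤ := by
    refine eq_top_of_index_prime hp hI1 ?_ (x := z) ⟨1, by rw [zpow_one]; exact hzl⟩ hz'
    intro t ht
    exact ⟨0, by rw [zpow_zero, mul_one]; exact (mem_stb σ l t).1 ht⟩
  have hzm' : z ∉ stb σ m := by
    intro h
    rw [mem_stb, hzm] at h
    have : ν⁻¹ = 1 := mul_left_cancel (a := m) (by rw [h, mul_one])
    exact hν1 (inv_eq_one.1 this)
  have hSm : orbSub σ m ν hinv = ⊤ := by
    refine eq_top_of_index_prime hp hI2 ?_ (x := z) ⟨-1, by rw [zpow_neg_one]; exact hzm⟩ hzm'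
    intro t ht
    exact ⟨0, by rw [zpow_zero, mul_one]; exact (mem_stb σ m t).1 ht⟩
  have hnorm : (stb σ l).Normal := by
    constructor
    intro t ht g
    rw [mem_stb] at ht ⊢
    rw [map_mul, map_mul, (hcomm g t).eq, mul_assoc, ← map_mul, mul_inv_cancel, map_one, mul_one]
    exact ht
  have hpow : ∀ n : ℕ, σ (z ^ n) l = l * ν ^ n := by
    intro n
    induction n with
    | zero => simp
    | succ k ih =>
      rw [pow_succ, map_mul, MulAut.mul_apply, hzl, map_mul, ih, pow_succ, hinv, mul_assoc]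
  have hνp : ν ^ p = 1 := by
    have h1 := pow_index_mem_of_normal (stb σ l) z
    rw [hI1, mem_stb, hpow] at h1
    exact mul_left_cancel (a := l) (by rw [h1, mul_one])
  refine ⟨z, ν, hν1, hνp, hinv, hzm, ?_, ?_⟩
  · intro g
    exact (hSl ▸ Subgroup.mem_top g : g ∈ orbSub σ l ν hinv)
  · intro g
    exact (hSm ▸ Subgroup.mem_top g : g ∈ orbSub σ m ν hinv)

theorem exists_nu_aux [Finite G] (A : Subgroup G) (p : ℕ) (hp : p.Prime)
    (hcomm : ∀ a b : G, Commute (σ a) (σ b))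
    (hidx : ∀ l : L, stb σ l ≠ ⊤ → (stb σ l).index = p)
    (hker : σ.ker ≤ A) (hAle : ∀ l, A ≤ stb σ l) (hAidx : A.index ≠ p) (hAtop : A ≠ ⊤) :
    ∃ ν : L, ν ≠ 1 ∧ ν ^ p = 1 ∧ (∀ g, σ g ν = ν) ∧
      ∀ (l : L) (g : G), ∃ i : ℤ, σ g l = l * ν ^ i := by
  obtain ⟨l, hl⟩ : ∃ l, stb σ l ≠ ⊤ := by
    by_contra hcon
    push Not at hcon
    apply hAtop
    rw [eq_top_iff]
    intro g _
    apply hker
    rw [MonoidHom.mem_ker]
    ext1 l
    exact (mem_stb σ l g).1 (hcon l ▸ Subgroup.mem_top g)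
  obtain ⟨m, hm, hne⟩ : ∃ m, stb σ m ≠ ⊤ ∧ stb σ l ≠ stb σ m := by
    by_contra hcon
    push Not at hcon
    apply hAidx
    have h1 : stb σ l ≤ A := by
      intro t ht
      apply hker
      rw [MonoidHom.mem_ker]
      ext1 m
      by_cases hm : stb σ m = ⊤
      · exact (mem_stb σ m t).1 (hm ▸ Subgroup.mem_top t)
      · exact (mem_stb σ m t).1 (hcon m hm ▸ ht)
    rw [← le_antisymm h1 (hAle l)]
    exact hidx l hl
  obtain ⟨z, ν, hν1, hνp, hinv, -, hL, hM⟩ := pair_lemma σ p hp hcomm hidx l m hl hm hne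
  refine ⟨ν, hν1, hνp, hinv, ?_⟩
  intro l' g
  by_cases hl' : stb σ l' = ⊤
  · exact ⟨0, by rw [zpow_zero, mul_one]
                 exact (mem_stb σ l' g).1 (hl' ▸ Subgroup.mem_top g)⟩
  · have key : ∀ m' : L, stb σ m' ≠ ⊤ → (∀ g, ∃ i : ℤ, σ g m' = m' * ν ^ i) →
        stb σ l' ≠ stb σ m' → ∃ i : ℤ, σ g l' = l' * ν ^ i := by
      intro m' hm' hM' hne'
      obtain ⟨z', ν', -, -, -, hz', hL', -⟩ := pair_lemma σ p hp hcomm hidx l' m' hl' hm' hne'
      obtain ⟨j, hj⟩ := hM' z'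
      rw [hz'] at hj
      have h1 : ν' = ν ^ (-j) := by
        rw [zpow_neg, ← mul_left_cancel hj, inv_inv]
      obtain ⟨i, hi⟩ := hL' g
      exact ⟨-j * i, by rw [hi, h1, zpow_mul]⟩
    by_cases h : stb σ l' = stb σ l
    · exact key m hm hM (h ▸ hne)
    · exact key l hl hL h

theorem exists_nu [Finite G] (A : Subgroup G) [hA : A.Normal] (p : ℕ) (hp : p.Prime)
    (hcomm : ∀ a b : G, Commute (cjHom A a) (cjHom A b))
    (hidx : ∀ l : A →* ℂˣ, linStab A l ≠ ⊤ → (linStab A l).index = p)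
    (hker : (cjHom A).ker ≤ A) (hAidx : A.index ≠ p) (hAtop : A ≠ ⊤) :
    ∃ ν : A →* ℂˣ, ν ≠ 1 ∧ ν ^ p = 1 ∧ (∀ g, cjHom A g ν = ν) ∧
      ∀ (l : A →* ℂˣ) (g : G), ∃ i : ℤ, cjHom A g l = l * ν ^ i := by
  have hst : ∀ l : A →* ℂˣ, stb (cjHom A) l = linStab A l := by
    intro l
    ext g
    rw [mem_stb, mem_linStab_iff]
  have h1 := exists_nu_aux (L := A →* ℂˣ) (cjHom A) A p hp
  have h2 := h1 hcomm
  have h3 := h2 (fun l hl => by rw [hst] at hl ⊢; exact hidx l hl) hker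
    (fun l => by rw [hst]; exact le_linStab A l) hAidx hAtop
  exact h3

end Cfsg.Agent.Lib.Helper25
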