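import Cfsg.Agent.Lib.Helper25.CdP2
import Cfsg.Agent.Lib.Helper25.TwoDeg4

set_option autoImplicit false

namespace Cfsg.Agent.Lib.Helper25

open Cfsg

universe u

variable {G : Type u} [Group G]

/-- The data produced by `exists_nu`. -/
structure CdPData (p : ℕ) (A : Subgroup G) [A.Normal] (ν : A →* ℂˣ) (a₀ : A) : Prop where
  prime : p.Prime
  ab : ∀ a b : A, a * b = b * a
  der : ∀ a b : G, a * b * a⁻¹ * b⁻¹ ∈ A
  self : ∀ x : G, (∀ a ∈ A, x * a = a * x) → x ∈ A
  nu_pow : ∀ a, ν a ^ p = 1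
  nu_inv : ∀ (g : G) (a : A), ν (MulAut.conjNormal g a) = ν a
  nu_all : ∀ (l : A →* ℂˣ) (g : G), ∃ i : ℤ, ∀ a : A, l (MulAut.conjNormal g a) = l a * ν a ^ i
  nu_a : ν a₀ ≠ 1

namespace CdPData

variable {p : ℕ} {A : Subgroup G} [hA : A.Normal] {ν : A →* ℂˣ} {a₀ : A}

theorem conj_eq [Finite G] (d : CdPData p A ν a₀) {a : A} (ha : ν a = 1) (g : G) :
    MulAut.conjNormal g a = a := by
  apply eq_of_forall_hom_eq d.ab
  intro l
  obtain ⟨i, hi⟩ := d.nu_all l g
  rw [hi, ha, one_zpow, mul_one]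

theorem mem_center [Finite G] (d : CdPData p A ν a₀) {a : A} (ha : ν a = 1) :
    (a : G) ∈ Subgroup.center G := by
  rw [Subgroup.mem_center_iff]
  intro g
  have h := congrArg Subtype.val (d.conj_eq ha g)
  have h' : g * (a : G) * g⁻¹ = a := h
  calc g * (a : G) = g * a * g⁻¹ * g := by group
    _ = a * g := by rw [h']

theorem zpow_eq_one (d : CdPData p A ν a₀) {i : ℤ} (hi : ν a₀ ^ i = 1) (a : A) : ν a ^ i = 1 := by
  have : Fact p.Prime := ⟨d.prime⟩
  have ho : orderOf (ν a₀) = p := orderOf_eq_prime (d.nu_pow a₀) d.nu_a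
  obtain ⟨j, rfl⟩ : (p : ℤ) ∣ i := by
    rw [← ho]
    exact orderOf_dvd_iff_zpow_eq_one.2 hi
  rw [zpow_mul, zpow_natCast, d.nu_pow, one_zpow]

/-- `g ↦ [g, a₀]`. -/
def kapF (a₀ : A) (g : G) : A := MulAut.conjNormal g a₀ * a₀⁻¹

theorem nu_kapF (d : CdPData p A ν a₀) (g : G) : ν (kapF a₀ g) = 1 := by
  rw [kapF, map_mul, map_inv, d.nu_inv, mul_inv_cancel]

theorem kapF_mul [Finite G] (d : CdPData p A ν a₀) (g h : G) :
    kapF a₀ (g * h) = kapF a₀ g * kapF a₀ h := by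
  have h1 : MulAut.conjNormal h a₀ = kapF a₀ h * a₀ := by rw [kapF, inv_mul_cancel_right]
  have h2 : (MulAut.conjNormal (g * h) : MulAut A) a₀ = kapF a₀ h * MulAut.conjNormal g a₀ := by
    rw [map_mul, MulAut.mul_apply, h1, map_mul, d.conj_eq (d.nu_kapF h)]
  rw [kapF, h2, mul_assoc, d.ab (kapF a₀ g)]
  rfl

/-- `g ↦ [g, a₀]` as a homomorphism. -/
noncomputable def kap [Finite G] (d : CdPData p A ν a₀) : G →* A :=
  MonoidHom.mk' (kapF a₀) d.kapF_mul

theorem kap_apply [Finite G] (d : CdPData p A ν a₀) (g : G) :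
    d.kap g = MulAut.conjNormal g a₀ * a₀⁻¹ := rfl

theorem nu_kap [Finite G] (d : CdPData p A ν a₀) (g : G) : ν (d.kap g) = 1 := d.nu_kapF g

theorem hom_kap [Finite G] (d : CdPData p A ν a₀) (l : A →* ℂˣ) (g : G) {i : ℤ}
    (hi : ∀ a : A, l (MulAut.conjNormal g a) = l a * ν a ^ i) : l (d.kap g) = ν a₀ ^ i := by
  rw [kap_apply, map_mul, map_inv, hi, mul_comm (l a₀), mul_inv_cancel_right]

theorem mem_linStab_iff_kap [Finite G] (d : CdPData p A ν a₀) (l : A →* ℂˣ) (g : G) :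
    g ∈ linStab A l ↔ l (d.kap g) = 1 := by
  rw [mem_linStab]
  obtain ⟨i, hi⟩ := d.nu_all l g
  rw [d.hom_kap l g hi]
  constructor
  · intro h
    have := h a₀
    rw [hi] at this
    exact mul_left_cancel (a := l a₀) (by rw [this, mul_one])
  · intro h a
    rw [hi, d.zpow_eq_one h, mul_one]

theorem ker_kap [Finite G] (d : CdPData p A ν a₀) : d.kap.ker = A := by
  ext g
  rw [MonoidHom.mem_ker]
  constructor
  · intro h
    apply d.self
    intro a ha
    apply comm_of_mem_ker_cjHom A (fun a ha b hb => congrArg Subtype.val (d.ab ⟨a, ha⟩ ⟨b, hb⟩)) _ a ha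
    rw [MonoidHom.mem_ker]
    ext1 l
    apply (mem_linStab_iff A l g).1
    rw [d.mem_linStab_iff_kap, h, map_one]
  · intro hg
    rw [kap_apply, mul_inv_eq_one]
    apply Subtype.ext
    show g * (a₀ : G) * g⁻¹ = a₀
    have := congrArg Subtype.val (d.ab ⟨g, hg⟩ a₀)
    have h' : g * (a₀ : G) = a₀ * g := this
    rw [h', mul_inv_cancel_right]

theorem kap_pow [Finite G] (d : CdPData p A ν a₀) (g : G) : d.kap g ^ p = 1 := by
  apply eq_of_forall_hom_eq d.ab
  intro l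
  obtain ⟨i, hi⟩ := d.nu_all l g
  rw [map_pow, d.hom_kap l g hi, map_one, ← zpow_natCast, ← zpow_mul, mul_comm, zpow_mul,
    zpow_natCast, d.nu_pow, one_zpow]

theorem nu_of_mem_center [Finite G] (d : CdPData p A ν a₀) (hAtop : A ≠ ⊤) {z : A}
    (hz : (z : G) ∈ Subgroup.center G) : ν z = 1 := by
  obtain ⟨g, hg⟩ : ∃ g : G, g ∉ A := by
    by_contra hcon
    push Not at hcon
    exact hAtop (eq_top_iff.2 fun g _ => hcon g)
  have h1 : d.kap g ≠ 1 := by
    intro h
    apply hg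
    rw [← d.ker_kap, MonoidHom.mem_ker]
    exact h
  obtain ⟨l, hl⟩ : ∃ l : A →* ℂˣ, l (d.kap g) ≠ 1 := by
    by_contra hcon
    push Not at hcon
    exact h1 (eq_of_forall_hom_eq d.ab _ _ (fun l => by rw [hcon l, map_one]))
  obtain ⟨i, hi⟩ := d.nu_all l g
  rw [d.hom_kap l g hi] at hl
  by_contra hne
  have : Fact p.Prime := ⟨d.prime⟩
  have ho : orderOf (ν z) = p := orderOf_eq_prime (d.nu_pow z) hne
  have hzc : MulAut.conjNormal g z = z := by
    apply Subtype.ext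
    show g * (z : G) * g⁻¹ = z
    rw [Subgroup.mem_center_iff.1 hz g, mul_inv_cancel_right]
  have h2 := hi z
  rw [hzc] at h2
  have h3 : ν z ^ i = 1 := mul_left_cancel (a := l z) (by rw [← h2, mul_one])
  obtain ⟨j, rfl⟩ : (p : ℤ) ∣ i := by
    rw [← ho]
    exact orderOf_dvd_iff_zpow_eq_one.2 h3
  apply hl
  rw [zpow_mul, zpow_natCast, d.nu_pow, one_zpow]

theorem index_ker_nu (d : CdPData p A ν a₀) : ν.ker.index = p := by
  have : NeZero p := ⟨d.prime.pos.ne'⟩
  rw [Subgroup.index_ker]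
  have hle : ν.range ≤ rootsOfUnity p ℂ := by
    rintro _ ⟨a, rfl⟩
    rw [mem_rootsOfUnity]
    exact d.nu_pow a
  have h1 := Subgroup.card_dvd_of_le hle
  rw [Complex.card_rootsOfUnity] at h1
  refine ((Nat.dvd_prime d.prime).1 h1).resolve_left ?_
  intro h
  rw [Subgroup.card_eq_one] at h
  have : ν a₀ ∈ ν.range := ⟨a₀, rfl⟩
  rw [h, Subgroup.mem_bot] at this
  exact d.nu_a this

theorem center_le [Finite G] (d : CdPData p A ν a₀) : Subgroup.center G ≤ A := by
  intro z hz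
  apply d.self
  intro a _
  exact (Subgroup.mem_center_iff.1 hz a).symm

theorem index_center [Finite G] (d : CdPData p A ν a₀) (hAtop : A ≠ ⊤) :
    (Subgroup.center G).index = p * A.index := by
  have hmap : ν.ker.map A.subtype = Subgroup.center G := by
    ext z
    constructor
    · rintro ⟨a, ha, rfl⟩
      exact d.mem_center (MonoidHom.mem_ker.1 ha)
    · intro hz
      exact ⟨⟨z, d.center_le hz⟩, MonoidHom.mem_ker.2 (d.nu_of_mem_center hAtop hz), rfl⟩
  have h1 : Nat.card (Subgroup.center G) = Nat.card ν.ker := by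
    rw [← hmap]
    exact Subgroup.card_map_of_injective A.subtype_injective
  have h2 := ν.ker.card_mul_index
  rw [d.index_ker_nu, ← h1] at h2
  have h3 := (Subgroup.center G).card_mul_index
  have h4 := A.card_mul_index
  rw [← h2, ← h3] at h4
  have hpos : 0 < Nat.card (Subgroup.center G) := Nat.card_pos
  apply Nat.eq_of_mul_eq_mul_left hpos
  rw [← h4]
  ring

end CdPData

end Cfsg.Agent.Lib.Helper25
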