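import Cfsg.Agent.Lib.Helper25.CdP3
import Cfsg.Agent.Lib.Helper25.Extra2
import Cfsg.Agent.Lib.Helper25.Dade2

set_option autoImplicit false

namespace Cfsg.Agent.Lib.Helper25

open Cfsg

universe u

theorem exists_hom_sep {A : Type*} [Group A] [Finite A] (hA : ∀ a b : A, a * b = b * a)
    (B : Subgroup A) {c : A} (hc : c ∉ B) :
    ∃ l : A →* ℂˣ, (∀ b ∈ B, l b = 1) ∧ l c ≠ 1 := by
  let _ : CommGroup A := { ‹Group A› with mul_comm := hA }
  have hne : (QuotientGroup.mk' B c) ≠ 1 := by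
    intro h
    apply hc
    rw [← QuotientGroup.ker_mk' B, MonoidHom.mem_ker]
    exact h
  obtain ⟨φ, hφ⟩ := CommGroup.exists_apply_ne_one_of_hasEnoughRootsOfUnity (A ⧸ B) ℂ hne
  refine ⟨φ.comp (QuotientGroup.mk' B), ?_, hφ⟩
  intro b hb
  have : QuotientGroup.mk' B b = 1 := by
    rw [← MonoidHom.mem_ker, QuotientGroup.ker_mk']
    exact hb
  rw [MonoidHom.comp_apply, this, map_one]

theorem card_sup_zpowers_le {A : Type*} [Group A] [Finite A] (hA : ∀ a b : A, a * b = b * a)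
    {p : ℕ} (hp : 0 < p) {u v : A} (hu : u ^ p = 1) (hv : v ^ p = 1) :
    Nat.card (Subgroup.zpowers u ⊔ Subgroup.zpowers v : Subgroup A) ≤ p * p := by
  have hn : (Subgroup.zpowers v).Normal := ⟨fun n hn g => by
    rw [hA g n, mul_inv_cancel_right]; exact hn⟩
  have h1 := index_sup_mul_card (Subgroup.zpowers u) (Subgroup.zpowers v)
  have h2 := (Subgroup.zpowers u ⊔ Subgroup.zpowers v).card_mul_index
  rw [← h2] at h1
  have hidx : 0 < (Subgroup.zpowers u ⊔ Subgroup.zpowers v).index :=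
    Nat.pos_of_ne_zero Subgroup.index_ne_zero_of_finite
  have h3 : Nat.card (Subgroup.zpowers v) * Nat.card (Subgroup.zpowers u) =
      Nat.card (Subgroup.zpowers u ⊔ Subgroup.zpowers v : Subgroup A) *
        Nat.card (Subgroup.zpowers u ⊓ Subgroup.zpowers v : Subgroup A) := by
    apply Nat.eq_of_mul_eq_mul_left hidx
    calc _ = (Subgroup.zpowers u ⊔ Subgroup.zpowers v).index * Nat.card (Subgroup.zpowers v) *
          Nat.card (Subgroup.zpowers u) := by ring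
      _ = _ := h1
      _ = _ := by ring
  have h4 : 0 < Nat.card (Subgroup.zpowers u ⊓ Subgroup.zpowers v : Subgroup A) := Nat.card_pos
  have h5 : Nat.card (Subgroup.zpowers u) ≤ p := by
    rw [Nat.card_zpowers]
    exact Nat.le_of_dvd hp (orderOf_dvd_of_pow_eq_one hu)
  have h6 : Nat.card (Subgroup.zpowers v) ≤ p := by
    rw [Nat.card_zpowers]
    exact Nat.le_of_dvd hp (orderOf_dvd_of_pow_eq_one hv)
  calc Nat.card (Subgroup.zpowers u ⊔ Subgroup.zpowers v : Subgroup A)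
      ≤ Nat.card (Subgroup.zpowers u ⊔ Subgroup.zpowers v : Subgroup A) *
        Nat.card (Subgroup.zpowers u ⊓ Subgroup.zpowers v : Subgroup A) :=
        Nat.le_mul_of_pos_right _ h4
    _ = Nat.card (Subgroup.zpowers v) * Nat.card (Subgroup.zpowers u) := h3.symm
    _ ≤ p * p := Nat.mul_le_mul h6 h5

variable {G : Type u} [Group G]

theorem normal_of_comm_mem (B : Subgroup G) (h : ∀ a b : G, a * b * a⁻¹ * b⁻¹ ∈ B) : B.Normal :=
  ⟨fun b hb g => by
    have : g * b * g⁻¹ = (g * b * g⁻¹ * b⁻¹) * b := by group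
    rw [this]
    exact B.mul_mem (h g b) hb⟩

theorem comm_sup_zpowers (B : Subgroup G) [hB : B.Normal] (hab : ∀ a ∈ B, ∀ b ∈ B, a * b = b * a)
    (y : G) (hy : ∀ b ∈ B, y * b = b * y) :
    ∀ a ∈ B ⊔ Subgroup.zpowers y, ∀ b ∈ B ⊔ Subgroup.zpowers y, a * b = b * a := by
  have hyz : ∀ k ∈ Subgroup.zpowers y, ∀ b ∈ B, Commute k b := by
    intro k hk b hb
    obtain ⟨i, rfl⟩ := Subgroup.mem_zpowers_iff.1 hk
    exact Commute.zpow_left (hy b hb) i
  have hzz : ∀ k ∈ Subgroup.zpowers y, ∀ k' ∈ Subgroup.zpowers y, Commute k k' := by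
    intro k hk k' hk'
    obtain ⟨i, rfl⟩ := Subgroup.mem_zpowers_iff.1 hk
    obtain ⟨j, rfl⟩ := Subgroup.mem_zpowers_iff.1 hk'
    exact (Commute.refl y).zpow_zpow i j
  intro a ha b hb
  rw [← SetLike.mem_coe, Subgroup.normal_mul] at ha hb
  obtain ⟨a₁, ha₁, a₂, ha₂, rfl⟩ := Set.mem_mul.1 ha
  obtain ⟨b₁, hb₁, b₂, hb₂, rfl⟩ := Set.mem_mul.1 hb
  have c1 : Commute a₁ b₁ := hab a₁ ha₁ b₁ hb₁
  have c2 : Commute a₁ b₂ := (hyz b₂ hb₂ a₁ ha₁).symm
  have c3 : Commute a₂ b₁ := hyz a₂ ha₂ b₁ hb₁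
  have c4 : Commute a₂ b₂ := hzz a₂ ha₂ b₂ hb₂
  exact ((c1.mul_right c2).mul_left (c3.mul_right c4)).eq

theorem central_mul' {χ : G → ℂ} (hχ : IsIrrCharacter G χ) {c : G}
    (hc : c ∈ Subgroup.center G) (y : G) : χ (c * y) * χ 1 = χ c * χ y := by
  obtain ⟨n, ρ, hρ, rfl⟩ := hχ
  obtain ⟨ω, hω⟩ := Helper2.schur ρ (ρ c) (by
    intro g
    have h := Subgroup.mem_center_iff.1 hc g
    show ρ c * ρ g = ρ g * ρ c
    rw [← map_mul, ← map_mul, h])
  have e1 : ∀ y, ρ.character (c * y) = ω * ρ.character y := by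
    intro y
    simp only [Representation.character, map_mul, hω]
    rw [show (ω • (LinearMap.id : (Fin n → ℂ) →ₗ[ℂ] (Fin n → ℂ))) * ρ y = ω • ρ y from by
      ext v; simp]
    rw [map_smul, smul_eq_mul]
  have e2 := e1 1
  rw [mul_one] at e2
  rw [e1, e2]
  ring

namespace CdPData

variable {p : ℕ} {A : Subgroup G} [hA : A.Normal] {ν : A →* ℂˣ} {a₀ : A}

theorem card_range_kap [Finite G] (d : CdPData p A ν a₀) : Nat.card d.kap.range = A.index := by
  rw [← Subgroup.index_ker, d.ker_kap]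

theorem comm_mem_range [Finite G] (d : CdPData p A ν a₀)
    (hcd : ∀ χ : G → ℂ, IsIrrCharacter G χ → χ 1 = 1 ∨ χ 1 = p) (hbig : p * p < A.index)
    (x y : G) : (⟨x * y * x⁻¹ * y⁻¹, d.der x y⟩ : A) ∈ d.kap.range := by
  by_contra hc
  obtain ⟨l₁, hl₁, hl₁c⟩ := exists_hom_sep d.ab d.kap.range hc
  have hF := card_sup_zpowers_le d.ab d.prime.pos (d.kap_pow x) (d.kap_pow y)
  have hnle : ¬ d.kap.range ≤ Subgroup.zpowers (d.kap x) ⊔ Subgroup.zpowers (d.kap y) := by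
    intro hle
    have := Subgroup.card_le_of_le hle
    rw [d.card_range_kap] at this
    omega
  obtain ⟨e, ⟨g₀, rfl⟩, he⟩ := SetLike.not_le_iff_exists.1 hnle
  obtain ⟨l₂, hl₂, hl₂e⟩ := exists_hom_sep d.ab _ he
  have P : ∀ l : A →* ℂˣ, l (d.kap x) = 1 → l (d.kap y) = 1 → l (d.kap g₀) ≠ 1 →
      l ⟨x * y * x⁻¹ * y⁻¹, d.der x y⟩ = 1 := by
    intro l hx hy hg
    have hne : linStab A l ≠ ⊤ := by
      intro h
      apply hg
      rw [← d.mem_linStab_iff_kap, h]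
      trivial
    exact (linStab_prime A p d.prime hcd l hne).2 x ((d.mem_linStab_iff_kap l x).2 hx) y
      ((d.mem_linStab_iff_kap l y).2 hy) (d.der x y)
  have hx2 : l₂ (d.kap x) = 1 := hl₂ _ (le_sup_left (a := Subgroup.zpowers (d.kap x))
    (Subgroup.mem_zpowers _))
  have hy2 : l₂ (d.kap y) = 1 := hl₂ _ (le_sup_right (b := Subgroup.zpowers (d.kap y))
    (Subgroup.mem_zpowers _))
  have h2 := P l₂ hx2 hy2 hl₂e
  have h3 := P (l₁ * l₂)
    (by rw [MonoidHom.mul_apply, hx2, hl₁ _ ⟨x, rfl⟩, mul_one])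
    (by rw [MonoidHom.mul_apply, hy2, hl₁ _ ⟨y, rfl⟩, mul_one])
    (by rw [MonoidHom.mul_apply, hl₁ _ ⟨g₀, rfl⟩, one_mul]; exact hl₂e)
  rw [MonoidHom.mul_apply, h2, mul_one] at h3
  exact hl₁c h3

theorem card_eq [Finite G] (d : CdPData p A ν a₀) (hAtop : A ≠ ⊤) :
    Nat.card A = p * Nat.card (Subgroup.center G) := by
  have h1 := d.index_center hAtop
  have h3 := (Subgroup.center G).card_mul_index
  have h4 := A.card_mul_index
  rw [h1, ← h4] at h3
  have hpos : 0 < A.index := Nat.pos_of_ne_zero Subgroup.index_ne_zero_of_finite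
  apply Nat.eq_of_mul_eq_mul_right hpos
  rw [← h3]
  ring

theorem card_centralizer_le [Finite G] (d : CdPData p A ν a₀)
    (hcomZ : ∀ a b : G, a * b * a⁻¹ * b⁻¹ ∈ Subgroup.center G)
    (hmax : ∀ B : Subgroup G, (∀ a ∈ B, ∀ b ∈ B, a * b = b * a) →
      (∀ a b : G, a * b * a⁻¹ * b⁻¹ ∈ B) → Nat.card B ≤ Nat.card A)
    (hpG : ∃ n, (Subgroup.center G).index = p ^ n) (hAtop : A ≠ ⊤) {x : G}
    (hx : x ∉ Subgroup.center G) :
    Nat.card (Subgroup.centralizer ({x} : Set G)) ≤ Nat.card A := by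
  by_contra hcon
  push Not at hcon
  set Z := Subgroup.center G with hZ
  set B₁ := Z ⊔ Subgroup.zpowers x with hB₁
  have hab₁ : ∀ a ∈ B₁, ∀ b ∈ B₁, a * b = b * a :=
    comm_sup_zpowers Z (fun a ha b _ => (Subgroup.mem_center_iff.1 ha b).symm) x
      (fun b hb => Subgroup.mem_center_iff.1 hb x)
  have hcom₁ : ∀ a b : G, a * b * a⁻¹ * b⁻¹ ∈ B₁ := fun a b => le_sup_left (a := Z) (hcomZ a b)
  have hxB : x ∈ B₁ := le_sup_right (b := Subgroup.zpowers x) (Subgroup.mem_zpowers x)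
  have hn₁ : B₁.Normal := normal_of_comm_mem B₁ hcom₁
  have hc1 : Nat.card A ≤ Nat.card B₁ := by
    rw [d.card_eq hAtop, ← card_mul_relIndex_of_le (le_sup_left : Z ≤ B₁), mul_comm]
    apply Nat.mul_le_mul_left
    obtain ⟨n, hn⟩ := hpG
    have h1 : Z.relIndex B₁ ∣ p ^ n := hn ▸ Subgroup.relIndex_dvd_index_of_le le_sup_left
    obtain ⟨j, -, hj⟩ := (Nat.dvd_prime_pow d.prime).1 h1
    rcases Nat.eq_zero_or_pos j with rfl | hj0
    · exfalso
      rw [pow_zero] at hj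
      exact hx (Subgroup.relIndex_eq_one.1 hj hxB)
    · rw [hj]
      exact Nat.le_of_dvd (pow_pos d.prime.pos j) (dvd_pow_self p hj0.ne')
  have hle : B₁ ≤ Subgroup.centralizer ({x} : Set G) := by
    intro b hb
    rw [Subgroup.mem_centralizer_singleton_iff]
    exact hab₁ b hb x hxB
  have hnle : ¬ Subgroup.centralizer ({x} : Set G) ≤ B₁ := by
    intro h
    have h1 := Subgroup.card_le_of_le h
    have h2 := hmax B₁ hab₁ hcom₁
    omega
  obtain ⟨y, hy, hyB⟩ := SetLike.not_le_iff_exists.1 hnle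
  rw [Subgroup.mem_centralizer_singleton_iff] at hy
  have hyc : ∀ b ∈ B₁, y * b = b * y := by
    have hle2 : B₁ ≤ Subgroup.centralizer ({y} : Set G) := by
      apply sup_le
      · intro z hz
        rw [Subgroup.mem_centralizer_singleton_iff]
        exact (Subgroup.mem_center_iff.1 hz y).symm
      · rw [Subgroup.zpowers_le, Subgroup.mem_centralizer_singleton_iff]
        exact hy.symm
    intro b hb
    exact (Subgroup.mem_centralizer_singleton_iff.1 (hle2 hb)).symm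
  have hab₂ := comm_sup_zpowers B₁ hab₁ y hyc
  have h2 := hmax (B₁ ⊔ Subgroup.zpowers y) hab₂ (fun a b => le_sup_left (a := B₁) (hcom₁ a b))
  have hlt : B₁ < B₁ ⊔ Subgroup.zpowers y := by
    refine lt_of_le_of_ne le_sup_left ?_
    intro h
    apply hyB
    rw [h]
    exact le_sup_right (b := Subgroup.zpowers y) (Subgroup.mem_zpowers y)
  exact hlt.ne (Subgroup.eq_of_le_of_card_ge hlt.le (by omega))

end CdPData

end Cfsg.Agent.Lib.Helper25
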