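import Cfsg.Agent.Lib.Helper25.CdP4

set_option autoImplicit false

namespace Cfsg.Agent.Lib.Helper25

open Cfsg

universe u

variable {G : Type u} [Group G]

namespace CdPData

variable {p : ℕ} {A : Subgroup G} [hA : A.Normal] {ν : A →* ℂˣ} {a₀ : A}

theorem exists_comm_eq [Finite G] (d : CdPData p A ν a₀)
    (hcd : ∀ χ : G → ℂ, IsIrrCharacter G χ → χ 1 = 1 ∨ χ 1 = p) (hbig : p * p < A.index)
    (hcomZ : ∀ a b : G, a * b * a⁻¹ * b⁻¹ ∈ Subgroup.center G)
    (hmax : ∀ B : Subgroup G, (∀ a ∈ B, ∀ b ∈ B, a * b = b * a) →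
      (∀ a b : G, a * b * a⁻¹ * b⁻¹ ∈ B) → Nat.card B ≤ Nat.card A)
    (hpG : ∃ n, (Subgroup.center G).index = p ^ n) (hAtop : A ≠ ⊤) {x : G}
    (hx : x ∉ Subgroup.center G) (a b : G) :
    ∃ g : G, a * b * a⁻¹ * b⁻¹ = g * x * g⁻¹ * x⁻¹ := by
  let γ : G →* A := MonoidHom.mk' (fun g => ⟨g * x * g⁻¹ * x⁻¹, d.der g x⟩) (by
    intro g h
    apply Subtype.ext
    show (g * h) * x * (g * h)⁻¹ * x⁻¹ = (g * x * g⁻¹ * x⁻¹) * (h * x * h⁻¹ * x⁻¹)
    have hc := Subgroup.mem_center_iff.1 (hcomZ h x)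
    calc (g * h) * x * (g * h)⁻¹ * x⁻¹ = g * (h * x * h⁻¹ * x⁻¹) * x * g⁻¹ * x⁻¹ := by group
      _ = (h * x * h⁻¹ * x⁻¹) * g * x * g⁻¹ * x⁻¹ := by rw [hc g]
      _ = (h * x * h⁻¹ * x⁻¹) * (g * x * g⁻¹ * x⁻¹) := by group
      _ = (g * x * g⁻¹ * x⁻¹) * (h * x * h⁻¹ * x⁻¹) := (hc _).symm)
  have hγ : ∀ g, ((γ g : A) : G) = g * x * g⁻¹ * x⁻¹ := fun g => rfl
  have hker : γ.ker = Subgroup.centralizer ({x} : Set G) := by
    ext g
    rw [MonoidHom.mem_ker, Subgroup.mem_centralizer_singleton_iff]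
    constructor
    · intro h
      have h1 : g * x * g⁻¹ * x⁻¹ = 1 := by rw [← hγ, h]; rfl
      calc g * x = (g * x * g⁻¹ * x⁻¹) * (x * g) := by group
        _ = x * g := by rw [h1, one_mul]
    · intro h
      apply Subtype.ext
      rw [hγ, h]
      simp
  have hle : γ.range ≤ d.kap.range := by
    rintro _ ⟨g, rfl⟩
    exact d.comm_mem_range hcd hbig g x
  have hcard : Nat.card d.kap.range ≤ Nat.card γ.range := by
    rw [d.card_range_kap, ← Subgroup.index_ker, hker]
    have h1 := d.card_centralizer_le hcomZ hmax hpG hAtop hx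
    have h2 := (Subgroup.centralizer ({x} : Set G)).card_mul_index
    have h3 := A.card_mul_index
    by_contra hlt
    push Not at hlt
    have hpos : 0 < Nat.card A := Nat.card_pos
    have h4 : Nat.card (Subgroup.centralizer ({x} : Set G)) *
        (Subgroup.centralizer ({x} : Set G)).index < Nat.card A * A.index :=
      lt_of_le_of_lt (Nat.mul_le_mul_right _ h1) (Nat.mul_lt_mul_of_pos_left hlt hpos)
    omega
  have heq := Subgroup.eq_of_le_of_card_ge hle hcard
  have hm := d.comm_mem_range hcd hbig a b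
  rw [← heq] at hm
  obtain ⟨g, hg⟩ := hm
  exact ⟨g, (congrArg Subtype.val hg).symm⟩

theorem false_of_big [Finite G] (d : CdPData p A ν a₀)
    (hcd : ∀ χ : G → ℂ, IsIrrCharacter G χ → χ 1 = 1 ∨ χ 1 = p) (hbig : p * p < A.index)
    (hmax : ∀ B : Subgroup G, (∀ a ∈ B, ∀ b ∈ B, a * b = b * a) →
      (∀ a b : G, a * b * a⁻¹ * b⁻¹ ∈ B) → Nat.card B ≤ Nat.card A)
    (hpG : ∃ n, (Subgroup.center G).index = p ^ n) (hAtop : A ≠ ⊤) {χ : G → ℂ}
    (hχ : IsIrrCharacter G χ) (hχp : χ 1 = p) : False := by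
  classical
  cases nonempty_fintype G
  have hp := d.prime
  have hcomZ : ∀ a b : G, a * b * a⁻¹ * b⁻¹ ∈ Subgroup.center G := by
    intro a b
    obtain ⟨g, hg⟩ := d.comm_mem_range hcd hbig a b
    have := d.mem_center (d.nu_kap g)
    rw [hg] at this
    exact this
  have hnorm1 : ‖χ 1‖ = p := by rw [hχp, Complex.norm_natCast]
  have hsum := sum_norm_sq_eq_card hχ
  have hcf := Helper7.isClassFunction_of_isCharacter (Helper7.isCharacter_of_irr hχ)
  have hvan : ∀ x : G, x ∉ Subgroup.center G → χ x = 0 := by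
    intro x hx
    by_contra hne
    have key : ∀ g : G, χ (g * x * g⁻¹ * x⁻¹) = χ 1 := by
      intro g
      have h1 := central_mul' hχ (hcomZ g x) x
      rw [inv_mul_cancel_right, hcf x g, mul_comm] at h1
      exact (mul_right_cancel₀ hne h1).symm
    have hall : ∀ y : G, ‖χ y‖ = p := by
      intro y
      rw [← hnorm1]
      apply norm_eq_degree_of_comm_mod_ker hχ y
      intro c
      obtain ⟨g, hg⟩ := d.exists_comm_eq hcd hbig hcomZ hmax hpG hAtop hx y c
      rw [hg, key]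
    rw [Finset.sum_congr rfl (fun y _ => by rw [hall y]), Finset.sum_const, Finset.card_univ,
      nsmul_eq_mul, ← Nat.card_eq_fintype_card] at hsum
    have hG : (Nat.card G : ℝ) ≠ 0 := by exact_mod_cast Nat.card_pos.ne'
    have h2 : ((p : ℝ)) ^ 2 = 1 := mul_left_cancel₀ hG (by rw [hsum, mul_one])
    have h3 : p ^ 2 = 1 := by exact_mod_cast h2
    have h4 : p = 1 := by
      rcases Nat.pow_eq_one.1 h3 with h | h
      · exact h
      · omega
    exact hp.one_lt.ne' h4
  have h3 : ∑ g : G, ‖χ g‖ ^ 2 = (Nat.card (Subgroup.center G) : ℝ) * (p : ℝ) ^ 2 := by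
    rw [← Finset.sum_filter_add_sum_filter_not Finset.univ (fun x : G => x ∈ Subgroup.center G)]
    have e1 : ∑ g ∈ Finset.univ.filter (fun x : G => ¬ x ∈ Subgroup.center G), ‖χ g‖ ^ 2 = 0 := by
      apply Finset.sum_eq_zero
      intro g hg
      rw [hvan g (Finset.mem_filter.1 hg).2]
      simp
    rw [e1, add_zero, Finset.sum_congr rfl (g := fun _ => (p : ℝ) ^ 2), Finset.sum_const,
      nsmul_eq_mul, Nat.card_eq_fintype_card, Fintype.card_subtype]
    intro x hx
    have hx' := (Finset.mem_filter.mp hx).2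
    rw [norm_eq_degree_of_comm_mod_ker hχ x, hnorm1]
    intro c
    have := Subgroup.mem_center_iff.1 hx' c
    have e : x * c * x⁻¹ * c⁻¹ = 1 := by rw [← this]; group
    rw [e]
  rw [hsum] at h3
  have h4 : Nat.card G = Nat.card (Subgroup.center G) * p ^ 2 := by exact_mod_cast h3
  have h5 := (Subgroup.center G).card_mul_index
  rw [h4, d.index_center hAtop] at h5
  have hpos : 0 < Nat.card (Subgroup.center G) := Nat.card_pos
  have h6 : p * A.index = p ^ 2 := Nat.eq_of_mul_eq_mul_left hpos h5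
  have h7 : A.index = p := by
    apply Nat.eq_of_mul_eq_mul_left hp.pos
    rw [h6]
    ring
  rw [h7] at hbig
  have : p ≤ p * p := Nat.le_mul_of_pos_left p hp.pos
  omega

end CdPData

end Cfsg.Agent.Lib.Helper25
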