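import Cfsg.Agent.Lib.Helper25.CdP5
import Cfsg.Agent.Lib.Helper25.Ito

set_option autoImplicit false

namespace Cfsg.Agent.Lib.Helper25

open Cfsg

universe u

variable {G : Type u} [Group G]

theorem cdp_nilpotent [Finite G] (p : ℕ) (hp : p.Prime)
    (hcd : ∀ χ : G → ℂ, IsIrrCharacter G χ → χ 1 = 1 ∨ χ 1 = p)
    (hχ : ∃ χ : G → ℂ, IsIrrCharacter G χ ∧ χ 1 = p)
    (hder : ∀ a ∈ commutator G, ∀ b ∈ commutator G, a * b = b * a)
    (hpG : ∃ n, (Subgroup.center G).index = p ^ n) :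
    (∃ A : Subgroup G, A.Normal ∧ (∀ a ∈ A, ∀ b ∈ A, a * b = b * a) ∧ A.index = p) ∨
      (Subgroup.center G).index = p ^ 3 := by
  classical
  cases nonempty_fintype G
  let 𝒜 := {B : Subgroup G // (∀ a ∈ B, ∀ b ∈ B, a * b = b * a) ∧
    ∀ a b : G, a * b * a⁻¹ * b⁻¹ ∈ B}
  have hne : Nonempty 𝒜 := ⟨⟨commutator G, hder, fun a b => by
    rw [commutator_def]
    exact Subgroup.commutator_mem_commutator (Subgroup.mem_top a) (Subgroup.mem_top b)⟩⟩
  obtain ⟨⟨A, hAab, hAder⟩, hAmax⟩ := Finite.exists_max (fun B : 𝒜 => Nat.card B.1)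
  have hmax : ∀ B : Subgroup G, (∀ a ∈ B, ∀ b ∈ B, a * b = b * a) →
      (∀ a b : G, a * b * a⁻¹ * b⁻¹ ∈ B) → Nat.card B ≤ Nat.card A :=
    fun B h1 h2 => hAmax ⟨B, h1, h2⟩
  have hAn : A.Normal := normal_of_comm_mem A hAder
  have hself : ∀ x : G, (∀ a ∈ A, x * a = a * x) → x ∈ A := by
    intro x hx
    have h1 := comm_sup_zpowers A hAab x hx
    have h2 := hmax _ h1 (fun a b => le_sup_left (a := A) (hAder a b))
    have h3 := Subgroup.eq_of_le_of_card_ge (le_sup_left : A ≤ A ⊔ Subgroup.zpowers x) h2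
    rw [h3]
    exact le_sup_right (b := Subgroup.zpowers x) (Subgroup.mem_zpowers x)
  obtain ⟨χ, hχi, hχp⟩ := hχ
  have hAtop : A ≠ ⊤ := by
    intro h
    obtain ⟨d, hd, hdvd⟩ := ito_aux _ G rfl A hAab χ hχi
    rw [h, Subgroup.index_top, Nat.dvd_one] at hdvd
    rw [hχp, hdvd] at hd
    have : p = 1 := by exact_mod_cast hd
    exact hp.one_lt.ne' this
  by_cases hAp : A.index = p
  · exact Or.inl ⟨A, hAn, hAab, hAp⟩
  right
  have hcomm : ∀ a b : G, Commute (cjHom A a) (cjHom A b) := by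
    intro a b
    have h1 := cjHom_of_mem A (hAder a b)
    rw [map_mul, map_mul, map_mul, map_inv, map_inv] at h1
    show cjHom A a * cjHom A b = cjHom A b * cjHom A a
    calc cjHom A a * cjHom A b
        = (cjHom A a * cjHom A b * (cjHom A a)⁻¹ * (cjHom A b)⁻¹) * (cjHom A b * cjHom A a) := by
          group
      _ = cjHom A b * cjHom A a := by rw [h1, one_mul]
  have hidx : ∀ l : A →* ℂˣ, linStab A l ≠ ⊤ → (linStab A l).index = p :=
    fun l hl => (linStab_prime A p hp hcd l hl).1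
  have hker : (cjHom A).ker ≤ A := by
    intro g hg
    apply hself
    intro a ha
    exact comm_of_mem_ker_cjHom A hAab hg a ha
  obtain ⟨ν, hν1, hνp, hνinv, hνall⟩ := exists_nu A p hp hcomm hidx hker hAp hAtop
  obtain ⟨a₀, ha₀⟩ : ∃ a₀ : A, ν a₀ ≠ 1 := by
    by_contra hcon
    push Not at hcon
    apply hν1
    ext1 a
    rw [hcon a, MonoidHom.one_apply]
  have d : CdPData p A ν a₀ :=
    { prime := hp
      ab := fun a b => Subtype.ext (hAab a a.2 b b.2)
      der := hAder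
      self := hself
      nu_pow := fun a => by
        have := DFunLike.congr_fun hνp a
        rwa [MonoidHom.pow_apply, MonoidHom.one_apply] at this
      nu_inv := fun g a => by
        have := DFunLike.congr_fun (hνinv g⁻¹) a
        rwa [cjHom_apply, inv_inv] at this
      nu_all := fun l g => by
        obtain ⟨i, hi⟩ := hνall l g⁻¹
        refine ⟨i, fun a => ?_⟩
        have := DFunLike.congr_fun hi a
        rwa [cjHom_apply, inv_inv, MonoidHom.mul_apply, MonoidHom.zpow_apply] at this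
      nu_a := ha₀ }
  have hZ := d.index_center hAtop
  obtain ⟨n, hn⟩ := hpG
  have h1 : A.index ∣ p ^ n := hn ▸ Subgroup.index_dvd_of_le d.center_le
  obtain ⟨k, -, hk⟩ := (Nat.dvd_prime_pow hp).1 h1
  have hk0 : k ≠ 0 := by
    rintro rfl
    rw [pow_zero] at hk
    exact hAtop (Subgroup.index_eq_one.1 hk)
  have hk1 : k ≠ 1 := by
    rintro rfl
    rw [pow_one] at hk
    exact hAp hk
  by_cases hk2 : k = 2
  · rw [hZ, hk, hk2]
    ring
  · exfalso
    have hk3 : 3 ≤ k := by omega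
    have hbig : p * p < A.index := by
      rw [hk, ← pow_two]
      exact Nat.pow_lt_pow_right hp.one_lt (by omega)
    exact d.false_of_big hcd hbig hmax ⟨n, hn⟩ hAtop hχi hχp

end Cfsg.Agent.Lib.Helper25
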