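import Cfsg.Agent.Lib.Helper25.CopAct9

set_option autoImplicit false

namespace Cfsg.Agent.Lib.Helper25

open scoped ComplexConjugate
open Cfsg

universe u

theorem hasInvAbove_general {Γ : Type u} [Group Γ] [Finite Γ] (G N : Subgroup Γ)
    [hG : G.Normal] [hN : N.Normal] [Fintype N] (hNG : N ≤ G)
    (hcop : G.index.Coprime (N.relIndex G)) (hs : SolvHyp G N) {θ : N → ℂ}
    (hθ : IsIrrCharacter N θ)
    (hinv : ∀ (x : Γ) (n : N), θ ⟨x * n * x⁻¹, hN.conj_mem n n.2 x⟩ = θ n) :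
    HasInvAbove G N hNG θ := by
  classical
  obtain ⟨E, _, _, π, σ, ϑ', d⟩ := Helper26.exists_cext N hθ hinv
  have hσn : σ.range.Normal := d.normal
  have hϑc := Helper7.isCharacter_of_irr d.irr
  have hϑcf := Helper7.isClassFunction_of_isCharacter hϑc
  set Gh : Subgroup E := G.comap π with hGh
  set Nh : Subgroup E := N.comap π with hNh
  have hGhn : Gh.Normal := hG.comap π
  have hNhn : Nh.Normal := hN.comap π
  have hNG' : Nh ≤ Gh := Subgroup.comap_mono hNG
  have hσN : σ.range ≤ Nh := by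
    rintro _ ⟨n, rfl⟩
    show π (σ n) ∈ N
    rw [d.sec]
    exact n.2
  have hσG : σ.range ≤ Gh := hσN.trans hNG'
  have : Fintype Nh := Fintype.ofFinite _
  have : Fintype Gh := Fintype.ofFinite _
  -- irreducibility on `σ N`
  have hσinj : Function.Injective σ := by
    intro a b hab
    have := congrArg π hab
    rw [d.sec, d.sec] at this
    exact Subtype.ext this
  let e : N ≃* σ.range := MonoidHom.ofInjective hσinj
  have he : ∀ n, ((e n : σ.range) : E) = σ n := fun n => rfl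
  have hres : (fun x : σ.range => ϑ' x) = fun x : σ.range => θ (e.symm x) := by
    funext x
    obtain ⟨n, rfl⟩ := e.surjective x
    rw [MulEquiv.symm_apply_apply, he, d.ext]
  have hresirr : IsIrrCharacter σ.range (fun x : σ.range => ϑ' x) := by
    rw [hres]
    exact isIrrCharacter_comp_surjective e.symm.toMonoidHom e.symm.surjective hθ
  -- the linear character
  have hθ₀ : IsIrrCharacter (σ.range.subgroupOf Nh)
      (fun m : σ.range.subgroupOf Nh => ϑ' ((m : Nh) : E)) :=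
    isIrrCharacter_subgroupOf σ.range hσN hresirr
  have hχa : IsIrrCharacter Nh (fun y : Nh => ϑ' y) :=
    isIrrCharacter_of_restrict (σ.range.subgroupOf Nh) (Helper7.isCharacter_restrict hϑc Nh) hθ₀
  have hχb : IsIrrCharacter Nh (fun y : Nh => θ ⟨π y, y.2⟩) :=
    isIrrCharacter_comp_surjective (π.subgroupComap N)
      (π.subgroupComap_surjective_of_surjective N d.surj) hθ
  obtain ⟨b, hb1, hb2⟩ := exists_linear_of_extensions (σ.range.subgroupOf Nh) hθ₀ hχa hχb
    (fun n => rfl) (by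
      intro m
      obtain ⟨n, hn⟩ : ((m : Nh) : E) ∈ σ.range := Subgroup.mem_subgroupOf.mp m.2
      show θ ⟨π ((m : Nh) : E), _⟩ = ϑ' ((m : Nh) : E)
      have h1 : (⟨π ((m : Nh) : E), (m : Nh).2⟩ : N) = n := by
        apply Subtype.ext
        show π ((m : Nh) : E) = n
        rw [← hn, d.sec]
      rw [h1, ← hn, d.ext])
  have hb2' : ∀ y : Nh, θ ⟨π y, y.2⟩ = (b y : ℂ) * ϑ' y := fun y => congrFun hb2 y
  have hbσ : ∀ (n : N), b ⟨σ n, hσN ⟨n, rfl⟩⟩ = 1 := fun n =>
    hb1 ⟨⟨σ n, hσN ⟨n, rfl⟩⟩, Subgroup.mem_subgroupOf.mpr ⟨n, rfl⟩⟩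
  have hbinv : ∀ (x : E) (y : Nh), b ⟨x * y * x⁻¹, hNhn.conj_mem y y.2 x⟩ = b y := by
    intro x y
    have h1 := linear_fix_trivial (σ.range.subgroupOf Nh) hχa hθ₀
      ((b.comp (MulAut.conjNormal x : MulAut Nh).toMonoidHom) / b) ?_ ?_
    · have h2 := DFunLike.congr_fun h1 y
      rw [MonoidHom.div_apply, MonoidHom.one_apply, div_eq_one] at h2
      exact h2
    · intro m hm
      rw [MonoidHom.mem_ker, MonoidHom.div_apply, div_eq_one]
      have hm' : (m : E) ∈ σ.range := Subgroup.mem_subgroupOf.mp hm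
      have h3 := hb1 ⟨m, hm⟩
      have h4 := hb1 ⟨⟨x * m * x⁻¹, hNhn.conj_mem m m.2 x⟩,
        Subgroup.mem_subgroupOf.mpr (hσn.conj_mem m hm' x)⟩
      exact h4.trans h3.symm
    · intro k
      have h3 := hb2' k
      have h4 := hb2' ⟨x * k * x⁻¹, hNhn.conj_mem k k.2 x⟩
      have h5 : ϑ' (x * k * x⁻¹) = ϑ' k := hϑcf k x
      have h6 : θ ⟨π (x * k * x⁻¹), (hNhn.conj_mem k k.2 x : _ ∈ Nh)⟩ = θ ⟨π k, k.2⟩ := by
        rw [← hinv (π x) ⟨π k, k.2⟩]
        congr 1
        apply Subtype.ext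
        simp
      simp only at h4
      rw [h5, h6, h3] at h4
      rw [MonoidHom.div_apply, Units.val_div_eq_div_val, div_mul_eq_mul_div]
      show ((b ⟨x * k * x⁻¹, _⟩ : ℂˣ) : ℂ) * ϑ' k / (b k : ℂ) = ϑ' k
      rw [← h4]
      field_simp
  -- apply the linear case
  have hcop' : Gh.index.Coprime (Nh.relIndex Gh) := by
    rw [hGh, Subgroup.index_comap_of_surjective G d.surj, hNh, Subgroup.relIndex_comap,
      Subgroup.map_comap_eq_self_of_surjective d.surj]
    exact hcop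
  have hs' : SolvHyp Gh Nh := by
    rcases hs with ⟨k, hk⟩ | ⟨k, hk⟩
    · left
      refine ⟨k, fun x hx => ?_⟩
      exact hk (map_derivedSeries_le_derivedSeries π k (Subgroup.mem_map_of_mem _ hx))
    · right
      refine ⟨k, fun y hy => ?_⟩
      exact hk _ (map_derivedSeries_le_derivedSeries (π.subgroupComap G) k
        (Subgroup.mem_map_of_mem _ hy))
  obtain ⟨β, hβ, hc, hβinv⟩ := hasInvAbove_of_linear Gh Nh hNG' hcop' hs' b hbinv
  set c := classInner (fun n : Nh => β ⟨n, hNG' n.2⟩) (fun n => (b n : ℂ)) with hcdef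
  have hβN : ∀ n : Nh, β ⟨n, hNG' n.2⟩ = c * (b n : ℂ) := fun n =>
    restrict_eq_mul_of_le_inertia Nh Gh (Helper7.isIrrCharacter_of_hom b)
      (fun g _ h => by rw [hbinv]) hNG' hβ hc n
  have hβ1 : β 1 = c := by
    have := hβN 1
    rw [map_one, Units.val_one, mul_one] at this
    exact this
  have hχG : IsIrrCharacter Gh (fun y : Gh => ϑ' y) :=
    isIrrCharacter_of_restrict (σ.range.subgroupOf Gh) (Helper7.isCharacter_restrict hϑc Gh)
      (isIrrCharacter_subgroupOf σ.range hσG hresirr)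
  have hψ : IsIrrCharacter Gh (β * fun y : Gh => ϑ' y) := by
    apply gallagher_mul_irr (σ.range.subgroupOf Gh) hχG
      (isIrrCharacter_subgroupOf σ.range hσG hresirr) hβ
    intro m hm
    obtain ⟨n, hn⟩ : (m : E) ∈ σ.range := Subgroup.mem_subgroupOf.mp hm
    have h1 := hβN ⟨σ n, hσN ⟨n, rfl⟩⟩
    rw [hbσ, Units.val_one, mul_one] at h1
    rw [hβ1, ← h1]
    congr 1
    exact Subtype.ext hn.symm
  have hψN : ∀ y : Nh, (β * fun y : Gh => ϑ' y) ⟨y, hNG' y.2⟩ = c * θ ⟨π y, y.2⟩ := by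
    intro y
    rw [Pi.mul_apply, hβN, hb2', mul_assoc]
  obtain ⟨χ, hχ, hχψ⟩ := descend_char (π.subgroupComap G)
    (π.subgroupComap_surjective_of_surjective G d.surj) hψ (by
      intro a ha
      have ha' : π (a : E) = 1 := congrArg Subtype.val (MonoidHom.mem_ker.mp ha)
      have haN : (a : E) ∈ Nh := by
        show π (a : E) ∈ N
        rw [ha']
        exact N.one_mem
      have h1 := hψN ⟨a, haN⟩
      have h2 := hψN 1
      have e1 : (⟨π (a : E), haN⟩ : N) = 1 := Subtype.ext ha'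
      have e2 : (⟨π ((1 : Nh) : E), (1 : Nh).2⟩ : N) = 1 := Subtype.ext (by simp)
      rw [e1] at h1
      rw [e2] at h2
      exact h1.trans h2.symm)
  refine ⟨χ, hχ, ?_, ?_⟩
  · have h1 : (fun n : N => χ ⟨n, hNG n.2⟩) = c • θ := by
      funext n
      have h2 := hχψ ⟨σ n, hσG ⟨n, rfl⟩⟩
      have h3 := hψN ⟨σ n, hσN ⟨n, rfl⟩⟩
      have e1 : (π.subgroupComap G) ⟨σ n, hσG ⟨n, rfl⟩⟩ = ⟨n, hNG n.2⟩ := Subtype.ext (d.sec n)
      have e2 : (⟨π (σ n), (hσN ⟨n, rfl⟩ : σ n ∈ Nh)⟩ : N) = n := Subtype.ext (d.sec n)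
      rw [e1] at h2
      simp only at h3
      rw [e2] at h3
      rw [h2, Pi.smul_apply, smul_eq_mul]
      exact h3
    rw [h1, classInner_smul_left, Helper7.classInner_irr_self hθ, mul_one]
    exact hc
  · intro x g
    obtain ⟨x', rfl⟩ := d.surj x
    obtain ⟨g', rfl⟩ := (π.subgroupComap_surjective_of_surjective G d.surj) g
    have e1 : (⟨π x' * (((π.subgroupComap G) g' : G) : Γ) * (π x')⁻¹,
        hG.conj_mem _ ((π.subgroupComap G) g').2 _⟩ : G)
        = (π.subgroupComap G) ⟨x' * g' * x'⁻¹, hGhn.conj_mem g' g'.2 x'⟩ := by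
      apply Subtype.ext
      show π x' * π g' * (π x')⁻¹ = π (x' * g' * x'⁻¹)
      simp
    rw [e1, hχψ, hχψ, Pi.mul_apply, Pi.mul_apply, hβinv]
    congr 1
    exact hϑcf g' x'

end Cfsg.Agent.Lib.Helper25
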