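import Cfsg.Agent.Lib.Helper25.Glaub15
import Cfsg.Agent.Lib.Helper7.CharComplete

set_option autoImplicit false

namespace Cfsg.Agent.Lib.Helper25

open Cfsg
open scoped ComplexConjugate

universe u

variable {Γ : Type u} [Group Γ]

theorem exists_inv_constituent [Finite Γ] {p : ℕ} (hp : p.Prime) (D E : Subgroup Γ) [Fintype D]
    (hnorm : ∀ e ∈ E, ∀ d ∈ D, e * d * e⁻¹ ∈ D) (hact : ActsP p D E) {a b : D → ℂ}
    (ha : IsCharacter D a) (hb : IsCharacter D b) (hai : InvUnder D E a) (hbi : InvUnder D E b)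
    {I : ℕ} (hI : classInner a b = I) (hpI : ¬ p ∣ I) :
    ∃ α : D → ℂ, IsIrrCharacter D α ∧ InvUnder D E α ∧ ∃ m : ℕ, classInner b α = m ∧ ¬ p ∣ m := by
  classical
  have : Finite (IrrCharacter D) := Helper2.finite_irrCharacter
  let _ : Fintype (IrrCharacter D) := Fintype.ofFinite _
  choose ma hma using fun φ : IrrCharacter D =>
    Helper7.classInner_char_nat ha (Helper7.isCharacter_of_irr φ.2)
  choose mb hmb using fun φ : IrrCharacter D =>
    Helper7.classInner_char_nat hb (Helper7.isCharacter_of_irr φ.2)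
  have h1 : (I : ℂ) = ∑ φ : IrrCharacter D, (ma φ : ℂ) * (mb φ : ℂ) := by
    rw [← hI, Helper7.classInner_eq_sum (Helper7.isClassFunction_of_isCharacter ha)]
    refine Finset.sum_congr rfl fun φ _ => ?_
    rw [hma, hmb, Complex.conj_natCast]
  have h2 : I = ∑ φ : IrrCharacter D, ma φ * mb φ := by exact_mod_cast h1
  set s : Finset (IrrCharacter D) := Finset.univ.filter (fun φ => ¬ InvUnder D E (φ : D → ℂ))
    with hs
  have hinvw : ∀ {ψ : D → ℂ} (_ : InvUnder D E ψ) (m : IrrCharacter D → ℕ)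
      (_ : ∀ φ : IrrCharacter D, classInner ψ (φ : D → ℂ) = m φ) (x : E) (φ : IrrCharacter D),
      m (((irrPerm D).comp (conjAutHom D E hnorm)) x φ) = m φ := by
    intro ψ hψi m hm x φ
    set α := conjAut D x (hnorm x x.2) with hα
    have hφ' : ((((irrPerm D).comp (conjAutHom D E hnorm)) x φ : IrrCharacter D) : D → ℂ) =
        (φ : D → ℂ) ∘ α.symm := rfl
    have h5 := hm (((irrPerm D).comp (conjAutHom D E hnorm)) x φ)
    rw [hφ'] at h5
    have h6 : ψ ∘ α.symm = ψ := by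
      have := (invUnder_iff_forall D E hnorm ψ).1 hψi x x.2
      conv_lhs => rw [← this]
      ext y
      simp [hα]
    rw [← h6, classInner_comp_equiv α.symm, hm φ] at h5
    exact_mod_cast h5.symm
  have hA : p ∣ ∑ φ ∈ s, ma φ * mb φ := by
    refine dvd_sum_not_fixed hp (irrAct D E hnorm) (isPGroup_irrAct D E hnorm hact) _ ?_ s ?_
    · rintro _ ⟨x, rfl⟩ φ
      rw [hinvw hai ma hma x φ, hinvw hbi mb hmb x φ]
    · intro φ
      rw [hs, Finset.mem_filter, irrAct_fixed_iff]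
      simp
  rw [← Finset.sum_add_sum_compl s] at h2
  have hB : ¬ p ∣ ∑ φ ∈ sᶜ, ma φ * mb φ := by
    intro h
    apply hpI
    rw [h2]
    exact dvd_add hA h
  have hex : ∃ φ ∈ sᶜ, ¬ p ∣ ma φ * mb φ := by
    by_contra hall
    push Not at hall
    exact hB (Finset.dvd_sum hall)
  obtain ⟨φ, hφ, hpφ⟩ := hex
  refine ⟨φ, φ.2, ?_, mb φ, hmb φ, fun h => hpφ (Dvd.dvd.mul_left h _)⟩
  rw [Finset.mem_compl, hs, Finset.mem_filter] at hφ
  simpa using hφ

theorem extendByZero_mul_extendByZero (A B : Subgroup Γ) (α : A → ℂ) (β : B → ℂ) (y : Γ) :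
    extendByZero A α y * extendByZero B β y
      = extendByZero (A ⊓ B) (fun d => α ⟨d, d.2.1⟩ * β ⟨d, d.2.2⟩) y := by
  by_cases hA : y ∈ A
  · by_cases hB : y ∈ B
    · rw [extendByZero_mem A α hA, extendByZero_mem B β hB,
        extendByZero_mem (A ⊓ B) _ (⟨hA, hB⟩ : y ∈ A ⊓ B)]
    · rw [extendByZero_not_mem B β hB, extendByZero_not_mem (A ⊓ B) _ (fun h => hB h.2), mul_zero]
  · rw [extendByZero_not_mem A α hA, extendByZero_not_mem (A ⊓ B) _ (fun h => hA h.1), zero_mul]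

theorem sum_extendByZero_restrict [Fintype Γ] (A B : Subgroup Γ) [Fintype B] [Fintype (A ⊓ B : Subgroup Γ)]
    (α : A → ℂ) (β : B → ℂ) :
    ∑ n : B, extendByZero A α (n : Γ) * β n
      = ∑ d : (A ⊓ B : Subgroup Γ), α ⟨d, d.2.1⟩ * β ⟨d, d.2.2⟩ := by
  have h1 := sum_extendByZero_mul B β (extendByZero A α)
  rw [← sum_extendByZero (A ⊓ B)]
  simp_rw [← extendByZero_mul_extendByZero]
  rw [Finset.sum_congr rfl (fun n _ => mul_comm _ _), ← h1]
  exact Finset.sum_congr rfl (fun n _ => mul_comm _ _)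

end Cfsg.Agent.Lib.Helper25
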