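import Cfsg.Agent.Lib.Helper25.Dade2

set_option autoImplicit false

namespace Cfsg.Agent.Lib.Helper25

open Cfsg
open scoped ComplexConjugate

universe u

variable {G : Type u} [Group G]

theorem actsP_of_isElementary [Finite G] {p : ℕ} (E D : Subgroup G) (hDE : D ≤ E)
    (hE : IsElementary p E) : ActsP p D E := by
  obtain ⟨x, hx, -, k, hk⟩ := hE
  have hle : Subgroup.zpowers x ≤ Subgroup.center E := Subgroup.zpowers_le.2 hx
  have hn : (Subgroup.zpowers x).Normal := by
    constructor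
    intro z hz g
    have := Subgroup.mem_center_iff.1 (hle hz) g
    rw [this, mul_inv_cancel_right]; exact hz
  intro s hs
  refine ⟨k, fun g hg => ?_⟩
  have h1 : (⟨s, hs⟩ : E) ^ p ^ k ∈ Subgroup.zpowers x := by
    rw [← hk]
    exact (Subgroup.zpowers x).pow_index_mem _
  have h2 := Subgroup.mem_center_iff.1 (hle h1) ⟨g, hDE hg⟩
  exact (congrArg Subtype.val h2).symm

theorem dade_detection [Fintype G] (p : ℕ) (hp : p.Prime) (N : Subgroup G) [hN : N.Normal]
    (hind : ∃ k : ℕ, N.index = p ^ k) (ϑ : N → ℂ) (hϑ : IsIrrCharacter N ϑ)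
    (hinv : ∀ (g : G) (n : N), ϑ ⟨g * n * g⁻¹, hN.conj_mem (n : G) n.2 g⟩ = ϑ n) :
    ∃ (E : Subgroup G) (φ : ↥(E ⊓ N) → ℂ), IsElementary p E ∧ E ⊔ N = ⊤ ∧
      IsIrrCharacter ↥(E ⊓ N) φ ∧ InvUnder (E ⊓ N) E φ ∧
      ∃ m : ℕ, ¬ p ∣ m ∧ (Nat.card ↥(E ⊓ N) : ℂ)⁻¹ *
        ∑ᶠ x : ↥(E ⊓ N), ϑ ⟨(x : G), x.2.2⟩ * conj (φ x) = (m : ℂ) := by
  classical
  have : Fintype N := Fintype.ofFinite _
  set Concl : Prop := ∃ (E : Subgroup G) (φ : ↥(E ⊓ N) → ℂ), IsElementary p E ∧ E ⊔ N = ⊤ ∧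
      IsIrrCharacter ↥(E ⊓ N) φ ∧ InvUnder (E ⊓ N) E φ ∧
      ∃ m : ℕ, ¬ p ∣ m ∧ (Nat.card ↥(E ⊓ N) : ℂ)⁻¹ *
        ∑ᶠ x : ↥(E ⊓ N), ϑ ⟨(x : G), x.2.2⟩ * conj (φ x) = (m : ℂ) with hConcl
  set Φ : (G → ℂ) → ℂ := fun f => classInner (fun n : N => f n * ϑ n) ϑ with hΦ
  have hϑc := isCharacter_of_irr hϑ
  have key : ∀ f ∈ Helper2.elemSpan (G := G) p,
      ∃ z : ℤ, Φ f = z ∧ (¬ (p : ℤ) ∣ z → Concl) := by
    intro f hf
    unfold Helper2.elemSpan at hf
    induction hf using AddSubgroup.closure_induction with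
    | mem f hf =>
      obtain ⟨E, φ, hE, hφ, rfl⟩ := hf
      have : Fintype (E ⊓ N : Subgroup G) := Fintype.ofFinite _
      have h1 := dade_inner_formula N ϑ hinv E φ
      set a : (E ⊓ N : Subgroup G) → ℂ := fun d => φ ⟨d, d.2.1⟩ * ϑ ⟨d, d.2.2⟩ with ha
      set b : (E ⊓ N : Subgroup G) → ℂ := fun d => ϑ ⟨d, d.2.2⟩ with hb
      have hbc : IsCharacter (E ⊓ N : Subgroup G) b :=
        isCharacter_comp (Subgroup.inclusion (inf_le_right : E ⊓ N ≤ N)) hϑc
      have hφc : IsCharacter (E ⊓ N : Subgroup G) (fun d => φ ⟨d, d.2.1⟩) :=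
        isCharacter_comp (Subgroup.inclusion (inf_le_left : E ⊓ N ≤ E)) hφ
      have hac : IsCharacter (E ⊓ N : Subgroup G) a := Helper7.isCharacter_mul hφc hbc
      obtain ⟨I, hI⟩ := Helper7.classInner_char_nat hac hbc
      refine ⟨((E ⊔ N).index * I : ℕ), ?_, ?_⟩
      · show classInner (fun n : N => indFun E φ n * ϑ n) ϑ = _
        rw [h1, hI]
        push_cast
        rfl
      · intro hz
        have hz' : ¬ p ∣ (E ⊔ N).index * I := by
          intro h
          exact hz (by exact_mod_cast h)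
        have hj : (E ⊔ N).index = 1 := by
          obtain ⟨k, hk⟩ := hind
          have h2 : (E ⊔ N).index ∣ p ^ k := hk ▸ Subgroup.index_dvd_of_le le_sup_right
          obtain ⟨i, -, hi⟩ := (Nat.dvd_prime_pow hp).mp h2
          rcases Nat.eq_zero_or_pos i with rfl | hi0
          · simpa using hi
          · exfalso
            apply hz'
            rw [hi]
            exact Dvd.dvd.mul_right (dvd_pow_self p hi0.ne') _
        have hpI : ¬ p ∣ I := fun h => hz' (Dvd.dvd.mul_left h _)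
        have hnorm : ∀ e ∈ E, ∀ d ∈ E ⊓ N, e * d * e⁻¹ ∈ E ⊓ N := fun e he d hd =>
          ⟨E.mul_mem (E.mul_mem he hd.1) (E.inv_mem he), hN.conj_mem d hd.2 e⟩
        have hbi : InvUnder (E ⊓ N) E b := by
          intro s _ g g' hg
          have : (⟨(g' : G), g'.2.2⟩ : N) = ⟨s * (⟨(g : G), g.2.2⟩ : N) * s⁻¹,
              hN.conj_mem _ g.2.2 s⟩ := Subtype.ext hg
          show ϑ ⟨(g' : G), g'.2.2⟩ = ϑ ⟨(g : G), g.2.2⟩
          rw [this, hinv]
        have hai : InvUnder (E ⊓ N) E a := by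
          intro s hs g g' hg
          have h3 : φ ⟨(g' : G), g'.2.1⟩ = φ ⟨(g : G), g.2.1⟩ := by
            have : (⟨(g' : G), g'.2.1⟩ : E) = ⟨s, hs⟩ * ⟨(g : G), g.2.1⟩ * ⟨s, hs⟩⁻¹ :=
              Subtype.ext hg
            rw [this]
            exact isClassFunction_of_isCharacter hφ _ _
          show φ ⟨(g' : G), g'.2.1⟩ * b g' = φ ⟨(g : G), g.2.1⟩ * b g
          rw [h3, hbi s hs g g' hg]
        obtain ⟨α, hα, hαi, m, hm, hpm⟩ := exists_inv_constituent hp (E ⊓ N) E hnorm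
          (actsP_of_isElementary E (E ⊓ N) inf_le_left hE) hac hbc hai hbi hI hpI
        refine ⟨E, α, hE, Subgroup.index_eq_one.mp hj, hα, hαi, m, hpm, ?_⟩
        rw [finsum_eq_sum_of_fintype]
        exact hm
    | zero =>
      refine ⟨0, ?_, fun h => absurd (dvd_zero _) h⟩
      show classInner (fun n : N => (0 : G → ℂ) n * ϑ n) ϑ = _
      simp only [Pi.zero_apply, zero_mul, Int.cast_zero]
      exact classInner_zero_left ϑ
    | add f g _ _ ihf ihg =>
      obtain ⟨z₁, h1, c1⟩ := ihf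
      obtain ⟨z₂, h2, c2⟩ := ihg
      refine ⟨z₁ + z₂, ?_, ?_⟩
      · have : (fun n : N => (f + g) n * ϑ n)
            = (fun n : N => f n * ϑ n) + (fun n : N => g n * ϑ n) := by
          funext n
          simp [add_mul]
        show classInner (fun n : N => (f + g) n * ϑ n) ϑ = _
        rw [this, classInner_add_left]
        push_cast
        rw [← h1, ← h2]
      · intro hz
        by_cases hz1 : (p : ℤ) ∣ z₁
        · apply c2
          intro hz2
          exact hz (dvd_add hz1 hz2)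
        · exact c1 hz1
    | neg f _ ih =>
      obtain ⟨z, h1, c1⟩ := ih
      refine ⟨-z, ?_, ?_⟩
      · have : (fun n : N => (-f) n * ϑ n) = (-1 : ℂ) • (fun n : N => f n * ϑ n) := by
          funext n
          simp
        show classInner (fun n : N => (-f) n * ϑ n) ϑ = _
        rw [this, classInner_smul_left]
        push_cast
        rw [← h1]
        ring
      · intro hz
        apply c1
        intro h
        exact hz ((dvd_neg).mpr h)
  obtain ⟨m, hpm, hm⟩ := Helper2.exists_const_mem_elemSpan (G := G) hp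
  obtain ⟨z, hz, hc⟩ := key _ hm
  apply hc
  have h1 : Φ (fun _ => (m : ℂ)) = m := by
    have : (fun n : N => (fun _ : G => (m : ℂ)) n * ϑ n) = (m : ℂ) • ϑ := by
      funext n
      simp
    show classInner (fun n : N => (fun _ : G => (m : ℂ)) n * ϑ n) ϑ = _
    rw [this, classInner_smul_left, classInner_irr hϑ hϑ, if_pos rfl, mul_one]
  rw [h1] at hz
  have : m = z := by exact_mod_cast hz
  rw [← this]
  exact hpm

end Cfsg.Agent.Lib.Helper25
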