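import Cfsg.Agent.Lib.Helper25.Dade3
import Cfsg.Agent.Lib.Helper26.ProjExt2

set_option autoImplicit false

namespace Cfsg.Agent.Lib.Helper25

open Cfsg
open scoped ComplexConjugate

universe u

variable {G : Type u} [Group G]

theorem sum_extendByZero_restrict' [Fintype G] (A B : Subgroup G) [Fintype B]
    [Fintype (B ⊓ A : Subgroup G)] (α : A → ℂ) (β : B → ℂ) :
    ∑ n : B, extendByZero A α (n : G) * β n
      = ∑ d : (B ⊓ A : Subgroup G), α ⟨d, d.2.2⟩ * β ⟨d, d.2.1⟩ := by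
  have h1 := sum_extendByZero_mul B β (extendByZero A α)
  rw [Finset.sum_congr rfl (fun n _ => mul_comm _ _), ← h1]
  simp_rw [extendByZero_mul_extendByZero]
  rw [sum_extendByZero (B ⊓ A)]
  exact Finset.sum_congr rfl (fun n _ => mul_comm _ _)

theorem indFun_eq_index_mul_of_invariant [Fintype G] (N : Subgroup G) [hN : N.Normal] (ϑ : N → ℂ)
    (hinv : ∀ (g : G) (n : N), ϑ ⟨g * n * g⁻¹, hN.conj_mem (n : G) n.2 g⟩ = ϑ n) (g : G) :
    indFun N ϑ g = (N.index : ℂ) * extendByZero N ϑ g := by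
  by_cases hg : g ∈ N
  · have h1 := indFun_coe_eq_sum_conjFun N ϑ ⟨g, hg⟩
    have h2 : ∀ x : G, conjFun N ϑ x ⟨g, hg⟩ = ϑ ⟨g, hg⟩ := fun x => hinv x ⟨g, hg⟩
    simp_rw [h2] at h1
    rw [Finset.sum_const, Finset.card_univ, ← Nat.card_eq_fintype_card,
      ← Subgroup.card_mul_index N] at h1
    rw [extendByZero_mem N ϑ hg]
    have hNc : (Nat.card N : ℂ) ≠ 0 := by exact_mod_cast Nat.card_pos.ne'
    have h3 : indFun N ϑ g = indFun N ϑ ((⟨g, hg⟩ : N) : G) := rfl
    rw [h3, h1]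
    simp only [nsmul_eq_mul, Nat.cast_mul]
    field_simp
  · rw [indFun_not_mem N ϑ hg, extendByZero_not_mem N ϑ hg, mul_zero]

theorem extends_of_detection [Fintype G] (p : ℕ) (hp : p.Prime) (N : Subgroup G) [hN : N.Normal]
    (hind : ∃ k : ℕ, N.index = p ^ k) (ϑ : N → ℂ) (hϑ : IsIrrCharacter N ϑ)
    (hinv : ∀ (g : G) (n : N), ϑ ⟨g * n * g⁻¹, hN.conj_mem (n : G) n.2 g⟩ = ϑ n)
    (E : Subgroup G) (hsup : E ⊔ N = ⊤) (F : E →* ℂˣ) {m : ℕ} (hpm : ¬ p ∣ m)
    (hm : (Nat.card ↥(E ⊓ N) : ℂ)⁻¹ *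
      ∑ᶠ x : ↥(E ⊓ N), ϑ ⟨(x : G), x.2.2⟩ * conj ((F ⟨(x : G), x.2.1⟩ : ℂˣ) : ℂ) = (m : ℂ)) :
    ∃ χ : G → ℂ, IsIrrCharacter G χ ∧ ∀ n : N, χ n = ϑ n := by
  classical
  have : Fintype N := Fintype.ofFinite _
  have : Fintype E := Fintype.ofFinite _
  have : Fintype (E ⊓ N : Subgroup G) := Fintype.ofFinite _
  have := Helper2.finite_irrCharacter (G := G)
  have : Fintype (IrrCharacter G) := Fintype.ofFinite _
  set ψ : E → ℂ := fun e => ((F e : ℂˣ) : ℂ) with hψ
  have hψirr : IsIrrCharacter E ψ := Helper7.isIrrCharacter_of_hom F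
  set Θ : G → ℂ := indFun N ϑ with hΘ
  have hΘc : IsCharacter G Θ := isCharacter_indFun N ϑ (isCharacter_of_irr hϑ)
  have h1 : classInner (fun e : E => Θ e) ψ = m := by
    unfold classInner
    simp_rw [hΘ, indFun_eq_index_mul_of_invariant N ϑ hinv, mul_assoc]
    rw [← Finset.mul_sum, sum_extendByZero_restrict' N E ϑ (fun e => conj (ψ e))]
    rw [finsum_eq_sum_of_fintype] at hm
    have h4 := index_sup_mul_card E N
    rw [hsup, Subgroup.index_top, one_mul, ← Subgroup.card_mul_index N] at h4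
    have hNpos : 0 < Nat.card N := Nat.card_pos
    have h5 : Nat.card E = N.index * Nat.card (E ⊓ N : Subgroup G) := by
      have : Nat.card N * Nat.card E = Nat.card N * (N.index * Nat.card (E ⊓ N : Subgroup G)) := by
        rw [h4]; ring
      exact Nat.eq_of_mul_eq_mul_left hNpos this
    rw [← hm, h5]
    have hi : (N.index : ℂ) ≠ 0 := by exact_mod_cast N.index_ne_zero_of_finite
    have hDc : (Nat.card (E ⊓ N : Subgroup G) : ℂ) ≠ 0 := by exact_mod_cast Nat.card_pos.ne'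
    push_cast
    field_simp
    rfl
  obtain ⟨f, hf, hsum⟩ := Helper7.character_eq_sum_nat hΘc
  choose r hr using fun χ : IrrCharacter G => Helper7.classInner_char_nat
    (Helper7.isCharacter_restrict (isCharacter_of_irr χ.2) E) (isCharacter_of_irr hψirr)
  have h2 : (fun e : E => Θ e) = ∑ χ : IrrCharacter G, (f χ : ℂ) • (fun e : E => (χ : G → ℂ) e) := by
    funext e
    have := congrFun hsum (e : G)
    rw [this]
    simp only [Finset.sum_apply, Pi.smul_apply, smul_eq_mul]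
    exact Finset.sum_congr rfl (fun c _ => by rw [nsmul_eq_mul])
  have h3 : (m : ℂ) = ∑ χ : IrrCharacter G, (f χ : ℂ) * (r χ : ℂ) := by
    rw [← h1, h2, classInner_sum_left]
    refine Finset.sum_congr rfl fun χ _ => ?_
    rw [classInner_smul_left]
    congr 1
    exact hr χ
  have h4 : m = ∑ χ : IrrCharacter G, f χ * r χ := by exact_mod_cast h3
  have hex : ∃ χ : IrrCharacter G, ¬ p ∣ f χ * r χ := by
    by_contra hall
    push Not at hall
    apply hpm
    rw [h4]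
    exact Finset.dvd_sum (fun χ _ => hall χ)
  obtain ⟨χ, hχ⟩ := hex
  have hpf : ¬ p ∣ f χ := fun h => hχ (Dvd.dvd.mul_right h _)
  have hf0 : f χ ≠ 0 := fun h => hpf (h ▸ dvd_zero p)
  have h5 : classInner (fun n : N => (χ : G → ℂ) n) ϑ = f χ := by
    have h6 := hf χ
    rw [hΘ, frobenius_reciprocity N ϑ _
      (isClassFunction_of_isCharacter (isCharacter_of_irr χ.2))] at h6
    rw [← classInner_conj_symm, h6, Complex.conj_natCast]
  have hne : classInner (fun n : N => (χ : G → ℂ) n) ϑ ≠ 0 := by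
    rw [h5]
    exact_mod_cast hf0
  have h6 := restrict_eq_smul_of_invariant N χ.2 hϑ hne
    (fun g => (conjFun_eq_self_iff N ϑ g).mpr (hinv g))
  obtain ⟨e', he1, he2⟩ := Helper26.degree_ratio N χ.2 hϑ hne
  have h7 : (χ : G → ℂ) 1 = f χ * ϑ 1 := by
    have := congrFun h6 1
    rw [h5] at this
    simpa using this
  have hϑ1 : ϑ 1 ≠ 0 := Helper7.irr_apply_one_ne_zero hϑ
  have h8 : e' = f χ := by
    rw [he1] at h7
    have := mul_right_cancel₀ hϑ1 h7
    exact_mod_cast this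
  obtain ⟨k, hk⟩ := hind
  rw [h8, hk] at he2
  obtain ⟨i, -, hi⟩ := (Nat.dvd_prime_pow hp).mp he2
  have hi0 : i = 0 := by
    by_contra h
    apply hpf
    rw [hi]
    exact dvd_pow_self p h
  rw [hi0, pow_zero] at hi
  refine ⟨χ, χ.2, fun n => ?_⟩
  have := congrFun h6 n
  rw [h5, hi] at this
  simpa using this

end Cfsg.Agent.Lib.Helper25
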