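import Cfsg.Agent.Lib.Helper25.Dade4

set_option autoImplicit false

namespace Cfsg.Agent.Lib.Helper25

open Cfsg
open scoped ComplexConjugate

universe u

theorem exists_hom_extension_of_comm {A B : Type*} [Group A] [Group B] [Finite A]
    (hA : ∀ a b : A, a * b = b * a) (i : B →* A) (hi : Function.Injective i) (δ : B →* ℂˣ) :
    ∃ δ' : A →* ℂˣ, ∀ b, δ' (i b) = δ b := by
  let _ : CommGroup A := { ‹Group A› with mul_comm := hA }
  obtain ⟨δ', hδ'⟩ := MonoidHom.domRestrict_surjective (G := A) (M := ℂ) i.range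
    (δ.comp (MonoidHom.ofInjective hi).symm.toMonoidHom)
  refine ⟨δ', fun b => ?_⟩
  have h1 := DFunLike.congr_fun hδ' ⟨i b, b, rfl⟩
  have h2 : (MonoidHom.ofInjective hi).symm ⟨i b, b, rfl⟩ = b := by
    rw [MulEquiv.symm_apply_eq]
    rfl
  have h3 : (δ.comp (MonoidHom.ofInjective hi).symm.toMonoidHom) ⟨i b, b, rfl⟩ = δ b := by
    show δ ((MonoidHom.ofInjective hi).symm ⟨i b, b, rfl⟩) = δ b
    rw [h2]
  rw [h3] at h1
  exact h1

/-- A `p`-elementary group retracts onto a `p`-subgroup modulo a central `p'`-subgroup. -/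
theorem exists_retraction_of_isElementary {X : Type u} [Group X] [Finite X] {p : ℕ}
    (hp : p.Prime) (hX : IsElementary p X) :
    ∃ (x : X) (Q : Subgroup X) (ρ : X →* Q), x ∈ Subgroup.center X ∧ (orderOf x).Coprime p ∧
      IsPGroup p Q ∧ ∀ e : X, e * (ρ e : X)⁻¹ ∈ Subgroup.zpowers x := by
  have : Fact p.Prime := ⟨hp⟩
  obtain ⟨x, hx, ho, k, hk⟩ := hX
  set C := Subgroup.zpowers x with hC
  have hle : C ≤ Subgroup.center X := Subgroup.zpowers_le.2 hx
  have hn : C.Normal := by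
    constructor
    intro z hz g
    have := Subgroup.mem_center_iff.1 (hle hz) g
    rw [this, mul_inv_cancel_right]; exact hz
  obtain ⟨Q⟩ : Nonempty (Sylow p X) := inferInstance
  have hCcard : Nat.card C = orderOf x := Nat.card_zpowers x
  obtain ⟨n, hn'⟩ := IsPGroup.iff_card.mp Q.2
  have hQcard : Nat.card (Q : Subgroup X) = p ^ k := by
    have h1 := Subgroup.card_mul_index (Q : Subgroup X)
    have h2 := Subgroup.card_mul_index C
    rw [hk, hCcard] at h2
    have h3 : Nat.Coprime (p ^ k) (Q : Subgroup X).index :=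
      Nat.Coprime.pow_left k ((Nat.Prime.coprime_iff_not_dvd hp).mpr Q.not_dvd_index)
    have h4 : p ^ k ∣ Nat.card (Q : Subgroup X) := by
      apply h3.dvd_of_dvd_mul_right
      rw [h1, ← h2]
      exact Dvd.intro_left _ rfl
    have h5 : Nat.card (Q : Subgroup X) ∣ p ^ k := by
      have h6 : Nat.Coprime (Nat.card (Q : Subgroup X)) (orderOf x) := by
        rw [hn']
        exact Nat.Coprime.pow_left n ho.symm
      apply h6.dvd_of_dvd_mul_left
      rw [h2, ← h1]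
      exact Dvd.intro _ rfl
    exact Nat.dvd_antisymm h5 h4
  let f : (Q : Subgroup X) →* X ⧸ C := (QuotientGroup.mk' C).comp (Q : Subgroup X).subtype
  have hinj : Function.Injective f := by
    rw [injective_iff_map_eq_one]
    intro q hq
    have h1 : (q : X) ∈ C := (QuotientGroup.eq_one_iff (q : X)).mp hq
    have h2 : orderOf (q : X) ∣ orderOf x := by
      rw [← hCcard]
      have := orderOf_dvd_natCard (⟨(q : X), h1⟩ : C)
      rwa [← Subgroup.orderOf_coe] at this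
    have h3 : orderOf (q : X) ∣ p ^ k := by
      rw [← hQcard, Subgroup.orderOf_coe]
      exact orderOf_dvd_natCard q
    have h4 := Nat.eq_one_of_dvd_coprimes (Nat.Coprime.pow_right k ho) h2 h3
    exact Subtype.ext (orderOf_eq_one_iff.mp h4)
  have hbij : Function.Bijective f := by
    rw [Nat.bijective_iff_injective_and_card]
    exact ⟨hinj, by rw [hQcard, ← Subgroup.index_eq_card, hk]⟩
  let j : (Q : Subgroup X) ≃* X ⧸ C := MulEquiv.ofBijective f hbij
  refine ⟨x, Q, j.symm.toMonoidHom.comp (QuotientGroup.mk' C), hx, ho, Q.2, fun e => ?_⟩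
  have h1 : j (j.symm (QuotientGroup.mk' C e)) = QuotientGroup.mk' C e := j.apply_symm_apply _
  have h2 : ((j.symm (QuotientGroup.mk' C e) : (Q : Subgroup X)) : X ⧸ C)
      = (e : X ⧸ C) := h1
  have h3 := QuotientGroup.eq.mp h2
  have h4 := hn.conj_mem _ h3 (j.symm (QuotientGroup.mk' C e) : X)
  have h5 : e * ((j.symm (QuotientGroup.mk' C e) : (Q : Subgroup X)) : X)⁻¹ ∈ C := by
    convert h4 using 1
    group
  exact h5

theorem extend_of_retraction {X : Type u} [Group X] (C D Q : Subgroup X)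
    (hC : C ≤ Subgroup.center X) (hCD : C ≤ D) (ρ : X →* Q)
    (hρ : ∀ e : X, e * (ρ e : X)⁻¹ ∈ C) (hi : ∀ d ∈ D ⊓ Q, ∀ q ∈ Q, d * q = q * d)
    (hii : ∀ δ : (D ⊓ Q : Subgroup X) →* ℂˣ, ∃ μ : Q →* ℂˣ,
      ∀ z : (D ⊓ Q : Subgroup X), μ ⟨z, z.2.2⟩ = δ z) :
    (∀ d ∈ D, ∀ e : X, d * e = e * d) ∧ ∀ l : D →* ℂˣ, ∃ F : X →* ℂˣ, ∀ d : D, F d = l d := by
  have hcen : ∀ c ∈ C, ∀ y : X, c * y = y * c := fun c hc y =>
    (Subgroup.mem_center_iff.mp (hC hc) y).symm
  have hρD : ∀ d ∈ D, (ρ d : X) ∈ D ⊓ Q := by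
    intro d hd
    refine ⟨?_, (ρ d).2⟩
    have h1 := D.mul_mem (D.inv_mem (hCD (hρ d))) hd
    have h2 : (d * (ρ d : X)⁻¹)⁻¹ * d = (ρ d : X) := by group
    rw [h2] at h1
    exact h1
  constructor
  · intro d hd e
    have h1 := hi _ (hρD d hd) (ρ e : X) (ρ e).2
    have hd' : d = (d * (ρ d : X)⁻¹) * (ρ d : X) := by group
    have he' : e = (e * (ρ e : X)⁻¹) * (ρ e : X) := by group
    set c₁ := d * (ρ d : X)⁻¹ with hc₁
    set c₂ := e * (ρ e : X)⁻¹ with hc₂
    rw [hd', he']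
    calc c₁ * (ρ d : X) * (c₂ * (ρ e : X)) = c₁ * ((ρ d : X) * c₂) * (ρ e : X) := by group
      _ = c₁ * (c₂ * (ρ d : X)) * (ρ e : X) := by rw [hcen c₂ (hρ e)]
      _ = (c₁ * c₂) * ((ρ d : X) * (ρ e : X)) := by group
      _ = (c₂ * c₁) * ((ρ e : X) * (ρ d : X)) := by rw [h1, hcen c₁ (hρ d)]
      _ = c₂ * (c₁ * (ρ e : X)) * (ρ d : X) := by group
      _ = c₂ * ((ρ e : X) * c₁) * (ρ d : X) := by rw [hcen c₁ (hρ d)]
      _ = c₂ * (ρ e : X) * (c₁ * (ρ d : X)) := by group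
  · intro l
    let σ : X →* D :=
      { toFun := fun e => ⟨e * (ρ e : X)⁻¹, hCD (hρ e)⟩
        map_one' := by
          apply Subtype.ext
          simp
        map_mul' := by
          intro a b
          apply Subtype.ext
          show a * b * ((ρ (a * b) : Q) : X)⁻¹ = a * (ρ a : X)⁻¹ * (b * (ρ b : X)⁻¹)
          rw [map_mul, Subgroup.coe_mul, mul_inv_rev]
          calc a * b * ((ρ b : X)⁻¹ * (ρ a : X)⁻¹) = a * (b * (ρ b : X)⁻¹) * (ρ a : X)⁻¹ := by group
            _ = a * ((ρ a : X)⁻¹ * (b * (ρ b : X)⁻¹)) := by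
              rw [mul_assoc, hcen _ (hρ b)]
            _ = a * (ρ a : X)⁻¹ * (b * (ρ b : X)⁻¹) := by group }
    obtain ⟨μ, hμ⟩ := hii (l.comp (Subgroup.inclusion (inf_le_left : D ⊓ Q ≤ D)))
    refine ⟨(l.comp σ) * (μ.comp ρ), fun d => ?_⟩
    rw [MonoidHom.mul_apply, MonoidHom.comp_apply, MonoidHom.comp_apply]
    have h1 := hμ ⟨(ρ d : X), hρD d d.2⟩
    have h2 : μ (ρ (d : X)) = l ⟨(ρ d : X), (hρD d d.2).1⟩ := h1
    rw [h2, ← map_mul]
    congr 1
    apply Subtype.ext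
    show (d : X) * (ρ d : X)⁻¹ * (ρ d : X) = d
    group

end Cfsg.Agent.Lib.Helper25
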