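import Mathlib
import Cfsg.Agent.Lib.Helper25.FS5
import Cfsg.Agent.Lib.Helper25.FrobSchur3
import Cfsg.Agent.Lib.Helper25.PRes2
import Cfsg.Agent.Lib.Helper25.Monomial
import Cfsg.Agent.Lib.Helper7.BlockDefect

set_option autoImplicit false

namespace Cfsg.Agent.Lib.Helper25

open Cfsg
open scoped ComplexConjugate

universe u

variable {G : Type u} [Group G]

/-- the group of linear characters of square one -/
noncomputable def realLin (G : Type u) [Group G] : Subgroup (G →* ℂˣ) :=
  (powMonoidHom 2 : (G →* ℂˣ) →* (G →* ℂˣ)).ker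

theorem mem_realLin (f : G →* ℂˣ) : f ∈ realLin G ↔ ∀ g, (f g) ^ 2 = 1 := by
  unfold realLin
  rw [MonoidHom.mem_ker, powMonoidHom_apply]
  constructor
  · intro h g
    have := DFunLike.congr_fun h g
    simpa using this
  · intro h
    ext g
    have := h g
    simp [this]

theorem isPGroup_realLin : IsPGroup 2 (realLin G) := by
  intro f
  refine ⟨1, ?_⟩
  apply Subtype.ext
  have := f.2
  unfold realLin at this
  rw [MonoidHom.mem_ker, powMonoidHom_apply] at this
  simpa using this

theorem card_real_linear [Finite G] :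
    Nat.card {χ : IrrCharacter G // (χ : G → ℂ) 1 = 1 ∧ ∀ g, ((χ : G → ℂ) g).im = 0}
      = Nat.card (realLin G) := by
  symm
  refine Nat.card_congr (Equiv.ofBijective (fun f => ⟨⟨fun g => ((f : G →* ℂˣ) g : ℂ),
    Helper7.isIrrCharacter_of_hom _⟩, by simp, ?_⟩) ⟨?_, ?_⟩)
  · intro g
    have h := (mem_realLin _).1 f.2 g
    have h' : (((f : G →* ℂˣ) g : ℂˣ) : ℂ) ^ 2 = 1 := by
      have := congrArg (fun u : ℂˣ => (u : ℂ)) h
      simpa using this
    rcases sq_eq_one_iff.1 h' with h1 | h1 <;> simp [h1]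
  · intro f f' h
    apply Subtype.ext
    ext g
    exact congrFun (congrArg (fun z => (z.1.1 : G → ℂ)) h) g
  · rintro ⟨χ, h1, hre⟩
    obtain ⟨lam, hlam⟩ := Helper2.IsCharacter.exists_hom_of_apply_one
      (Helper2.IsIrrCharacter.isCharacter χ.2) h1
    refine ⟨⟨lam, (mem_realLin _).2 fun g => ?_⟩, ?_⟩
    · have hn := norm_linear_eq_one (Helper2.IsIrrCharacter.isCharacter χ.2) h1 g
      have hc : conj ((χ : G → ℂ) g) = (χ : G → ℂ) g := Complex.conj_eq_iff_im.2 (hre g)
      have h2 : (χ : G → ℂ) g * conj ((χ : G → ℂ) g) = 1 := by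
        rw [Complex.mul_conj, Complex.normSq_eq_norm_sq, hn]; simp
      rw [hc, hlam] at h2
      ext
      push_cast
      rw [pow_two]
      exact h2
    · apply Subtype.ext
      apply Subtype.ext
      funext g
      exact (hlam g).symm

/-- the sign character of a subgroup of index two -/
noncomputable def signOfIndexTwo (K : Subgroup G) (hK : K.index = 2) : G →* ℂˣ := by
  classical
  exact
  { toFun := fun g => if g ∈ K then 1 else -1
    map_one' := by simp [K.one_mem]
    map_mul' := by
      intro a b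
      have := Subgroup.mul_mem_iff_of_index_two hK (a := a) (b := b)
      by_cases ha : a ∈ K <;> by_cases hb : b ∈ K <;> simp [ha, hb, this] }

theorem signOfIndexTwo_apply (K : Subgroup G) (hK : K.index = 2) (g : G) :
    signOfIndexTwo K hK g = 1 ↔ g ∈ K := by
  classical
  unfold signOfIndexTwo
  simp only [MonoidHom.coe_mk, OneHom.coe_mk]
  by_cases h : g ∈ K
  · simp [h]
  · simp only [h, if_false, iff_false]
    intro h1
    have := congrArg (fun u : ℂˣ => (u : ℂ)) h1
    norm_num at this

theorem signOfIndexTwo_mem (K : Subgroup G) (hK : K.index = 2) :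
    signOfIndexTwo K hK ∈ realLin G := by
  classical
  rw [mem_realLin]
  intro g
  unfold signOfIndexTwo
  simp only [MonoidHom.coe_mk, OneHom.coe_mk]
  by_cases h : g ∈ K <;> simp [h]

theorem four_dvd_card_realLin [Finite G] (hG : IsPGroup 2 G) (hc : ¬ IsCyclic G) :
    4 ∣ Nat.card (realLin G) := by
  haveI : Fact (Nat.Prime 2) := ⟨Nat.prime_two⟩
  haveI := finite_hom_units (G := G)
  obtain ⟨n, hn⟩ := IsPGroup.iff_card.1 hG
  have hn0 : n ≠ 0 := by
    rintro rfl
    apply hc
    have : Subsingleton G := (Nat.card_eq_one_iff_unique.1 (by simpa using hn)).1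
    infer_instance
  obtain ⟨m, rfl⟩ := Nat.exists_eq_succ_of_ne_zero hn0
  have key : ∀ H : Subgroup G, H ≠ ⊤ → ∃ K : Subgroup G, K.index = 2 ∧ H ≤ K := by
    intro H hH
    obtain ⟨k, hk⟩ := IsPGroup.iff_card.1 (hG.to_subgroup H)
    have hkm : k ≤ m := by
      by_contra hcon
      push Not at hcon
      apply hH
      apply Subgroup.eq_top_of_le_card
      rw [hk, hn]
      exact Nat.pow_le_pow_right (by norm_num) hcon
    obtain ⟨K, hK, hHK⟩ := Sylow.exists_subgroup_card_pow_prime_le 2
      (n := k) (m := m) (by rw [hn]; exact pow_dvd_pow 2 (Nat.le_succ m)) H hk hkm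
    refine ⟨K, ?_, hHK⟩
    have := K.card_mul_index
    rw [hK, hn, pow_succ] at this
    exact Nat.eq_of_mul_eq_mul_left (by positivity) this
  obtain ⟨K₁, hK₁, -⟩ := key ⊥ (by
    intro h
    apply hc
    have : Subsingleton G := by
      rw [← Subgroup.subsingleton_iff] 
      exact subsingleton_of_bot_eq_top h
    infer_instance)
  have hK₁top : K₁ ≠ ⊤ := by
    intro h
    rw [h, Subgroup.index_top] at hK₁
    omega
  obtain ⟨x, hx⟩ : ∃ x, x ∉ K₁ := by
    by_contra hcon
    push Not at hcon
    exact hK₁top (eq_top_iff.2 fun x _ => hcon x)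
  obtain ⟨K₂, hK₂, hxK₂⟩ := key (Subgroup.zpowers x) (by
    intro h
    exact hc ⟨x, fun y => by
      have : y ∈ (⊤ : Subgroup G) := Subgroup.mem_top y
      rwa [← h] at this⟩)
  have hx2 : x ∈ K₂ := hxK₂ (Subgroup.mem_zpowers x)
  obtain ⟨y, hy⟩ : ∃ y, y ∉ K₂ := by
    by_contra hcon
    push Not at hcon
    have : K₂ = ⊤ := eq_top_iff.2 fun x _ => hcon x
    rw [this, Subgroup.index_top] at hK₂
    omega
  obtain ⟨j, hj⟩ := IsPGroup.iff_card.1 (isPGroup_realLin (G := G))
  rw [hj]
  have h3 : 3 ≤ Nat.card (realLin G) := by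
    classical
    let a : realLin G := ⟨_, signOfIndexTwo_mem K₁ hK₁⟩
    let b : realLin G := ⟨_, signOfIndexTwo_mem K₂ hK₂⟩
    have ha1 : a ≠ 1 := by
      intro h
      have := DFunLike.congr_fun (congrArg Subtype.val h) x
      exact hx ((signOfIndexTwo_apply K₁ hK₁ x).1 this)
    have hb1 : b ≠ 1 := by
      intro h
      have := DFunLike.congr_fun (congrArg Subtype.val h) y
      exact hy ((signOfIndexTwo_apply K₂ hK₂ y).1 this)
    have hab : a ≠ b := by
      intro h
      have h' := DFunLike.congr_fun (congrArg Subtype.val h) x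
      have h2 : signOfIndexTwo K₂ hK₂ x = 1 := (signOfIndexTwo_apply K₂ hK₂ x).2 hx2
      exact hx ((signOfIndexTwo_apply K₁ hK₁ x).1 (h'.trans h2))
    have : ({a, b, 1} : Finset (realLin G)).card = 3 := by
      rw [Finset.card_insert_of_notMem (by simp [hab, ha1]),
        Finset.card_insert_of_notMem (by simp [hb1]), Finset.card_singleton]
    rw [← this]
    cases nonempty_fintype (realLin G)
    rw [Nat.card_eq_fintype_card]
    exact Finset.card_le_univ _
  rw [hj] at h3
  have hj2 : 2 ≤ j := by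
    by_contra hcon
    push Not at hcon
    interval_cases j <;> omega
  exact pow_dvd_pow 2 hj2

theorem charDegree_conjIrr [Finite G] (χ : IrrCharacter G) :
    charDegree (conjIrr χ : G → ℂ) = charDegree (χ : G → ℂ) := by
  apply charDegree_eq
  rw [conjIrr_apply, apply_one_eq_charDegree χ.2]
  simp

open Classical in
theorem even_card_nonreal [Finite G] [Fintype (IrrCharacter G)] (d : ℕ) :
    Even (Finset.univ.filter (fun χ : IrrCharacter G =>
      charDegree (χ : G → ℂ) = d ∧ ¬ ∀ g, ((χ : G → ℂ) g).im = 0)).card := by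
  set S := Finset.univ.filter (fun χ : IrrCharacter G =>
      charDegree (χ : G → ℂ) = d ∧ ¬ ∀ g, ((χ : G → ℂ) g).im = 0) with hS
  have h := Finset.sum_involution (s := S) (f := fun _ => (1 : ZMod 2)) (fun χ _ => conjIrr χ)
    (fun _ _ => by decide)
    (fun χ hχ _ h => by
      rw [hS, Finset.mem_filter] at hχ
      apply hχ.2.2
      intro g
      have := congrFun (congrArg Subtype.val h) g
      rw [conjIrr_apply] at this
      exact Complex.conj_eq_iff_im.1 this)
    (fun χ hχ => by
      rw [hS, Finset.mem_filter] at hχ ⊢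
      refine ⟨Finset.mem_univ _, by rw [charDegree_conjIrr]; exact hχ.2.1, fun h => hχ.2.2 fun g => ?_⟩
      have := h g
      rw [conjIrr_apply, Complex.conj_im] at this
      linarith)
    (fun χ _ => conjIrr_conjIrr χ)
  rw [Finset.sum_const, nsmul_eq_mul, mul_one] at h
  exact even_iff_two_dvd.2 ((ZMod.natCast_eq_zero_iff _ _).1 h)

end Cfsg.Agent.Lib.Helper25
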