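import Cfsg.Agent.Lib.Helper25.CopAct1
import Cfsg.Agent.Lib.Helper25.CycExt2
import Cfsg.Agent.Lib.Helper25.FS5

set_option autoImplicit false

namespace Cfsg.Agent.Lib.Helper25

open scoped ComplexConjugate
open Cfsg

universe u

/-- Over an invariant character with cyclic quotient: all characters above are extensions and
there are exactly `index` of them. -/
theorem irr_over_cyclic {Γ : Type u} [Group Γ] [Fintype Γ] (G : Subgroup Γ) [hG : G.Normal]
    [Fintype G] (hcyc : IsCyclic (Γ ⧸ G)) {χ : G → ℂ} (hχ : IsIrrCharacter G χ)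
    (hinv : ∀ x : Γ, conjFun G χ x = χ) [Fintype (IrrCharacter Γ)]
    [DecidableEq (IrrCharacter Γ)] :
    (∀ ξ : IrrCharacter Γ, classInner (fun g : G => (ξ : Γ → ℂ) g) χ ≠ 0 →
      (fun g : G => (ξ : Γ → ℂ) g) = χ) ∧
    (Finset.univ.filter (fun ξ : IrrCharacter Γ =>
      classInner (fun g : G => (ξ : Γ → ℂ) g) χ ≠ 0)).card = G.index := by
  classical
  obtain ⟨χh, hχh, hext⟩ := exists_extension_of_cyclic_quotient G hcyc χ hχ
    (fun g n => congrFun (hinv g) n)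
  have hab : ∀ x y : Γ, x * y * x⁻¹ * y⁻¹ ∈ G := by
    intro x y
    letI := IsCyclic.commGroup (α := Γ ⧸ G)
    rw [← QuotientGroup.eq_one_iff]
    simp only [QuotientGroup.mk_mul, QuotientGroup.mk_inv]
    rw [mul_comm (x : Γ ⧸ G) y]
    simp
  have hχh0 : classInner (fun g : G => χh g) χ ≠ 0 := by
    have : (fun g : G => χh g) = χ := funext hext
    rw [this, Helper7.classInner_irr_self hχ]
    exact one_ne_zero
  have h1 : ∀ ξ : IrrCharacter Γ, classInner (fun g : G => (ξ : Γ → ℂ) g) χ ≠ 0 →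
      (fun g : G => (ξ : Γ → ℂ) g) = χ := by
    intro ξ hξ
    obtain ⟨f, hf, hfe⟩ := exists_linear_mul_of_abelian_quotient' G hab hχ hinv ξ.2 hχh hξ hχh0
    funext g
    rw [hfe]
    have : f (g : Γ) = 1 := hf g.2
    show ((f (g : Γ) : ℂˣ) : ℂ) * χh g = χ g
    rw [this, hext, Units.val_one, one_mul]
  refine ⟨h1, ?_⟩
  obtain ⟨m, hm, hsum⟩ := Helper7.character_eq_sum_nat
    (isCharacter_indFun G χ (Helper7.isCharacter_of_irr hχ))
  have h2 := congrFun hsum 1
  rw [indFun_one, Finset.sum_apply] at h2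
  have h3 : ∀ ξ : IrrCharacter Γ, (m ξ • (ξ : Γ → ℂ)) 1
      = if classInner (fun g : G => (ξ : Γ → ℂ) g) χ ≠ 0 then χ 1 else 0 := by
    intro ξ
    have h4 := hm ξ
    rw [frobenius_reciprocity G χ _
      (Helper7.isClassFunction_of_isCharacter (Helper7.isCharacter_of_irr ξ.2))] at h4
    split_ifs with h
    · rw [h1 ξ h, Helper7.classInner_irr_self hχ] at h4
      have h5 : m ξ = 1 := by exact_mod_cast h4.symm
      rw [h5, one_smul]
      exact congrFun (h1 ξ h) 1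
    · push Not at h
      rw [← classInner_conj_symm, h, map_zero] at h4
      have h5 : m ξ = 0 := by exact_mod_cast h4.symm
      rw [h5, zero_smul]
      rfl
  simp_rw [h3] at h2
  rw [← Finset.sum_filter, Finset.sum_const, nsmul_eq_mul] at h2
  have h6 := mul_right_cancel₀ (Helper7.irr_apply_one_ne_zero hχ) h2
  exact_mod_cast h6.symm

/-- arithmetic heart -/
theorem frob_arith {ι : Type*} (S : Finset ι) (a : ι → ℕ) (e : ℕ) (hs : 2 ≤ S.card)
    (h1 : ∑ i ∈ S, a i = e) (h2 : S.card * ∑ i ∈ S, (a i) ^ 2 = e ^ 2 + S.card - 1) :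
    (S.card : ℤ) ∣ (e : ℤ) - 1 ∨ (S.card : ℤ) ∣ (e : ℤ) + 1 := by
  set s := S.card with hsdef
  set q : ℤ := (e : ℤ) / s with hq
  set r : ℤ := (e : ℤ) % s with hr
  have hs0 : (0 : ℤ) < s := by exact_mod_cast (by omega : 0 < s)
  have her : (e : ℤ) = s * q + r := (Int.mul_ediv_add_emod _ _).symm
  have hr0 : 0 ≤ r := Int.emod_nonneg _ hs0.ne'
  have hrs : r < s := Int.emod_lt_of_pos _ hs0
  have hT : 0 ≤ ∑ i ∈ S, ((a i : ℤ) - q) * ((a i : ℤ) - q - 1) := by
    apply Finset.sum_nonneg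
    intro i _
    rcases le_or_gt ((a i : ℤ) - q) 0 with h | h
    · nlinarith
    · have : 1 ≤ (a i : ℤ) - q := h
      nlinarith
  have h1' : ∑ i ∈ S, (a i : ℤ) = e := by exact_mod_cast h1
  have h2' : (s : ℤ) * ∑ i ∈ S, (a i : ℤ) ^ 2 = (e : ℤ) ^ 2 + s - 1 := by
    have h3 : s * ∑ i ∈ S, (a i) ^ 2 + 1 = e ^ 2 + s := by omega
    have h4 : (s : ℤ) * ∑ i ∈ S, (a i : ℤ) ^ 2 + 1 = (e : ℤ) ^ 2 + s := by exact_mod_cast h3
    linarith
  have hexp : ∑ i ∈ S, ((a i : ℤ) - q) * ((a i : ℤ) - q - 1)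
      = ∑ i ∈ S, (a i : ℤ) ^ 2 - (2 * q + 1) * ∑ i ∈ S, (a i : ℤ) + s * (q ^ 2 + q) := by
    rw [Finset.mul_sum, ← Finset.sum_sub_distrib]
    have : (s : ℤ) * (q ^ 2 + q) = ∑ _i ∈ S, (q ^ 2 + q) := by
      rw [Finset.sum_const, nsmul_eq_mul]
    rw [this, ← Finset.sum_add_distrib]
    apply Finset.sum_congr rfl
    intro i _
    ring
  rw [hexp, h1'] at hT
  have hkey : 0 ≤ (r - 1) * (r + 1 - s) := by
    have h5 : (s : ℤ) * (∑ i ∈ S, (a i : ℤ) ^ 2 - (2 * q + 1) * e + s * (q ^ 2 + q))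
        = (r - 1) * (r + 1 - s) := by
      rw [mul_add, mul_sub, h2', her]
      ring
    rw [← h5]
    exact mul_nonneg hs0.le hT
  by_cases hr00 : r = 0
  · exfalso
    have h6 : (s : ℤ) ∣ e := by
      rw [her, hr00, add_zero]
      exact dvd_mul_right _ _
    have h7 : (s : ℤ) ∣ (e : ℤ) ^ 2 + s - 1 := ⟨_, h2'.symm⟩
    have h8 : (s : ℤ) ∣ 1 := by
      have h9 : (s : ℤ) ∣ (e : ℤ) ^ 2 + s := dvd_add (dvd_pow h6 two_ne_zero) dvd_rfl
      have := dvd_sub h9 h7
      simpa using this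
    have := Int.le_of_dvd one_pos h8
    have hs2 : (2 : ℤ) ≤ s := by exact_mod_cast hs
    omega
  · have hr1 : 1 ≤ r := by omega
    by_cases hr11 : r = 1
    · left
      rw [her, hr11]
      simp
    · by_cases hr12 : r = s - 1
      · right
        rw [her, hr12]
        refine ⟨q + 1, by ring⟩
      · exfalso
        have a1 : 0 < r - 1 := by omega
        have a2 : r + 1 - s < 0 := by omega
        nlinarith

end Cfsg.Agent.Lib.Helper25
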