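import Cfsg.Agent.Lib.Helper25.Frob1
import Cfsg.Agent.Lib.Helper2.CharDeg

set_option autoImplicit false

namespace Cfsg.Agent.Lib.Helper25

open scoped ComplexConjugate
open Cfsg

universe u

variable {Γ : Type u} [Group Γ] [Fintype Γ]

theorem indFun_ti_off (C N : Subgroup Γ)
    (hTI : ∀ c ∈ C, c ∉ N → ∀ y : Γ, y⁻¹ * c * y ∈ C → y ∈ C) {ψ : C → ℂ}
    (hψ : IsClassFunction C ψ) (c : C) (hc : (c : Γ) ∉ N) : indFun C ψ c = ψ c := by
  classical
  have : Fintype C := Fintype.ofFinite _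
  have hCc : (Nat.card C : ℂ) ≠ 0 := by exact_mod_cast Nat.card_pos.ne'
  rw [indFun_apply]
  have h1 : ∀ y : Γ, extendByZero C ψ (y⁻¹ * c * y) = if y ∈ C then ψ c else 0 := by
    intro y
    split_ifs with hy
    · have hm : y⁻¹ * c * y ∈ C := C.mul_mem (C.mul_mem (C.inv_mem hy) c.2) hy
      rw [extendByZero_mem C ψ hm]
      have := hψ c (⟨y, hy⟩⁻¹ : C)
      rw [← this]
      congr 1
      apply Subtype.ext
      simp
    · rw [extendByZero_not_mem]
      intro hm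
      exact hy (hTI c c.2 hc y hm)
  simp_rw [h1]
  rw [← Finset.sum_filter, Finset.sum_const, nsmul_eq_mul]
  have h2 : (Finset.univ.filter (fun y : Γ => y ∈ C)).card = Nat.card C := by
    rw [Nat.card_eq_fintype_card, Fintype.card_subtype]
  rw [h2, ← mul_assoc, inv_mul_cancel₀ hCc, one_mul]

theorem indFun_inv_on (C N : Subgroup Γ) [hN : N.Normal] (hNC : N ≤ C) {ψ : C → ℂ}
    (hinv : ∀ (y : Γ) (n : N), ψ ⟨y * n * y⁻¹, hNC (hN.conj_mem n n.2 y)⟩ = ψ ⟨n, hNC n.2⟩)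
    (n : N) : indFun C ψ n = (C.index : ℂ) * ψ ⟨n, hNC n.2⟩ := by
  classical
  have hCc : (Nat.card C : ℂ) ≠ 0 := by exact_mod_cast Nat.card_pos.ne'
  rw [indFun_apply]
  have h1 : ∀ y : Γ, extendByZero C ψ (y⁻¹ * n * y) = ψ ⟨n, hNC n.2⟩ := by
    intro y
    have hm : y⁻¹ * n * y ∈ N := by
      have := hN.conj_mem n n.2 y⁻¹
      simpa using this
    rw [extendByZero_mem C ψ (hNC hm), ← hinv y⁻¹ n]
    congr 1
    apply Subtype.ext
    simp
  simp_rw [h1]
  rw [Finset.sum_const, nsmul_eq_mul, Finset.card_univ, ← Nat.card_eq_fintype_card,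
    ← C.card_mul_index]
  push_cast
  field_simp

/-- the norm of a character induced from a "TI modulo `N`" subgroup -/
theorem card_mul_norm_indFun_ti (C N : Subgroup Γ) [hN : N.Normal] (hNC : N ≤ C)
    (hTI : ∀ c ∈ C, c ∉ N → ∀ y : Γ, y⁻¹ * c * y ∈ C → y ∈ C) {ψ : C → ℂ}
    (hψ : IsIrrCharacter C ψ) (hres : IsIrrCharacter N (fun n : N => ψ ⟨n, hNC n.2⟩))
    (hinv : ∀ (y : Γ) (n : N), ψ ⟨y * n * y⁻¹, hNC (hN.conj_mem n n.2 y)⟩ = ψ ⟨n, hNC n.2⟩) :
    (Nat.card C : ℂ) * classInner (indFun C ψ) (indFun C ψ)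
      = (Nat.card C : ℂ) + ((C.index : ℂ) - 1) * (Nat.card N : ℂ) := by
  classical
  have : Fintype C := Fintype.ofFinite _
  have : Fintype N := Fintype.ofFinite _
  have hCc : (Nat.card C : ℂ) ≠ 0 := by exact_mod_cast Nat.card_pos.ne'
  have hcf := Helper7.isClassFunction_of_isCharacter (Helper7.isCharacter_of_irr hψ)
  rw [frobenius_reciprocity C ψ _ (indFun_isClassFunction C ψ)]
  unfold classInner
  rw [← mul_assoc, mul_inv_cancel₀ hCc, one_mul]
  have h1 : ∀ c : C, ψ c * conj (indFun C ψ c)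
      = ψ c * conj (ψ c) + if (c : Γ) ∈ N then ((C.index : ℂ) - 1) * (ψ c * conj (ψ c)) else 0 := by
    intro c
    split_ifs with hc
    · have := indFun_inv_on C N hNC hinv ⟨c, hc⟩
      simp only at this
      rw [this, map_mul, Complex.conj_natCast]
      ring
    · rw [indFun_ti_off C N hTI hcf c hc, add_zero]
  simp_rw [h1]
  rw [Finset.sum_add_distrib, Helper2.sum_char_mul_conj hψ]
  congr 1
  rw [← Finset.sum_filter, ← Finset.mul_sum, ← Helper2.sum_char_mul_conj hres]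
  congr 1
  symm
  apply Finset.sum_bij (fun (n : N) _ => (⟨n, hNC n.2⟩ : C))
  · intro n _
    simp
  · intro a _ b _ hab
    apply Subtype.ext
    exact congrArg (fun z : C => (z : Γ)) hab
  · intro c hc
    exact ⟨⟨c, (Finset.mem_filter.mp hc).2⟩, Finset.mem_univ _, rfl⟩
  · intro n _
    rfl

end Cfsg.Agent.Lib.Helper25
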