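import Cfsg.Agent.Lib.Helper25.Hecke9
import Cfsg.Agent.Lib.Helper25.Glaub18
import Cfsg.Agent.Lib.Helper25.GalSum
import Cfsg.Agent.Lib.Helper11.GalChar

set_option autoImplicit false

namespace Cfsg.Agent.Lib.Helper25

open Cfsg
open scoped ComplexConjugate

universe u v

variable {G : Type u} [Group G] [Fintype G] {Ω : Type v} [MulAction G Ω]

theorem fixedBy_pow_coprime (g : G) {j : ℕ} (hj : j.Coprime (Nat.card G)) :
    MulAction.fixedBy Ω (g ^ j) = MulAction.fixedBy Ω g := by
  obtain ⟨k, -, hk⟩ := exists_pow_pow_eq g hj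
  have key : ∀ (x : G) (i : ℕ) (y : Ω), x • y = y → (x ^ i) • y = y := by
    intro x i y hy
    induction i with
    | zero => simp
    | succ i ih => rw [pow_succ, mul_smul, hy, ih]
  ext y
  simp only [MulAction.mem_fixedBy]
  constructor
  · intro h
    have := key (g ^ j) k y h
    rwa [hk] at this
  · intro h
    exact key g j y h

theorem classInner_perm_pow (χ : G → ℂ) {j : ℕ} (hj : j.Coprime (Nat.card G)) :
    classInner (fun g : G => (Nat.card (MulAction.fixedBy Ω g) : ℂ)) (fun g => χ (g ^ j))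
      = classInner (fun g : G => (Nat.card (MulAction.fixedBy Ω g) : ℂ)) χ := by
  unfold classInner
  congr 1
  apply Fintype.sum_equiv (powCoprime hj.symm)
  intro g
  simp only [powCoprime_apply]
  rw [fixedBy_pow_coprime g hj]

theorem int_valued_of_unique {χ : G → ℂ} (hχ : IsIrrCharacter G χ) (hχ1 : χ ≠ fun _ => 1)
    (hc : classInner (fun g : G => (Nat.card (MulAction.fixedBy Ω g) : ℂ)) χ ≠ 0)
    (huniq : ∀ ψ : G → ℂ, IsIrrCharacter G ψ → ψ ≠ (fun _ => 1) →
      classInner (fun g : G => (Nat.card (MulAction.fixedBy Ω g) : ℂ)) ψ ≠ 0 → ψ 1 = χ 1 → ψ = χ)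
    (g : G) : ∃ z : ℤ, χ g = z := by
  have hpow : ∀ j : ℕ, j.Coprime (Nat.card G) → ∀ x : G, χ (x ^ j) = χ x := by
    intro j hj x
    have h1 := huniq (fun g => χ (g ^ j)) (Helper11.isIrrCharacter_pow_coprime hχ hj) ?_
      (by rw [classInner_perm_pow χ hj]; exact hc) (by simp)
    · exact congrFun h1 x
    · intro h
      apply hχ1
      funext y
      obtain ⟨k, -, hk⟩ := exists_pow_pow_eq y hj
      have := congrFun h (y ^ k)
      rwa [← pow_mul, mul_comm, pow_mul, hk] at this
  obtain ⟨n, ρ, -, rfl⟩ := hχ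
  obtain ⟨μ, h1, h2, h3, -⟩ := Helper24.exists_roots_of_unity ρ g
  have := exists_int_of_conj_fixed (n := Nat.card G) Nat.card_pos.ne' (fun _ => 1) μ
    (by
      intro i
      obtain ⟨c, hc⟩ := orderOf_dvd_natCard g
      rw [hc, pow_mul, h1, one_pow])
    (by
      intro k hk
      simp only [Nat.cast_one, one_mul]
      rw [← h2, ← h3]
      exact hpow k hk g)
  simpa [h3] using this

end Cfsg.Agent.Lib.Helper25
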