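import Cfsg.Agent.Lib.Helper25.Hecke10
import Mathlib.GroupTheory.GroupAction.Primitive

set_option autoImplicit false

namespace Cfsg.Agent.Lib.Helper25

open Cfsg
open scoped ComplexConjugate

universe u v

theorem wielandt_pos (m k x : ℤ) (hm : 2 ≤ m) (hk : 2 ≤ k) (hx : 0 ≤ x) :
    0 < (m - 1) * (2 * m - 1) * x ^ 2 + 4 * k * (m - 1) * x + 2 * k ^ 2 - 2 * k := by
  have h1 : 0 ≤ (m - 1) * (2 * m - 1) * x ^ 2 :=
    mul_nonneg (mul_nonneg (by omega) (by omega)) (sq_nonneg x)
  have h2 : 0 ≤ 4 * k * (m - 1) * x := mul_nonneg (mul_nonneg (by omega) (by omega)) hx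
  have h3 : 0 < 2 * k ^ 2 - 2 * k := by nlinarith
  linarith

theorem wielandt_arith (m k c₁ c₂ : ℤ) (hm : 2 ≤ m) (hk : 2 ≤ k) (hl : 2 ≤ 2 * m - 1 - k)
    (E1 : k + (m - 1) * c₁ + m * c₂ = 0)
    (E2 : k * k + (m - 1) * (c₁ * c₁) + m * (c₂ * c₂) = 2 * m * k) :
    (2 * k - (2 * m - 1)) ^ 2 = 2 * m - 1 := by
  obtain ⟨t, ht⟩ : ∃ t, t = c₁ + c₂ := ⟨_, rfl⟩
  have h1 : c₁ = k + m * t := by rw [ht]; linear_combination -E1
  have h2 : c₂ = -k - (m - 1) * t := by rw [ht]; linear_combination E1
  have hP : (m - 1) * (2 * m - 1) * t ^ 2 + 4 * k * (m - 1) * t + 2 * k ^ 2 - 2 * k = 0 := by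
    have hm0 : m ≠ 0 := by omega
    apply mul_left_cancel₀ hm0
    rw [h1, h2] at E2
    linear_combination E2
  have hP' : (m - 1) * (2 * m - 1) * (-2 - t) ^ 2 + 4 * (2 * m - 1 - k) * (m - 1) * (-2 - t)
      + 2 * (2 * m - 1 - k) ^ 2 - 2 * (2 * m - 1 - k) = 0 := by
    linear_combination hP
  have ht1 : t = -1 := by
    rcases lt_trichotomy t (-1) with h | h | h
    · exfalso
      have h3 : 0 ≤ -2 - t := by omega
      have := wielandt_pos m (2 * m - 1 - k) (-2 - t) hm hl h3
      omega
    · exact h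
    · exfalso
      have h3 : 0 ≤ t := by omega
      have := wielandt_pos m k t hm hk h3
      omega
  rw [ht1] at hP
  linear_combination 2 * hP

theorem fixes_all_of_fixes {G : Type u} [Group G] [Finite G] {Ω : Type v} [MulAction G Ω]
    (hprim : MulAction.IsPreprimitive G Ω) (a b : Ω) (hab : b ≠ a)
    (hfix : ∀ h ∈ MulAction.stabilizer G a, h • b = b) :
    ∀ h ∈ MulAction.stabilizer G a, ∀ y : Ω, h • y = y := by
  have := hprim.toIsPretransitive
  obtain ⟨g, hg⟩ := MulAction.exists_smul_eq G a b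
  have h1 : ∀ h ∈ MulAction.stabilizer G a, g⁻¹ * h * g ∈ MulAction.stabilizer G a := by
    intro h hh
    rw [MulAction.mem_stabilizer_iff, mul_smul, mul_smul, hg, hfix h hh, ← hg, inv_smul_smul]
  have hgN : g⁻¹ ∈ Subgroup.normalizer ((MulAction.stabilizer G a : Subgroup G) : Set G) := by
    rw [Subgroup.mem_normalizer_iff]
    intro x
    rw [inv_inv]
    constructor
    · exact h1 x
    · intro hx
      let φ : MulAction.stabilizer G a → MulAction.stabilizer G a :=
        fun h => ⟨g⁻¹ * h * g, h1 h h.2⟩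
      have hinj : Function.Injective φ := by
        intro h k e
        have e' : g⁻¹ * (h : G) * g = g⁻¹ * (k : G) * g := congrArg Subtype.val e
        exact Subtype.ext (mul_left_cancel (mul_right_cancel e'))
      obtain ⟨h, hh⟩ := (Finite.injective_iff_surjective.1 hinj) ⟨_, hx⟩
      have e' : g⁻¹ * (h : G) * g = g⁻¹ * x * g := congrArg Subtype.val hh
      rw [← mul_left_cancel (mul_right_cancel e')]
      exact h.2
  have hblock : MulAction.IsBlock G (MulAction.orbit
      (Subgroup.normalizer ((MulAction.stabilizer G a : Subgroup G) : Set G)) a) :=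
    MulAction.IsBlock.of_orbit Subgroup.le_normalizer
  have haB : a ∈ MulAction.orbit
      (Subgroup.normalizer ((MulAction.stabilizer G a : Subgroup G) : Set G)) a :=
    MulAction.mem_orbit_self _
  have hbB : b ∈ MulAction.orbit
      (Subgroup.normalizer ((MulAction.stabilizer G a : Subgroup G) : Set G)) a := by
    refine ⟨⟨g, ?_⟩, hg⟩
    have := Subgroup.inv_mem _ hgN
    rwa [inv_inv] at this
  rcases hprim.isTrivialBlock_of_isBlock hblock with h | h
  · exact absurd (h hbB haB) hab
  · intro k hk y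
    have hy : y ∈ MulAction.orbit
      (Subgroup.normalizer ((MulAction.stabilizer G a : Subgroup G) : Set G)) a := by
      rw [h]; trivial
    obtain ⟨⟨x, hx⟩, hxy⟩ := hy
    have hxy' : x • a = y := hxy
    have hx' := Subgroup.inv_mem _ hx
    have h2 := (Subgroup.mem_normalizer_iff.1 hx' k).1 hk
    rw [inv_inv, MulAction.mem_stabilizer_iff, mul_smul, mul_smul, hxy', inv_smul_eq_iff,
      hxy'] at h2
    exact h2

theorem not_fixes {G : Type u} [Group G] [Finite G] {Ω : Type v} [Fintype Ω] [MulAction G Ω]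
    (hprim : MulAction.IsPreprimitive G Ω) {m : ℕ} (hm : Fintype.card Ω = 2 * m) (a : Ω)
    (hrank : Nat.card (MulAction.orbitRel.Quotient (MulAction.stabilizer G a) Ω) = 3)
    (b : Ω) (hab : b ≠ a) : ¬ ∀ h ∈ MulAction.stabilizer G a, h • b = b := by
  classical
  intro hfix
  have hall := fixes_all_of_fixes hprim a b hab hfix
  have : Fintype (MulAction.orbitRel.Quotient (MulAction.stabilizer G a) Ω) := Fintype.ofFinite _
  have h1 := card_eq_sum_orbits (Ω := Ω) (MulAction.stabilizer G a)
  have h2 : ∀ ω : MulAction.orbitRel.Quotient (MulAction.stabilizer G a) Ω,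
      Nat.card ω.orbit = 1 := by
    intro ω
    induction ω using Quotient.inductionOn' with
    | h y =>
      rw [MulAction.orbitRel.Quotient.orbit_mk]
      have : MulAction.orbit (MulAction.stabilizer G a) y = {y} := by
        ext z
        constructor
        · rintro ⟨h, hh⟩
          have h3 : (h : G) • y = z := hh
          rw [← h3, hall h h.2 y]
          rfl
        · rintro rfl
          exact MulAction.mem_orbit_self _
      rw [this]
      simp
  rw [Finset.sum_congr rfl (fun ω _ => h2 ω), Finset.sum_const, Finset.card_univ, hm] at h1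
  rw [Nat.card_eq_fintype_card] at hrank
  rw [hrank] at h1
  simp only [smul_eq_mul] at h1
  omega

end Cfsg.Agent.Lib.Helper25
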