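import Cfsg.Agent.Lib.Helper25.Hecke11

set_option autoImplicit false

namespace Cfsg.Agent.Lib.Helper25

open Cfsg
open scoped ComplexConjugate

universe u v

variable {G : Type u} [Group G] {Ω : Type v} [MulAction G Ω]

theorem orbit_stab_inv (a b : Ω) : ∀ h ∈ MulAction.stabilizer G a, ∀ y,
    h • y ∈ MulAction.orbit (MulAction.stabilizer G a) b ↔
      y ∈ MulAction.orbit (MulAction.stabilizer G a) b := by
  intro h hh y
  constructor
  · rintro ⟨k, hk⟩
    refine ⟨(⟨h, hh⟩ : MulAction.stabilizer G a)⁻¹ * k, ?_⟩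
    have hk' : (k : G) • b = h • y := hk
    show ((⟨h, hh⟩ : MulAction.stabilizer G a)⁻¹ * k : MulAction.stabilizer G a).1 • b = y
    simp only [Subgroup.coe_mul, Subgroup.coe_inv, mul_smul, hk', inv_smul_smul]
  · rintro ⟨k, hk⟩
    refine ⟨(⟨h, hh⟩ : MulAction.stabilizer G a) * k, ?_⟩
    have hk' : (k : G) • b = y := hk
    show ((⟨h, hh⟩ : MulAction.stabilizer G a) * k : MulAction.stabilizer G a).1 • b = h • y
    simp only [Subgroup.coe_mul, mul_smul, hk']

theorem not_mem_orbit_stab (a b : Ω) (hab : b ≠ a) :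
    a ∉ MulAction.orbit (MulAction.stabilizer G a) b := by
  rintro ⟨h, hh⟩
  apply hab
  have h1 : (h : G) • b = a := hh
  have h2 : (h : G) • a = a := h.2
  exact smul_left_cancel (h : G) (h1.trans h2.symm)

theorem two_le_card_orbit [Finite G] [Fintype Ω]
    (hprim : MulAction.IsPreprimitive G Ω) {m : ℕ} (hm : Fintype.card Ω = 2 * m) (a : Ω)
    (hrank : Nat.card (MulAction.orbitRel.Quotient (MulAction.stabilizer G a) Ω) = 3)
    (b : Ω) (hab : b ≠ a) : 2 ≤ Nat.card (MulAction.orbit (MulAction.stabilizer G a) b) := by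
  by_contra hlt
  have hne : Nonempty (MulAction.orbit (MulAction.stabilizer G a) b) :=
    ⟨⟨b, MulAction.mem_orbit_self _⟩⟩
  have hpos : 0 < Nat.card (MulAction.orbit (MulAction.stabilizer G a) b) := Nat.card_pos
  have h1 : Nat.card (MulAction.orbit (MulAction.stabilizer G a) b) = 1 := by omega
  obtain ⟨hs, -⟩ := Nat.card_eq_one_iff_unique.1 h1
  apply not_fixes hprim hm a hrank b hab
  intro h hh
  have h2 : h • b ∈ MulAction.orbit (MulAction.stabilizer G a) b :=
    ⟨⟨h, hh⟩, rfl⟩
  have := hs.elim (⟨h • b, h2⟩ : MulAction.orbit (MulAction.stabilizer G a) b)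
    ⟨b, MulAction.mem_orbit_self _⟩
  exact congrArg Subtype.val this

theorem exists_third_orbit [Fintype Ω] {m : ℕ} (hm : Fintype.card Ω = 2 * m) (a : Ω)
    (hrank : Nat.card (MulAction.orbitRel.Quotient (MulAction.stabilizer G a) Ω) = 3)
    (b : Ω) (hab : b ≠ a) : ∃ c : Ω, c ≠ a ∧
      2 * m = 1 + Nat.card (MulAction.orbit (MulAction.stabilizer G a) b)
        + Nat.card (MulAction.orbit (MulAction.stabilizer G a) c) := by
  classical
  have : Fintype (MulAction.orbitRel.Quotient (MulAction.stabilizer G a) Ω) := Fintype.ofFinite _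
  have h1 := card_eq_sum_orbits (Ω := Ω) (MulAction.stabilizer G a)
  set qa : MulAction.orbitRel.Quotient (MulAction.stabilizer G a) Ω := Quotient.mk'' a with hqa
  set qb : MulAction.orbitRel.Quotient (MulAction.stabilizer G a) Ω := Quotient.mk'' b with hqb
  have hqa1 : Nat.card qa.orbit = 1 := by
    rw [hqa, MulAction.orbitRel.Quotient.orbit_mk]
    have : MulAction.orbit (MulAction.stabilizer G a) a = {a} := by
      ext y
      constructor
      · rintro ⟨h, hh⟩
        have h1 : (h : G) • a = y := hh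
        rw [← h1, h.2]
        rfl
      · rintro rfl
        exact MulAction.mem_orbit_self _
    rw [this]
    simp
  have hne : qb ≠ qa := by
    intro h
    have h2 : b ∈ MulAction.orbit (MulAction.stabilizer G a) a := Quotient.eq''.1 h
    obtain ⟨k, hk⟩ := h2
    have h3 : (k : G) • a = b := hk
    rw [k.2] at h3
    exact hab h3.symm
  have hmem : qb ∈ Finset.univ.erase qa := Finset.mem_erase.2 ⟨hne, Finset.mem_univ _⟩
  have hcard : ((Finset.univ.erase qa).erase qb).card = 1 := by
    rw [Finset.card_erase_of_mem hmem, Finset.card_erase_of_mem (Finset.mem_univ _),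
      Finset.card_univ, ← Nat.card_eq_fintype_card, hrank]
  obtain ⟨qc, hqc⟩ := Finset.card_eq_one.1 hcard
  rw [← Finset.add_sum_erase _ _ (Finset.mem_univ qa), ← Finset.add_sum_erase _ _ hmem, hqc,
    Finset.sum_singleton, hqa1, hm, hqb, MulAction.orbitRel.Quotient.orbit_mk] at h1
  have hqc' : qc ∈ (Finset.univ.erase qa).erase qb := by rw [hqc]; exact Finset.mem_singleton_self _
  have hqca : qc ≠ qa := (Finset.mem_erase.1 (Finset.mem_erase.1 hqc').2).1
  induction qc using Quotient.inductionOn' with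
  | h c =>
    refine ⟨c, ?_, ?_⟩
    · rintro rfl
      exact hqca rfl
    · rw [MulAction.orbitRel.Quotient.orbit_mk] at h1
      omega

end Cfsg.Agent.Lib.Helper25
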