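import Cfsg.Agent.Lib.Helper25.Hecke6

set_option autoImplicit false

namespace Cfsg.Agent.Lib.Helper25

open Cfsg
open scoped ComplexConjugate

universe u v

variable {G : Type u} [Group G] [Fintype G] {Ω : Type v} [Fintype Ω] [MulAction G Ω]

omit [Fintype G] in
theorem card_fixedBy_eq [DecidableEq Ω] (g : G) :
    Nat.card (MulAction.fixedBy Ω g) = ∑ x : Ω, if g • x = x then 1 else 0 := by
  rw [← Finset.sum_filter, Finset.sum_const, smul_eq_mul, mul_one, Nat.card_eq_fintype_card,
    Fintype.card_subtype]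
  rfl

theorem sum_fixedBy_sq [DecidableEq Ω] :
    ∑ g : G, Nat.card (MulAction.fixedBy Ω (g * g))
      = ∑ x : Ω, ∑ y : Ω, (Finset.univ.filter (fun g : G => g • x = y ∧ g • y = x)).card := by
  have h1 : ∀ g : G, Nat.card (MulAction.fixedBy Ω (g * g))
      = ∑ x : Ω, ∑ y : Ω, if g • x = y ∧ g • y = x then 1 else 0 := by
    intro g
    rw [card_fixedBy_eq]
    apply Finset.sum_congr rfl
    intro x _
    rw [Finset.sum_eq_single (g • x)]
    · simp [mul_smul]
    · intro y _ hy
      rw [if_neg]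
      rintro ⟨h, -⟩
      exact hy h.symm
    · intro h
      exact absurd (Finset.mem_univ _) h
  rw [Finset.sum_congr rfl (fun g _ => h1 g), Finset.sum_comm]
  apply Finset.sum_congr rfl
  intro x _
  rw [Finset.sum_comm]
  apply Finset.sum_congr rfl
  intro y _
  rw [Finset.card_filter]

theorem sum_fixedBy_mul [DecidableEq Ω] :
    ∑ g : G, Nat.card (MulAction.fixedBy Ω g) * Nat.card (MulAction.fixedBy Ω g)
      = ∑ x : Ω, ∑ y : Ω, (Finset.univ.filter (fun g : G => g • x = x ∧ g • y = y)).card := by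
  have h1 : ∀ g : G, Nat.card (MulAction.fixedBy Ω g) * Nat.card (MulAction.fixedBy Ω g)
      = ∑ x : Ω, ∑ y : Ω, if g • x = x ∧ g • y = y then 1 else 0 := by
    intro g
    rw [card_fixedBy_eq, Finset.sum_mul_sum]
    apply Finset.sum_congr rfl
    intro x _
    apply Finset.sum_congr rfl
    intro y _
    by_cases hx : g • x = x <;> by_cases hy : g • y = y <;> simp [hx, hy]
  rw [Finset.sum_congr rfl (fun g _ => h1 g), Finset.sum_comm]
  apply Finset.sum_congr rfl
  intro x _
  rw [Finset.sum_comm]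
  apply Finset.sum_congr rfl
  intro y _
  rw [Finset.card_filter]

omit [Fintype Ω] in
theorem card_swap_eq [DecidableEq Ω] (x y : Ω) (g₀ : G) (h1 : g₀ • x = y) (h2 : g₀ • y = x) :
    (Finset.univ.filter (fun g : G => g • x = y ∧ g • y = x)).card
      = (Finset.univ.filter (fun g : G => g • x = x ∧ g • y = y)).card := by
  symm
  apply Finset.card_bij (fun g _ => g₀ * g)
  · intro g hg
    obtain ⟨ha, hb⟩ := (Finset.mem_filter.1 hg).2
    rw [Finset.mem_filter]
    exact ⟨Finset.mem_univ _, by rw [mul_smul, ha, h1], by rw [mul_smul, hb, h2]⟩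
  · intro g _ k _ e
    exact mul_left_cancel e
  · intro g hg
    obtain ⟨ha, hb⟩ := (Finset.mem_filter.1 hg).2
    refine ⟨g₀⁻¹ * g, ?_, by simp⟩
    rw [Finset.mem_filter]
    refine ⟨Finset.mem_univ _, ?_, ?_⟩
    · rw [mul_smul, ha, ← h1, inv_smul_smul]
    · rw [mul_smul, hb, ← h2, inv_smul_smul]

theorem swap_iff_sum_eq :
    (∀ a b : Ω, ∃ g : G, g • a = b ∧ g • b = a) ↔
      ∑ g : G, Nat.card (MulAction.fixedBy Ω (g * g))
        = ∑ g : G, Nat.card (MulAction.fixedBy Ω g) * Nat.card (MulAction.fixedBy Ω g) := by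
  classical
  rw [sum_fixedBy_sq, sum_fixedBy_mul]
  have hle : ∀ x y : Ω, (Finset.univ.filter (fun g : G => g • x = y ∧ g • y = x)).card
      ≤ (Finset.univ.filter (fun g : G => g • x = x ∧ g • y = y)).card := by
    intro x y
    by_cases h : ∃ g : G, g • x = y ∧ g • y = x
    · obtain ⟨g₀, h1, h2⟩ := h
      exact (card_swap_eq x y g₀ h1 h2).le
    · rw [Finset.card_eq_zero.2]
      · exact Nat.zero_le _
      · rw [Finset.filter_eq_empty_iff]
        intro g _ hg
        exact h ⟨g, hg⟩
  constructor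
  · intro h
    apply Finset.sum_congr rfl
    intro x _
    apply Finset.sum_congr rfl
    intro y _
    obtain ⟨g₀, h1, h2⟩ := h x y
    exact card_swap_eq x y g₀ h1 h2
  · intro h a b
    have h1 := (Finset.sum_eq_sum_iff_of_le
      (fun x _ => Finset.sum_le_sum (fun y _ => hle x y))).1 h a (Finset.mem_univ _)
    have h2 := (Finset.sum_eq_sum_iff_of_le (fun y _ => hle a y)).1 h1 b (Finset.mem_univ _)
    have h3 : 0 < (Finset.univ.filter (fun g : G => g • a = a ∧ g • b = b)).card := by
      apply Finset.card_pos.2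
      exact ⟨1, by simp⟩
    rw [← h2] at h3
    obtain ⟨g, hg⟩ := Finset.card_pos.1 h3
    exact ⟨g, (Finset.mem_filter.1 hg).2⟩

theorem swap_iff_fsInd :
    (∀ a b : Ω, ∃ g : G, g • a = b ∧ g • b = a) ↔
      fsInd (fun g : G => (Nat.card (MulAction.fixedBy Ω g) : ℂ))
        = classInner (fun g : G => (Nat.card (MulAction.fixedBy Ω g) : ℂ))
          (fun g : G => (Nat.card (MulAction.fixedBy Ω g) : ℂ)) := by
  have hG : (Nat.card G : ℂ)⁻¹ ≠ 0 := by
    apply inv_ne_zero
    exact_mod_cast Nat.card_pos.ne'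
  rw [swap_iff_sum_eq]
  unfold fsInd classInner
  simp only [map_natCast]
  constructor
  · intro h
    congr 1
    exact_mod_cast h
  · intro h
    have := mul_left_cancel₀ hG h
    exact_mod_cast this

end Cfsg.Agent.Lib.Helper25
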