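import Cfsg.Agent.Lib.Helper25.Hecke12
import Cfsg.Agent.S0717

set_option autoImplicit false

namespace Cfsg.Agent.Lib.Helper25

open Cfsg
open scoped ComplexConjugate

universe u v

variable {G : Type u} [Group G] [Fintype G] {Ω : Type v} [Fintype Ω] [MulAction G Ω]

theorem wielandt_key (hprim : MulAction.IsPreprimitive G Ω) {m : ℕ}
    (hm : Fintype.card Ω = 2 * m) (a₀ : Ω)
    (hrank : Nat.card (MulAction.orbitRel.Quotient (MulAction.stabilizer G a₀) Ω) = 3)
    (χ₁ χ₂ : G → ℂ) (h₁ : IsIrrCharacter G χ₁) (h₂ : IsIrrCharacter G χ₂)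
    (hπ : (fun g : G => (Nat.card (MulAction.fixedBy Ω g) : ℂ)) = fun g => 1 + χ₁ g + χ₂ g)
    (hd₁ : χ₁ 1 = (m : ℂ) - 1) (hd₂ : χ₂ 1 = m) (b : Ω) (hb : b ≠ a₀) :
    (2 * (Nat.card (MulAction.orbit (MulAction.stabilizer G a₀) b) : ℤ) - (2 * (m : ℤ) - 1)) ^ 2
      = 2 * (m : ℤ) - 1 := by
  classical
  have := hprim.toIsPretransitive
  have : Fintype (IrrCharacter G) := Fintype.ofFinite _
  have h₀ : IsIrrCharacter G (fun _ => (1 : ℂ)) := Helper7.isIrrCharacter_one
  have hinner : ∀ ψ : G → ℂ, IsIrrCharacter G ψ →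
      classInner (fun g : G => (Nat.card (MulAction.fixedBy Ω g) : ℂ)) ψ
        = (if (fun _ => (1 : ℂ)) = ψ then 1 else 0) + (if χ₁ = ψ then 1 else 0)
          + (if χ₂ = ψ then 1 else 0) := by
    intro ψ hψ
    have : (fun g : G => (Nat.card (MulAction.fixedBy Ω g) : ℂ)) = (fun _ => (1 : ℂ)) + χ₁ + χ₂ := by
      rw [hπ]; rfl
    rw [this, classInner_add_left, classInner_add_left, Helper7.classInner_irr h₀ hψ,
      Helper7.classInner_irr h₁ hψ, Helper7.classInner_irr h₂ hψ]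
  have h12 : χ₁ ≠ χ₂ := by
    intro h
    rw [h, hd₂] at hd₁
    have : (0 : ℂ) = -1 := by linear_combination hd₁
    norm_num at this
  obtain ⟨mm, -, hmm, -, hmm1, -, -⟩ := perm_mult_data (G := G) a₀
  have hπ1 : classInner (fun g : G => (Nat.card (MulAction.fixedBy Ω g) : ℂ)) (fun _ => 1) = 1 := by
    have := hmm ⟨fun _ => 1, h₀⟩
    rw [hmm1] at this
    simpa using this
  have h01 : (fun _ => (1 : ℂ)) ≠ χ₁ := by
    intro h
    have h3 := hinner _ h₀
    rw [hπ1, if_pos rfl, if_pos h.symm] at h3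
    split_ifs at h3 <;> norm_num at h3
  have h02 : (fun _ => (1 : ℂ)) ≠ χ₂ := by
    intro h
    have h3 := hinner _ h₀
    rw [hπ1, if_pos rfl, if_pos h.symm] at h3
    split_ifs at h3 <;> norm_num at h3
  have hc1 : classInner (fun g : G => (Nat.card (MulAction.fixedBy Ω g) : ℂ)) χ₁ = 1 := by
    rw [hinner _ h₁, if_neg h01, if_pos rfl, if_neg h12.symm]; norm_num
  have hc2 : classInner (fun g : G => (Nat.card (MulAction.fixedBy Ω g) : ℂ)) χ₂ = 1 := by
    rw [hinner _ h₂, if_neg h02, if_neg h12, if_pos rfl]; norm_num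
  have hcases : ∀ ψ : G → ℂ, IsIrrCharacter G ψ →
      classInner (fun g : G => (Nat.card (MulAction.fixedBy Ω g) : ℂ)) ψ ≠ 0 →
      ψ = (fun _ => 1) ∨ ψ = χ₁ ∨ ψ = χ₂ := by
    intro ψ hψ h0
    by_contra hcon
    push Not at hcon
    apply h0
    rw [hinner _ hψ, if_neg hcon.1.symm, if_neg hcon.2.1.symm, if_neg hcon.2.2.symm]
    norm_num
  have hmf : ∀ χ : G → ℂ, IsIrrCharacter G χ →
      classInner (fun g : G => (Nat.card (MulAction.fixedBy Ω g) : ℂ)) χ = 0 ∨
      classInner (fun g : G => (Nat.card (MulAction.fixedBy Ω g) : ℂ)) χ = 1 := by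
    intro χ hχ
    by_cases h0 : classInner (fun g : G => (Nat.card (MulAction.fixedBy Ω g) : ℂ)) χ = 0
    · exact Or.inl h0
    · right
      rcases hcases χ hχ h0 with h | h | h
      · rw [h]; exact hπ1
      · rw [h]; exact hc1
      · rw [h]; exact hc2
  have hint1 : ∀ g, ∃ z : ℤ, χ₁ g = z := by
    apply int_valued_of_unique (Ω := Ω) h₁ h01.symm (by rw [hc1]; exact one_ne_zero)
    intro ψ hψ hψ1 hψ0 hdeg
    rcases hcases ψ hψ hψ0 with h | h | h
    · exact absurd h hψ1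
    · exact h
    · exfalso
      rw [h, hd₂, hd₁] at hdeg
      have : (0 : ℂ) = -1 := by linear_combination hdeg
      norm_num at this
  have hint2 : ∀ g, ∃ z : ℤ, χ₂ g = z := by
    apply int_valued_of_unique (Ω := Ω) h₂ h02.symm (by rw [hc2]; exact one_ne_zero)
    intro ψ hψ hψ1 hψ0 hdeg
    rcases hcases ψ hψ hψ0 with h | h | h
    · exact absurd h hψ1
    · exfalso
      rw [h, hd₂, hd₁] at hdeg
      have : (0 : ℂ) = 1 := by linear_combination hdeg
      norm_num at this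
    · exact h
  have hswap : ∀ a b : Ω, ∃ g : G, g • a = b ∧ g • b = a := by
    rw [Cfsg.Agent.S0717.result]
    intro χ hχ h0
    refine ⟨(hmf χ hχ).resolve_left h0, ?_⟩
    intro g
    rcases hcases χ hχ h0 with h | h | h
    · rw [h]; simp
    · obtain ⟨z, hz⟩ := hint1 g
      rw [h, hz]; simp
    · obtain ⟨z, hz⟩ := hint2 g
      rw [h, hz]; simp
  set O := MulAction.orbit (MulAction.stabilizer G a₀) b with hOdef
  have hO := orbit_stab_inv (G := G) a₀ b
  have ha := not_mem_orbit_stab (G := G) a₀ b hb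
  have hsp : ∀ g : G, g • a₀ ∈ O → g⁻¹ • a₀ ∈ O := by
    intro g hg
    obtain ⟨x, hx1, hx2⟩ := hswap a₀ (g • a₀)
    have hh : g⁻¹ * x ∈ MulAction.stabilizer G a₀ := by
      rw [MulAction.mem_stabilizer_iff, mul_smul, hx1, inv_smul_smul]
    have h3 : g⁻¹ • a₀ = (g⁻¹ * x) • (g • a₀) := by
      rw [mul_smul, hx2]
    rw [h3]
    exact (hO _ hh _).2 hg
  let c : IrrCharacter G → ℂ := fun χ => (Nat.card (MulAction.stabilizer G a₀) : ℂ)⁻¹ *
      ∑ g : G, if g • a₀ ∈ O then (χ : G → ℂ) g else 0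
  have E1 := sum_degree_mul_hecke (G := G) a₀ O ha
  have E2 := sum_degree_mul_sq hmf a₀ O hO hsp
  let X₀ : IrrCharacter G := ⟨fun _ => 1, h₀⟩
  let X₁ : IrrCharacter G := ⟨χ₁, h₁⟩
  let X₂ : IrrCharacter G := ⟨χ₂, h₂⟩
  have hX01 : X₀ ≠ X₁ := fun h => h01 (congrArg Subtype.val h)
  have hX02 : X₀ ≠ X₂ := fun h => h02 (congrArg Subtype.val h)
  have hX12 : X₁ ≠ X₂ := fun h => h12 (congrArg Subtype.val h)
  have hczero : ∀ χ : IrrCharacter G, χ ∉ ({X₀, X₁, X₂} : Finset (IrrCharacter G)) → c χ = 0 := by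
    intro χ hχ
    have h0 : classInner (fun g : G => (Nat.card (MulAction.fixedBy Ω g) : ℂ)) (χ : G → ℂ) = 0 := by
      by_contra h0
      apply hχ
      simp only [Finset.mem_insert, Finset.mem_singleton]
      rcases hcases χ χ.2 h0 with h | h | h
      · exact Or.inl (Subtype.ext h)
      · exact Or.inr (Or.inl (Subtype.ext h))
      · exact Or.inr (Or.inr (Subtype.ext h))
    obtain ⟨n, ρ, -, hρ⟩ := χ.2
    rw [classInner_perm_eq a₀ (Helper7.isClassFunction_of_isCharacter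
      (Helper7.isCharacter_of_irr χ.2))] at h0
    have hH : (Nat.card (MulAction.stabilizer G a₀) : ℂ)⁻¹ ≠ 0 := by
      apply inv_ne_zero
      exact_mod_cast Nat.card_pos.ne'
    have h0' : ∑ h : MulAction.stabilizer G a₀, ρ.character h = 0 := by
      have h1 := (mul_eq_zero.1 h0).resolve_left hH
      have h2 := congrArg conj h1
      rw [map_sum, map_zero] at h2
      simpa [hρ] using h2
    have := hecke_sum_eq_zero ρ a₀ O hO h0'
    simp only [c, ← hρ]
    exact this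
  have hsplit : ∀ F : IrrCharacter G → ℂ, (∀ χ, c χ = 0 → F χ = 0) →
      ∑ χ, F χ = F X₀ + F X₁ + F X₂ := by
    intro F hF
    rw [← Finset.sum_subset (Finset.subset_univ ({X₀, X₁, X₂} : Finset (IrrCharacter G)))
      (fun χ _ hχ => hF χ (hczero χ hχ)),
      Finset.sum_insert (by simp [hX01, hX02]), Finset.sum_pair hX12, add_assoc]
  have hc0 : c X₀ = (Nat.card O : ℂ) := hecke_one a₀ O
  have hcint : ∀ (χ : IrrCharacter G), (∀ g, ∃ z : ℤ, (χ : G → ℂ) g = z) → ∃ z : ℤ, c χ = z := by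
    intro χ hz
    choose z hz using hz
    obtain ⟨n, ρ, -, hρ⟩ := χ.2
    apply Helper2.exists_int_of_isIntegral_of_rat (q := (Nat.card (MulAction.stabilizer G a₀) : ℚ)⁻¹ *
      ∑ g : G, if g • a₀ ∈ O then (z g : ℚ) else 0)
    · have := isIntegral_hecke_sum ρ a₀ O hO
      simp only [c, ← hρ]
      exact this
    · simp only [c, hz]
      push_cast
      congr 1
      apply Finset.sum_congr rfl
      intro g _
      split_ifs <;> simp
  obtain ⟨z₁, hz₁⟩ := hcint X₁ hint1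
  obtain ⟨z₂, hz₂⟩ := hcint X₂ hint2
  have E1' : (Nat.card O : ℂ) + ((m : ℂ) - 1) * z₁ + (m : ℂ) * z₂ = 0 := by
    have := hsplit (fun χ => (χ : G → ℂ) 1 * c χ) (fun χ h => by simp only [h, mul_zero])
    rw [hc0, hz₁, hz₂] at this
    have e : ∑ χ : IrrCharacter G, (χ : G → ℂ) 1 * c χ = 0 := E1
    rw [e] at this
    have hX0 : (X₀ : G → ℂ) 1 = 1 := rfl
    have hX1 : (X₁ : G → ℂ) 1 = (m : ℂ) - 1 := hd₁
    have hX2 : (X₂ : G → ℂ) 1 = (m : ℂ) := hd₂
    rw [hX0, hX1, hX2, one_mul] at this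
    exact this.symm
  have E2' : (Nat.card O : ℂ) * (Nat.card O : ℂ) + ((m : ℂ) - 1) * ((z₁ : ℂ) * z₁)
      + (m : ℂ) * ((z₂ : ℂ) * z₂) = 2 * (m : ℂ) * (Nat.card O : ℂ) := by
    have := hsplit (fun χ => (χ : G → ℂ) 1 * (c χ * c χ))
      (fun χ h => by simp only [h, mul_zero])
    rw [hc0, hz₁, hz₂] at this
    have e : ∑ χ : IrrCharacter G, (χ : G → ℂ) 1 * (c χ * c χ)
        = (Fintype.card Ω : ℂ) * (Nat.card O : ℂ) := E2
    rw [e, hm] at this
    have hX0 : (X₀ : G → ℂ) 1 = 1 := rfl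
    have hX1 : (X₁ : G → ℂ) 1 = (m : ℂ) - 1 := hd₁
    have hX2 : (X₂ : G → ℂ) 1 = (m : ℂ) := hd₂
    rw [hX0, hX1, hX2, one_mul] at this
    push_cast at this
    exact this.symm
  have hk2 := two_le_card_orbit hprim hm a₀ hrank b hb
  obtain ⟨c', hc'a, hc'⟩ := exists_third_orbit (G := G) hm a₀ hrank b hb
  have hl2 := two_le_card_orbit hprim hm a₀ hrank c' hc'a
  have hc'' : 2 * m = 1 + Nat.card O
      + Nat.card (MulAction.orbit (MulAction.stabilizer G a₀) c') := hc'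
  have hk2' : 2 ≤ Nat.card O := hk2
  apply wielandt_arith (m : ℤ) (Nat.card O : ℤ) z₁ z₂
  · omega
  · exact_mod_cast hk2
  · omega
  · exact_mod_cast E1'
  · exact_mod_cast E2'

end Cfsg.Agent.Lib.Helper25
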