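import Cfsg.Agent.Lib.Helper25.Hecke5
import Cfsg.Agent.Lib.Helper25.FrobSchur4

set_option autoImplicit false

namespace Cfsg.Agent.Lib.Helper25

open Cfsg Matrix
open scoped ComplexConjugate

universe u v

section fixed

variable {G : Type u} [Group G] [Fintype G] {n : ℕ}

omit [Fintype G] in
theorem form_inv {ρ : Representation ℂ G (Fin n → ℂ)} {M : Matrix (Fin n) (Fin n) ℂ}
    (hM : IsInvForm ρ M) (g : G) (x w : Fin n → ℂ) :
    (ρ g x) ⬝ᵥ (M *ᵥ (ρ g w)) = x ⬝ᵥ (M *ᵥ w) := by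
  rw [← mat_mulVec, ← mat_mulVec, ← Matrix.vecMul_transpose, ← Matrix.dotProduct_mulVec,
    Matrix.mulVec_mulVec, Matrix.mulVec_mulVec, hM g]

/-- a real irreducible character with a one-dimensional space of `H`-fixed vectors has
Frobenius-Schur indicator `1` -/
theorem fsInd_eq_one_of_fixed (ρ : Representation ℂ G (Fin n → ℂ)) [hirr : ρ.IsIrreducible]
    (hreal : ∀ g, ρ.character g⁻¹ = ρ.character g) (H : Subgroup G) [Fintype H]
    (h1 : ∑ h : H, ρ.character h = Nat.card H) : fsInd ρ.character = 1 := by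
  classical
  obtain ⟨⟨M, hM0, hM⟩, hpm, hT⟩ := fs_real ρ hreal
  rcases hpm with h | h
  · exact h
  exfalso
  have hMT : Mᵀ = -M := by rw [hT M hM, h]; simp
  have hH : (Nat.card H : ℂ) ≠ 0 := by exact_mod_cast Nat.card_pos.ne'
  let e : Module.End ℂ (Fin n → ℂ) := (Nat.card H : ℂ)⁻¹ • ∑ h : H, ρ h
  have hmul : ∀ k : H, ρ k * ∑ h : H, ρ h = ∑ h : H, ρ h := by
    intro k
    rw [Finset.mul_sum]
    apply Fintype.sum_equiv (Equiv.mulLeft k)
    intro h
    simp [map_mul]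
  have he : IsIdempotentElem e := by
    show e * e = e
    have : (∑ h : H, ρ (h : G)) * (∑ h : H, ρ (h : G)) = (Nat.card H : ℂ) • ∑ h : H, ρ (h : G) := by
      rw [Finset.sum_mul, Finset.sum_congr rfl (fun k _ => hmul k), Finset.sum_const,
        Finset.card_univ, ← Nat.card_eq_fintype_card, Nat.cast_smul_eq_nsmul]
    simp only [e]
    rw [smul_mul_smul_comm, this, smul_smul, mul_assoc, inv_mul_cancel₀ hH, mul_one]
  have htr : LinearMap.trace ℂ _ e = 1 := by
    simp only [e]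
    rw [map_smul, map_sum]
    have : ∑ h : H, LinearMap.trace ℂ _ (ρ (h : G)) = ∑ h : H, ρ.character h := rfl
    rw [this, h1, smul_eq_mul, inv_mul_cancel₀ hH]
  have hrank : Module.finrank ℂ (LinearMap.range e) = 1 := by
    have := (LinearMap.IsIdempotentElem.isProj_range e he).trace
    rw [htr] at this
    exact_mod_cast this.symm
  obtain ⟨⟨v, hvr⟩, hv0, hspan⟩ := finrank_eq_one_iff'.1 hrank
  have hv0' : v ≠ 0 := fun h => hv0 (Subtype.ext h)
  have hfix : ∀ k : H, ρ k v = v := by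
    intro k
    obtain ⟨w, rfl⟩ := hvr
    simp only [e, LinearMap.smul_apply, map_smul]
    rw [← Module.End.mul_apply, hmul k]
  have hself : ∀ x : Fin n → ℂ, x ⬝ᵥ (M *ᵥ x) = 0 := by
    intro x
    have h2 : x ⬝ᵥ (M *ᵥ x) = (Mᵀ *ᵥ x) ⬝ᵥ x := by
      rw [Matrix.dotProduct_mulVec, Matrix.mulVec_transpose]
    rw [hMT, Matrix.neg_mulVec, neg_dotProduct, dotProduct_comm (M *ᵥ x) x] at h2
    have h3 : (2 : ℂ) * (x ⬝ᵥ (M *ᵥ x)) = 0 := by linear_combination h2
    exact (mul_eq_zero.1 h3).resolve_left two_ne_zero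
  have hzero : ∀ w : Fin n → ℂ, v ⬝ᵥ (M *ᵥ w) = 0 := by
    intro w
    have h2 : ∀ k : H, v ⬝ᵥ (M *ᵥ (ρ k w)) = v ⬝ᵥ (M *ᵥ w) := by
      intro k
      have := form_inv hM (k : G) v w
      rwa [hfix k] at this
    have h3 : v ⬝ᵥ (M *ᵥ (e w)) = v ⬝ᵥ (M *ᵥ w) := by
      simp only [e, LinearMap.smul_apply, LinearMap.sum_apply, Matrix.mulVec_smul,
        Matrix.mulVec_sum, dotProduct_smul, dotProduct_sum]
      rw [Finset.sum_congr rfl (fun k _ => h2 k), Finset.sum_const, Finset.card_univ,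
        ← Nat.card_eq_fintype_card, nsmul_eq_mul, smul_eq_mul, ← mul_assoc, inv_mul_cancel₀ hH,
        one_mul]
    obtain ⟨c, hc⟩ := hspan ⟨e w, LinearMap.mem_range_self e w⟩
    have hc' : c • v = e w := congrArg Subtype.val hc
    rw [← h3, ← hc', Matrix.mulVec_smul, dotProduct_smul, hself v, smul_zero]
  have hMv : Mᵀ *ᵥ v = 0 := by
    funext i
    have := hzero (Pi.single i 1)
    rw [Matrix.dotProduct_mulVec, dotProduct_single, mul_one, ← Matrix.mulVec_transpose] at this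
    exact this
  rw [hMT, Matrix.neg_mulVec, neg_eq_zero] at hMv
  have hu := hM.isUnit hM0
  rw [← Matrix.mulVec_injective_iff_isUnit] at hu
  exact hv0' (hu (by rw [hMv, Matrix.mulVec_zero]))

end fixed

end Cfsg.Agent.Lib.Helper25
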