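import Mathlib
import Cfsg.Agent.Lib.Helper25.NilpHall
import Cfsg.Agent.Lib.Helper25.Conj
import Cfsg.Agent.Lib.Helper25.IndChar
import Cfsg.Agent.Lib.Helper11.GenChar
import Cfsg.Agent.Lib.Helper2.Brauer7

set_option autoImplicit false

namespace Cfsg.Agent.Lib.Helper25

open Cfsg

universe u

theorem indFun_restrict_normal {E : Type u} [Group E] [Fintype E] (B : Subgroup E) [B.Normal]
    {φ : E → ℂ} (hφ : IsClassFunction E φ) (x : E) :
    indFun B (fun b : B => φ b) x = (open Classical in if x ∈ B then (B.index : ℂ) * φ x else 0) := by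
  classical
  by_cases hx : x ∈ B
  · rw [if_pos hx, indFun_apply]
    have h1 : ∀ y : E, extendByZero B (fun b : B => φ b) (y⁻¹ * x * y) = φ x := by
      intro y
      have hy : y⁻¹ * x * y ∈ B := by
        have := ‹B.Normal›.conj_mem x hx y⁻¹
        simpa using this
      rw [extendByZero_mem _ _ hy]
      have := hφ x y⁻¹
      simpa using this
    simp only [h1, Finset.sum_const, Finset.card_univ, nsmul_eq_mul]
    have h2 := B.card_mul_index
    have h3 : (Nat.card B : ℂ) ≠ 0 := by exact_mod_cast Nat.card_pos.ne'
    rw [← Nat.card_eq_fintype_card, ← h2]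
    push_cast
    field_simp
  · rw [if_neg hx]
    exact indFun_not_mem (H := B) _ hx

/-- `p^a χ` on `p`-regular elements, `0` elsewhere, is a generalized character. -/
theorem genChar_preg {G : Type u} [Group G] [Finite G] (p : ℕ) [Fact p.Prime] {χ : G → ℂ}
    (hχ : IsCharacter G χ) :
    IsGeneralizedCharacter G (fun x : G => if p ∣ orderOf x then 0 else
      ((p ^ (Nat.card G).factorization p : ℕ) : ℂ) * χ x) := by
  classical
  have hp : p.Prime := Fact.out
  have hcf := Helper7.isClassFunction_of_isCharacter hχ
  apply Helper2.brauer_characterization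
  · intro g h
    have h1 : orderOf (h * g * h⁻¹) = orderOf g := by
      have := orderOf_injective (MulAut.conj h).toMonoidHom (MulAut.conj h).injective g
      simpa using this
    simp only [h1, hcf g h]
  · intro E q hq hE
    haveI := Helper2.IsElementary.isNilpotent hq hE
    have : Fintype E := Fintype.ofFinite E
    have hG0 : Nat.card G ≠ 0 := Nat.card_pos.ne'
    have hcop : (ordCompl[p] (Nat.card G)).Coprime (ordProj[p] (Nat.card G)) :=
      (Nat.Coprime.pow_left _ (Nat.coprime_ordCompl hp hG0)).symm
    obtain ⟨B, hBn, hB1, hB2⟩ := exists_normal_hall_of_nilpotent E hcop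
      (by rw [mul_comm, Nat.ordProj_mul_ordCompl_eq_self]; exact Subgroup.card_subgroup_dvd_card E)
    obtain ⟨c, hc⟩ := hB2
    have hmem : ∀ x : E, x ∈ B ↔ ¬ p ∣ orderOf (x : G) := by
      intro x
      rw [mem_iff_pow_eq_one_of_hall B hcop hB1 ⟨c, hc⟩ x, ← orderOf_dvd_iff_pow_eq_one,
        Subgroup.orderOf_coe]
      constructor
      · intro h1 h2
        exact Nat.not_dvd_ordCompl hp hG0 (dvd_trans h2 h1)
      · intro h1
        have h2 : orderOf x ∣ ordProj[p] (Nat.card G) * ordCompl[p] (Nat.card G) := by
          rw [Nat.ordProj_mul_ordCompl_eq_self, ← Subgroup.orderOf_coe]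
          exact orderOf_dvd_natCard _
        refine Nat.Coprime.dvd_of_dvd_mul_left ?_ h2
        exact Nat.Coprime.pow_right _ ((Nat.Prime.coprime_iff_not_dvd hp).2 h1).symm
    have hres := Helper7.isCharacter_restrict (Helper7.isCharacter_restrict hχ E) B
    have hind := isCharacter_indFun B _ hres
    have heq : (fun e : E => if p ∣ orderOf (e : G) then 0 else
        ((p ^ (Nat.card G).factorization p : ℕ) : ℂ) * χ e) =
        c • indFun B (fun b : B => χ ((b : E) : G)) := by
      funext e
      have hcfE : IsClassFunction E (fun e : E => χ e) :=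
        Helper7.isClassFunction_of_isCharacter (Helper7.isCharacter_restrict hχ E)
      rw [Pi.smul_apply, indFun_restrict_normal B hcfE e]
      by_cases he : e ∈ B
      · rw [if_pos he, if_neg ((hmem e).1 he), hc]
        simp only [nsmul_eq_mul]
        push_cast
        ring
      · rw [if_neg he, if_pos (by by_contra h; exact he ((hmem e).2 h))]
        simp
    rw [heq]
    exact Helper11.genChar_nsmul (Helper11.genChar_of_char hind) c

end Cfsg.Agent.Lib.Helper25
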