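import Mathlib
import Cfsg.Agent.Lib.Helper25.FrobSchur

set_option autoImplicit false

namespace Cfsg.Agent.Lib.Helper25

open Cfsg Matrix
open scoped ComplexConjugate ComplexOrder

variable {G : Type*} [Group G] {n : ℕ}

/-- Entrywise complex conjugation of matrices. -/
noncomputable abbrev cj : Matrix (Fin n) (Fin n) ℂ →+* Matrix (Fin n) (Fin n) ℂ :=
  (starRingEnd ℂ).mapMatrix

theorem cj_cj (X : Matrix (Fin n) (Fin n) ℂ) : cj (cj X) = X := by
  ext i j; simp [cj]

theorem cj_transpose (X : Matrix (Fin n) (Fin n) ℂ) : cj Xᵀ = Xᴴ := by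
  ext i j; simp [cj, conjTranspose_apply]

theorem cj_eq (X : Matrix (Fin n) (Fin n) ℂ) : cj X = (Xᴴ)ᵀ := by
  ext i j; simp [cj, conjTranspose_apply]

theorem cj_smul (c : ℂ) (X : Matrix (Fin n) (Fin n) ℂ) : cj (c • X) = conj c • cj X := by
  ext i j; simp [cj]

theorem hilbert90_mat (N : Matrix (Fin n) (Fin n) ℂ) (hN : N * cj N = 1) :
    ∃ P : Matrix (Fin n) (Fin n) ℂ, IsUnit P.det ∧ N * cj P = P := by
  have hden : ∀ t : ℝ, (1 - Complex.I * t : ℂ) ≠ 0 := by
    intro t h
    have := congrArg Complex.re h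
    simp at this
  have hinj : Function.Injective
      (fun t : ℝ => -((1 + Complex.I * t) / (1 - Complex.I * t) : ℂ)) := by
    intro t s hts
    simp only [neg_inj] at hts
    rw [div_eq_div_iff (hden t) (hden s)] at hts
    have h2 : (2 * Complex.I) * ((t : ℂ) - s) = 0 := by linear_combination hts
    have h3 : (2 * Complex.I : ℂ) ≠ 0 := by simp
    have h4 := (mul_eq_zero.1 h2).resolve_left h3
    exact_mod_cast sub_eq_zero.1 h4
  obtain ⟨t, ht⟩ : ∃ t : ℝ, ¬ (N.charpoly).IsRoot
      (-((1 + Complex.I * t) / (1 - Complex.I * t) : ℂ)) := by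
    by_contra hcon
    push Not at hcon
    apply (Matrix.charpoly_monic N).ne_zero
    apply Polynomial.eq_zero_of_infinite_isRoot
    refine (Set.infinite_range_of_injective hinj).mono ?_
    rintro _ ⟨t, rfl⟩
    exact hcon t
  refine ⟨(1 + Complex.I * t : ℂ) • 1 + (1 - Complex.I * t : ℂ) • N, ?_, ?_⟩
  · have e : (1 + Complex.I * t : ℂ) • (1 : Matrix (Fin n) (Fin n) ℂ) + (1 - Complex.I * t : ℂ) • N
        = (-(1 - Complex.I * t : ℂ)) •
          (Matrix.scalar _ (-((1 + Complex.I * t) / (1 - Complex.I * t) : ℂ)) - N) := by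
      rw [smul_sub, Matrix.scalar_apply, ← Matrix.smul_one_eq_diagonal, smul_smul]
      have : (-(1 - Complex.I * t : ℂ)) * (-((1 + Complex.I * t) / (1 - Complex.I * t) : ℂ))
          = 1 + Complex.I * t := by
        field_simp [hden t]
      rw [this, neg_smul, sub_neg_eq_add]
    rw [e, Matrix.det_smul, ← Matrix.eval_charpoly]
    rw [isUnit_iff_ne_zero]
    exact mul_ne_zero (pow_ne_zero _ (neg_ne_zero.2 (hden t))) ht
  · rw [map_add, cj_smul, cj_smul, map_one, mul_add, Matrix.mul_smul, Matrix.mul_smul, hN,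
      Matrix.mul_one, add_comm]
    congr 2
    · simp
    · simp; ring

end Cfsg.Agent.Lib.Helper25
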