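import Mathlib
import Cfsg.Agent.Lib.Helper25.RealRep1

set_option autoImplicit false

namespace Cfsg.Agent.Lib.Helper25

open Cfsg Matrix
open scoped ComplexConjugate ComplexOrder

variable {G : Type*} [Group G] {n : ℕ}

theorem exists_real_form [Fintype G] (R : G → Matrix (Fin n) (Fin n) ℂ) (hn : 0 < n)
    (hmul : ∀ g h, R (g * h) = R g * R h) (hone : R 1 = 1)
    (hschur : ∀ K : Matrix (Fin n) (Fin n) ℂ, (∀ g, R g * K = K * R g) → ∃ c : ℂ, K = c • 1)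
    (M : Matrix (Fin n) (Fin n) ℂ) (hMu : IsUnit M.det) (hMs : Mᵀ = M)
    (hM : ∀ g, M * R g = (R g⁻¹)ᵀ * M) :
    ∃ P : Matrix (Fin n) (Fin n) ℂ, IsUnit P.det ∧
      ∀ g, cj (P⁻¹ * R g * P) = P⁻¹ * R g * P := by
  set H : Matrix (Fin n) (Fin n) ℂ := ∑ g, (R g)ᴴ * R g with hHdef
  have hRinj : ∀ g, Function.Injective (R g).mulVec := by
    intro g x y hxy
    have := congrArg (fun v => (R g⁻¹) *ᵥ v) hxy
    simpa only [Matrix.mulVec_mulVec, ← hmul, inv_mul_cancel, hone, Matrix.one_mulVec] using this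
  have hHpd : H.PosDef :=
    Matrix.posDef_sum Finset.univ_nonempty
      (fun g _ => Matrix.PosDef.conjTranspose_mul_self (R g) (hRinj g))
  have hHd : IsUnit H.det := (Matrix.isUnit_iff_isUnit_det H).1 hHpd.isUnit
  have hHinv : ∀ g, (R g)ᴴ * H * R g = H := by
    intro h
    rw [hHdef, Finset.mul_sum, Finset.sum_mul]
    refine Fintype.sum_equiv (Equiv.mulRight h) _ _ (fun g => ?_)
    simp only [Equiv.coe_mulRight, hmul, Matrix.conjTranspose_mul, Matrix.mul_assoc]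
  have hH : ∀ g, H * R g = (R g⁻¹)ᴴ * H := by
    intro g
    calc H * R g = ((R g⁻¹)ᴴ * H * R g⁻¹) * R g := by rw [hHinv]
      _ = (R g⁻¹)ᴴ * H * (R g⁻¹ * R g) := by rw [Matrix.mul_assoc]
      _ = (R g⁻¹)ᴴ * H := by rw [← hmul, inv_mul_cancel, hone, Matrix.mul_one]
  have h1 : ∀ g, R g * H⁻¹ = H⁻¹ * (R g⁻¹)ᴴ := by
    intro g
    calc R g * H⁻¹ = H⁻¹ * (H * R g) * H⁻¹ := by
          rw [← Matrix.mul_assoc, Matrix.nonsing_inv_mul _ hHd, Matrix.one_mul]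
      _ = H⁻¹ * ((R g⁻¹)ᴴ * H) * H⁻¹ := by rw [hH]
      _ = H⁻¹ * (R g⁻¹)ᴴ := by
          rw [Matrix.mul_assoc, Matrix.mul_assoc, Matrix.mul_nonsing_inv _ hHd, Matrix.mul_one]
  have h2 : ∀ g, cj M * cj (R g) = (R g⁻¹)ᴴ * cj M := by
    intro g
    rw [← map_mul, hM, map_mul, cj_transpose]
  obtain ⟨N₀, hN₀⟩ : ∃ N₀ : Matrix (Fin n) (Fin n) ℂ, N₀ = H⁻¹ * cj M := ⟨_, rfl⟩
  have h3 : ∀ g, R g * N₀ = N₀ * cj (R g) := by
    intro g
    rw [hN₀, ← Matrix.mul_assoc, h1, Matrix.mul_assoc, ← h2, Matrix.mul_assoc]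
  have h4 : ∀ g, R g * (N₀ * cj N₀) = (N₀ * cj N₀) * R g := by
    intro g
    calc R g * (N₀ * cj N₀) = (N₀ * cj (R g)) * cj N₀ := by rw [← Matrix.mul_assoc, h3]
      _ = N₀ * cj (R g * N₀) := by rw [map_mul, Matrix.mul_assoc]
      _ = N₀ * cj (N₀ * cj (R g)) := by rw [h3]
      _ = (N₀ * cj N₀) * R g := by rw [map_mul, cj_cj, Matrix.mul_assoc]
  obtain ⟨c, hc⟩ := hschur _ h4
  -- positivity of c
  obtain ⟨Q, hQ⟩ : ∃ Q : Matrix (Fin n) (Fin n) ℂ, Q = cj H⁻¹ := ⟨_, rfl⟩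
  have hQpd : Q.PosDef := by
    have e : Q = (H⁻¹)ᵀ := by
      rw [hQ, cj_eq, hHpd.inv.isHermitian.eq]
    rw [e]
    exact hHpd.inv.transpose
  have hcjM : cj M = Mᴴ := by rw [← cj_transpose, hMs]
  have hMinj : Function.Injective M.mulVec :=
    Matrix.mulVec_injective_iff_isUnit.2 ((Matrix.isUnit_iff_isUnit_det M).2 hMu)
  have hpd2 : (Mᴴ * Q * M).PosDef := hQpd.conjTranspose_mul_mul_same hMinj
  have hcH : Mᴴ * Q * M = c • H := by
    have e1 : N₀ * cj N₀ = H⁻¹ * (Mᴴ * Q * M) := by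
      rw [hN₀, map_mul, cj_cj, hcjM, ← hQ, Matrix.mul_assoc, Matrix.mul_assoc]
    calc Mᴴ * Q * M = H * (H⁻¹ * (Mᴴ * Q * M)) := by
          rw [← Matrix.mul_assoc, Matrix.mul_nonsing_inv _ hHd, Matrix.one_mul]
      _ = H * (c • 1) := by rw [← e1, hc]
      _ = c • H := by rw [Matrix.mul_smul, Matrix.mul_one]
  rw [hcH] at hpd2
  have ha := hHpd.diag_pos (i := ⟨0, hn⟩)
  have hca := hpd2.diag_pos (i := ⟨0, hn⟩)
  rw [Matrix.smul_apply, smul_eq_mul] at hca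
  set a := H ⟨0, hn⟩ ⟨0, hn⟩ with hadef
  rw [Complex.pos_iff] at ha hca
  have him : c.im = 0 := by
    have := hca.2
    rw [Complex.mul_im, ← ha.2, mul_zero, zero_add] at this
    exact (mul_eq_zero.1 this.symm).resolve_right ha.1.ne'
  have hre : 0 < c.re := by
    have := hca.1
    rw [Complex.mul_re, him, zero_mul, sub_zero] at this
    exact (pos_iff_pos_of_mul_pos this).2 ha.1
  set s : ℝ := Real.sqrt c.re with hs
  have hspos : 0 < s := Real.sqrt_pos.2 hre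
  have hss : (s : ℂ) * s = c := by
    apply Complex.ext
    · simp [Real.mul_self_sqrt hre.le, hs]
    · simp [him]
  have hs0 : (s : ℂ) ≠ 0 := by exact_mod_cast hspos.ne'
  obtain ⟨N, hN⟩ : ∃ N : Matrix (Fin n) (Fin n) ℂ, N = (s : ℂ)⁻¹ • N₀ := ⟨_, rfl⟩
  have hNN : N * cj N = 1 := by
    rw [hN, cj_smul, Matrix.smul_mul, Matrix.mul_smul, hc, smul_smul, smul_smul, map_inv₀,
      Complex.conj_ofReal, ← hss]
    have : (s : ℂ)⁻¹ * (s : ℂ)⁻¹ * (s * s) = 1 := by field_simp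
    rw [this, one_smul]
  have h5 : ∀ g, R g * N = N * cj (R g) := by
    intro g
    rw [hN, Matrix.mul_smul, h3, Matrix.smul_mul]
  obtain ⟨P, hPu, hP⟩ := hilbert90_mat N hNN
  refine ⟨P, hPu, fun g => ?_⟩
  have e1 : P * (P⁻¹ * R g * P) = R g * P := by
    rw [← Matrix.mul_assoc, ← Matrix.mul_assoc, Matrix.mul_nonsing_inv _ hPu, Matrix.one_mul]
  have e2 : P * cj (P⁻¹ * R g * P) = R g * P := by
    calc P * cj (P⁻¹ * R g * P) = N * cj (P * (P⁻¹ * R g * P)) := by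
          rw [map_mul cj P, ← Matrix.mul_assoc, hP]
      _ = N * cj (R g * P) := by rw [e1]
      _ = R g * (N * cj P) := by rw [map_mul, ← Matrix.mul_assoc, ← h5, Matrix.mul_assoc]
      _ = R g * P := by rw [hP]
  calc cj (P⁻¹ * R g * P) = P⁻¹ * (P * cj (P⁻¹ * R g * P)) := by
        rw [← Matrix.mul_assoc, Matrix.nonsing_inv_mul _ hPu, Matrix.one_mul]
    _ = P⁻¹ * R g * P := by rw [e2, Matrix.mul_assoc]

end Cfsg.Agent.Lib.Helper25
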