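import Mathlib
import Cfsg.Agent.Lib.Helper25.RealRep2
import Cfsg.Agent.Lib.Helper25.FrobSchur4
import Cfsg.Agent.Lib.Helper25.CosetNorm

set_option autoImplicit false

namespace Cfsg.Agent.Lib.Helper25

open Cfsg Matrix
open scoped ComplexConjugate

universe u
variable {G : Type u} [Group G]

theorem ofReal_mapMatrix_injective {n : ℕ} (X Y : Matrix (Fin n) (Fin n) ℝ)
    (h : Complex.ofRealHom.mapMatrix X = Complex.ofRealHom.mapMatrix Y) : X = Y := by
  ext i j
  have := congrFun (congrFun h i) j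
  simpa using this

theorem trace_toLin'_real {n : ℕ} (A : Matrix (Fin n) (Fin n) ℝ) :
    LinearMap.trace ℝ (Fin n → ℝ) (Matrix.toLin' A) = A.trace := by
  rw [LinearMap.trace_eq_matrix_trace ℝ (Pi.basisFun ℝ (Fin n))]
  show (LinearMap.toMatrix' (Matrix.toLin' A)).trace = _
  rw [LinearMap.toMatrix'_toLin']

theorem real_rep_of_fsInd_eq_one [Fintype G] {χ : G → ℂ} (hχ : IsIrrCharacter G χ)
    (h : fsInd χ = 1) :
    ∃ (n : ℕ) (ρ : Representation ℝ G (Fin n → ℝ)),
      ∀ g : G, ((LinearMap.trace ℝ (Fin n → ℝ) (ρ g) : ℝ) : ℂ) = χ g := by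
  have hconj := conj_eq_of_fsInd_eq_one hχ h
  have hc := Cfsg.Agent.Lib.Helper2.IsIrrCharacter.isCharacter hχ
  have hreal : ∀ g, χ g⁻¹ = χ g := fun g => by
    rw [← Cfsg.Agent.Lib.Helper2.IsCharacter.conj_eq_inv hc, hconj]
  obtain ⟨n, ρ, hirr, rfl⟩ := hχ
  obtain ⟨⟨M, hM0, hM⟩, -, hall⟩ := fs_real ρ hreal
  have hMs : Mᵀ = M := by rw [hall M hM, h, one_smul]
  have hMu : IsUnit M.det := (Matrix.isUnit_iff_isUnit_det M).1 (hM.isUnit hM0)
  have hn : 0 < n := by
    have := Cfsg.Agent.Lib.Helper2.finrank_pos_of_irr ρ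
    simpa only [Module.finrank_fin_fun] using this
  obtain ⟨P, hPu, hP⟩ := exists_real_form (mat ρ) hn (mat_mul ρ) (mat_one ρ)
    (fun K hK => by
      obtain ⟨c, hc⟩ := Cfsg.Agent.Lib.Helper2.schur ρ (Matrix.toLin' K) (fun g => by
        have e : ρ g = Matrix.toLin' (mat ρ g) := (Matrix.toLin'_toMatrix' _).symm
        rw [e, ← Matrix.toLin'_mul, ← Matrix.toLin'_mul, hK])
      refine ⟨c, ?_⟩
      apply (Matrix.toLin' (R := ℂ)).injective
      rw [hc, map_smul, Matrix.toLin'_one]) M hMu hMs hM.mul_mat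
  obtain ⟨B, hB⟩ : ∃ B : G → Matrix (Fin n) (Fin n) ℂ, ∀ g, B g = P⁻¹ * mat ρ g * P :=
    ⟨_, fun _ => rfl⟩
  have hBmul : ∀ g k, B (g * k) = B g * B k := by
    intro g k
    rw [hB, hB, hB, mat_mul]
    calc P⁻¹ * (mat ρ g * mat ρ k) * P = P⁻¹ * mat ρ g * 1 * (mat ρ k * P) := by
          simp only [Matrix.mul_assoc, Matrix.one_mul]
      _ = P⁻¹ * mat ρ g * P * (P⁻¹ * mat ρ k * P) := by
          rw [← Matrix.mul_nonsing_inv _ hPu]
          simp only [Matrix.mul_assoc]
  have hBone : B 1 = 1 := by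
    rw [hB, mat_one, Matrix.mul_one, Matrix.nonsing_inv_mul _ hPu]
  have hA : ∀ g, Complex.ofRealHom.mapMatrix ((B g).map Complex.re) = B g := by
    intro g
    ext i j
    have := congrFun (congrFun (hP g) i) j
    rw [← hB] at this
    simp only [RingHom.mapMatrix_apply, Matrix.map_apply] at this ⊢
    exact Complex.conj_eq_iff_real.1 this |>.choose_spec ▸ by simp
  refine ⟨n, { toFun := fun g => Matrix.toLin' ((B g).map Complex.re)
               map_one' := ?_
               map_mul' := ?_ }, fun g => ?_⟩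
  · have : (B 1).map Complex.re = 1 := by
      apply ofReal_mapMatrix_injective
      rw [hA, hBone, map_one]
    rw [this, Matrix.toLin'_one]
    rfl
  · intro g k
    have : (B (g * k)).map Complex.re = (B g).map Complex.re * (B k).map Complex.re := by
      apply ofReal_mapMatrix_injective
      rw [map_mul, hA, hA, hA, hBmul]
    rw [this, Matrix.toLin'_mul]
    rfl
  · show ((LinearMap.trace ℝ (Fin n → ℝ) (Matrix.toLin' ((B g).map Complex.re)) : ℝ) : ℂ) = _
    rw [trace_toLin'_real, ← trace_mat]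
    have e1 : ((((B g).map Complex.re).trace : ℝ) : ℂ) = (B g).trace := by
      conv_rhs => rw [← hA g]
      simp [Matrix.trace]
    rw [e1, hB, Matrix.trace_mul_comm, ← Matrix.mul_assoc, Matrix.mul_nonsing_inv _ hPu,
      Matrix.one_mul]

end Cfsg.Agent.Lib.Helper25
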