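import Mathlib
import Cfsg.Agent.Lib.Helper25.RealRep3

set_option autoImplicit false

namespace Cfsg.Agent.Lib.Helper25

open Cfsg Matrix
open scoped ComplexConjugate

universe u
variable {G : Type u} [Group G]

theorem fsInd_eq_one_of_real_rep [Fintype G] {χ : G → ℂ} (hχ : IsIrrCharacter G χ)
    (n : ℕ) (τ : Representation ℝ G (Fin n → ℝ))
    (hτ : ∀ g : G, ((LinearMap.trace ℝ (Fin n → ℝ) (τ g) : ℝ) : ℂ) = χ g) :
    fsInd χ = 1 := by
  obtain ⟨A, hA⟩ : ∃ A : G → Matrix (Fin n) (Fin n) ℝ, ∀ g, A g = LinearMap.toMatrix' (τ g) :=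
    ⟨_, fun _ => rfl⟩
  have hAmul : ∀ g k, A (g * k) = A g * A k := by
    intro g k
    rw [hA, hA, hA, map_mul]
    exact LinearMap.toMatrix'_mul _ _
  have hAone : A 1 = 1 := by
    rw [hA, map_one]
    exact LinearMap.toMatrix'_one
  have hAtr : ∀ g, (((A g).trace : ℝ) : ℂ) = χ g := by
    intro g
    rw [← hτ, hA, LinearMap.trace_eq_matrix_trace ℝ (Pi.basisFun ℝ (Fin n))]
    rfl
  let σ : Representation ℂ G (Fin n → ℂ) :=
    { toFun := fun g => Matrix.toLin' (Complex.ofRealHom.mapMatrix (A g))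
      map_one' := by
        rw [hAone, map_one, Matrix.toLin'_one]; rfl
      map_mul' := fun g k => by
        rw [hAmul, map_mul, Matrix.toLin'_mul]; rfl }
  have hmat : ∀ g, mat σ g = Complex.ofRealHom.mapMatrix (A g) := by
    intro g
    show LinearMap.toMatrix' (Matrix.toLin' (Complex.ofRealHom.mapMatrix (A g))) = _
    rw [LinearMap.toMatrix'_toLin']
  have hσ : σ.character = χ := by
    funext g
    rw [← trace_mat, hmat, ← hAtr]
    simp [Matrix.trace]
  haveI hirr : σ.IsIrreducible := isIrreducible_of_isIrrCharacter σ (by rw [hσ]; exact hχ)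
  have hc := Cfsg.Agent.Lib.Helper2.IsIrrCharacter.isCharacter hχ
  have hreal : ∀ g, σ.character g⁻¹ = σ.character g := by
    intro g
    rw [hσ, ← Cfsg.Agent.Lib.Helper2.IsCharacter.conj_eq_inv hc, ← hAtr, Complex.conj_ofReal]
  obtain ⟨-, -, hall⟩ := fs_real σ hreal
  have hn : 0 < n := by
    have := Cfsg.Agent.Lib.Helper2.finrank_pos_of_irr σ
    simpa only [Module.finrank_fin_fun] using this
  have hS := isInvForm_avg σ 1
  obtain ⟨S, hSdef⟩ : ∃ S : Matrix (Fin n) (Fin n) ℂ, S = ∑ g, (mat σ g)ᵀ * 1 * mat σ g :=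
    ⟨_, rfl⟩
  rw [← hSdef] at hS
  have hSs : Sᵀ = S := by
    rw [hSdef, Matrix.transpose_sum]
    refine Finset.sum_congr rfl (fun g _ => ?_)
    simp only [Matrix.mul_one, Matrix.transpose_mul, Matrix.transpose_transpose]
  have hS0 : S ≠ 0 := by
    intro h0
    have h1 := congrFun (congrFun h0 ⟨0, hn⟩) ⟨0, hn⟩
    have h2 : S ⟨0, hn⟩ ⟨0, hn⟩ = ((∑ g, ∑ k, A g k ⟨0, hn⟩ * A g k ⟨0, hn⟩ : ℝ) : ℂ) := by
      rw [hSdef]
      simp only [Matrix.sum_apply, Matrix.mul_one, Matrix.mul_apply, Matrix.transpose_apply, hmat,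
        RingHom.mapMatrix_apply, Matrix.map_apply, Complex.ofRealHom_eq_coe]
      push_cast
      rfl
    rw [h2, Matrix.zero_apply] at h1
    have h3 : (∑ g, ∑ k, A g k ⟨0, hn⟩ * A g k ⟨0, hn⟩ : ℝ) = 0 := by exact_mod_cast h1
    have h4 := (Finset.sum_eq_zero_iff_of_nonneg (fun g _ =>
      Finset.sum_nonneg (fun k _ => mul_self_nonneg _))).1 h3 1 (Finset.mem_univ _)
    have h5 := (Finset.sum_eq_zero_iff_of_nonneg (fun k _ => mul_self_nonneg _)).1 h4 ⟨0, hn⟩
      (Finset.mem_univ _)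
    rw [hAone] at h5
    simp at h5
  have h1 := hall S hS
  rw [hSs, hσ] at h1
  by_contra hne
  apply hS0
  have h2 : (1 - fsInd χ) • S = 0 := by rw [sub_smul, one_smul, ← h1, sub_self]
  rcases smul_eq_zero.1 h2 with h3 | h3
  · exact absurd (sub_eq_zero.1 h3).symm hne
  · exact h3

end Cfsg.Agent.Lib.Helper25
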